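import Cfsg.Agent.LargeFischer58.Basic

/-!
Large Fischer type: the local facts in `C(z)` around the four group `E`: the `Q`-orbits of the
noncentral members of the elementary subgroup, and lifting from the frame to `C(E)`.
-/

set_option autoImplicit false
set_option maxRecDepth 100000

namespace CfsgLib.LargeFischer58

open Cfsg CfsgLib.LargeFischer85 CfsgLib.LargeFischer28 CfsgLib.LargeFischer45

/-- Any pattern of commutation with the two vectors of the line occurs. -/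
theorem c_dual : ∀ s t : Bool, ∃ v : W, decide (orth v e1) = s ∧ decide (orth v e2) = t := by
  decide +kernel

namespace Cfg

variable {G : Type*} [Group G] [Finite G] {z : G} {Q : Subgroup ↥(CG z)} [Q.Normal]
  (C : Cfg z Q)

omit [Finite G] in
omit [Q.Normal] in
theorem coe_mem_QG {h : ↥(CG z)} : (h : G) ∈ Q.map (CG z).subtype ↔ h ∈ Q :=
  Subgroup.mem_map_iff_mem (Subgroup.subtype_injective _)

omit [Finite G] in
theorem coe_mem_AG {A : Subgroup ↥(CG z)} {h : ↥(CG z)} : (h : G) ∈ A.map (CG z).subtype ↔ h ∈ A :=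
  Subgroup.mem_map_iff_mem (Subgroup.subtype_injective _)

omit [Finite G] in
theorem Q_conj_mem {h : ↥(CG z)} (hh : h ∈ Q) (g : ↥(CG z)) : g * h * g⁻¹ ∈ Q :=
  (inferInstance : Q.Normal).conj_mem h hh g

theorem fhom_eq_iff {x y : ↥(CG z)} : fhom C.act x = fhom C.act y ↔ x⁻¹ * y ∈ Q := by
  rw [← fhom_ker C.std.model, map_mul, map_inv, inv_mul_eq_one]

/-- The noncentral members of `A` outside `Q` over one member of `A₀`. -/
noncomputable def fib (a : Equiv.Perm W) : Finset ↥(CG z) :=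
  ({h : ↥(CG z) | h ∈ C.A ∧ Other z (h : G) ∧ h ∉ Q ∧ fhom C.act h = a}).toFinite.toFinset

theorem mem_fib {a : Equiv.Perm W} {h : ↥(CG z)} :
    h ∈ C.fib a ↔ h ∈ C.A ∧ Other z (h : G) ∧ h ∉ Q ∧ fhom C.act h = a := by
  simp [fib]

theorem fib_card_le {a b : Equiv.Perm W} (ha : inA0 a) (hb : inA0 b) (ha1 : a ≠ 1) (hb1 : b ≠ 1) :
    (C.fib a).card ≤ (C.fib b).card := by
  classical
  obtain ⟨m, hm, hmab⟩ := LargeFischer28.exists_mover ha hb ha1 hb1
  obtain ⟨n, rfl⟩ := hm.sq _ (fhom_range C.std.model).1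
  refine Finset.card_le_card_of_injOn (fun h => n * h * n⁻¹) (fun h hh => ?_)
    fun x _ y _ e => mul_left_cancel (mul_right_cancel e)
  obtain ⟨hA, ho, hQ, rfl⟩ := C.mem_fib.1 hh
  refine C.mem_fib.2 ⟨(Subgroup.mem_normalizer_iff.1 (C.std.mem_normalizer hm.stab) h).1 hA, ?_,
    fun h' => hQ ?_, by rw [map_mul, map_mul, map_inv, hmab]⟩
  · simpa using (other_conj (z := z) (n : G)).2 ho
  · have := Q_conj_mem h' n⁻¹
    simpa [mul_assoc] using this

theorem fib_card {a : Equiv.Perm W} (ha : inA0 a) (ha1 : a ≠ 1) : (C.fib a).card = 16 := by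
  classical
  set L := C.facts.loc
  obtain ⟨-, hD, hall⟩ := L.card_sets
  set F := ({h : ↥(CG z) | h ∈ C.A ∧ Other z (h : G) ∧ h ∉ Q}).toFinite.toFinset with hFdef
  have hmemF : ∀ h, h ∈ F ↔ h ∈ C.A ∧ Other z (h : G) ∧ h ∉ Q := fun h => by simp [hFdef]
  have hF : F.card = 240 := by
    have hmap : F.map (Function.Embedding.subtype _) =
        (dSet z C.QG C.AG).filter fun u => u ∉ C.QG := by
      ext u
      simp only [Finset.mem_map, Finset.mem_filter, Function.Embedding.coe_subtype]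
      constructor
      · rintro ⟨h, hh, rfl⟩
        obtain ⟨hA, ho, hQ⟩ := (hmemF h).1 hh
        exact ⟨hall _ (coe_mem_AG.2 hA) ho.1 ho.2, fun e => hQ (coe_mem_QG.1 e)⟩
      · rintro ⟨hd, hQ⟩
        obtain ⟨⟨h, hA, rfl⟩, ho, -⟩ := mem_sel.1 hd
        exact ⟨h, (hmemF h).2 ⟨hA, ho, fun e => hQ (coe_mem_QG.2 e)⟩, rfl⟩
    have hsplit := Finset.card_filter_add_card_filter_not (s := dSet z C.QG C.AG)
      (fun u => u ∈ C.QG)
    have h36 : ((dSet z C.QG C.AG).filter fun u => u ∈ C.QG).card = 36 := by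
      rw [← L.card_inter_d]
      congr 1
      ext u
      simp only [Finset.mem_filter, mem_sel]
      exact ⟨fun ⟨h1, h2⟩ => ⟨(mem_sel.1 h1).1, h2, h1⟩, fun ⟨_, h2, h3⟩ => ⟨h3, h2⟩⟩
    rw [h36, hD, ← hmap, Finset.card_map] at hsplit
    omega
  let T : Finset (Equiv.Perm W) := ((A0 : Set (Equiv.Perm W)) \ {1}).toFinite.toFinset
  have hT : T.card = 15 := by
    rw [← Set.ncard_eq_toFinset_card, Set.ncard_sdiff_singleton_of_mem A0.one_mem,
      ← Nat.card_coe_set_eq]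
    show Nat.card A0 - 1 = 15
    rw [card_A0]
  have hmaps : ∀ h ∈ F, fhom C.act h ∈ T := by
    intro h hh
    obtain ⟨hA, -, hQ⟩ := (hmemF h).1 hh
    simp only [T, Set.Finite.mem_toFinset, Set.mem_sdiff, SetLike.mem_coe, Set.mem_singleton_iff]
    exact ⟨((C.std.mem_iff h).1 hA).1, fun e => hQ ((fhom_ker C.std.model h).1 e)⟩
  have hsum := Finset.card_eq_sum_card_fiberwise hmaps
  rw [Finset.sum_congr rfl (g := fun _ => (C.fib a).card) fun b hb => ?_, Finset.sum_const, hT,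
    hF, smul_eq_mul] at hsum
  · omega
  obtain ⟨hb0, hb1⟩ : inA0 b ∧ b ≠ 1 := by
    simpa [T, mem_A0] using hb
  rw [show F.filter (fun h => fhom C.act h = b) = C.fib b by
    ext h; simp only [Finset.mem_filter, hmemF, C.mem_fib]; tauto]
  exact le_antisymm (C.fib_card_le hb0 ha hb1 ha1) (C.fib_card_le ha hb0 ha1 hb1)

theorem exists_other_lift {u : Equiv.Perm W} (hu : inA0 u) (h1 : u ≠ 1) :
    ∃ h ∈ C.A, Other z (h : G) ∧ h ∉ Q ∧ fhom C.act h = u := by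
  obtain ⟨h, hh⟩ := Finset.card_pos.1 (show 0 < (C.fib u).card by rw [C.fib_card hu h1]; norm_num)
  exact ⟨h, C.mem_fib.1 hh⟩

theorem card_Q (C : Cfg z Q) : Nat.card ↥Q = 2 ^ 13 := by
  rw [← Nat.card_congr (Equiv.subtypeUnivEquiv (p := fun q : ↥Q => (fun _ => True) (C.pr q))
      fun _ => trivial), card_subset C.std.model (fun _ => True),
    Nat.card_congr (Equiv.subtypeUnivEquiv fun _ => trivial), Nat.card_fin]
  norm_num

theorem orbit_and_fix {h : ↥(CG z)} (hA : h ∈ C.A) (ho : Other z (h : G)) (hQ : h ∉ Q) :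
    (∀ y ∈ C.fib (fhom C.act h), ∃ q ∈ Q, q * h * q⁻¹ = y) ∧
      ∀ q : ↥Q, fhom C.act h (C.pr q) = C.pr q → h * q = q * h := by
  classical
  set a := fhom C.act h with ha
  have ha0 : inA0 a := ((C.std.mem_iff h).1 hA).1
  have ha1 : a ≠ 1 := fun e => hQ ((fhom_ker C.std.model h).1 e)
  let S := (C.fib a).filter fun y => ∃ q ∈ Q, q * h * q⁻¹ = y
  have hS : ∀ y, y ∈ S ↔ ∃ q ∈ Q, q * h * q⁻¹ = y := by
    refine fun y => ⟨fun hy => (Finset.mem_filter.1 hy).2, fun hy => ?_⟩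
    obtain ⟨q, hq, rfl⟩ := hy
    refine Finset.mem_filter.2 ⟨C.mem_fib.2
      ⟨(Subgroup.mem_normalizer_iff.1 (C.std.Q_le_normalizer hq) h).1 hA, ?_, fun h' => hQ ?_, ?_⟩,
      q, hq, rfl⟩
    · simpa using (other_conj (z := z) (q : G)).2 ho
    · have := Q_conj_mem h' q⁻¹
      simpa [mul_assoc] using this
    · rw [map_mul, map_mul, map_inv, (fhom_ker C.std.model q).2 hq, one_mul, inv_one, mul_one]
  have hprod := card_eq_orbit_mul Q h S hS
  rw [C.card_Q] at hprod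
  -- the centraliser in `Q` lies in the preimage of the fixed space
  let f : ↥(Q ⊓ Subgroup.centralizer ({h} : Set ↥(CG z))) → {q : ↥Q // a (C.pr q) = C.pr q} :=
    fun n => ⟨⟨n.1, n.2.1⟩, fix_of_comm C.std.model
      (Subgroup.mem_centralizer_singleton_iff.1 n.2.2).symm⟩
  have hf : Function.Injective f := fun m n e => Subtype.ext
    (congrArg (fun x : {q : ↥Q // a (C.pr q) = C.pr q} => ((x.1 : ↥Q) : ↥(CG z))) e)
  have h512 : Nat.card {q : ↥Q // a (C.pr q) = C.pr q} ≤ 512 := by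
    rw [card_subset C.std.model (fun v => a v = v)]
    have := card_fix_le ha0 ha1
    omega
  have hle := Nat.card_le_card_of_injective f hf
  have hS16 : S.card ≤ 16 := C.fib_card ha0 ha1 ▸ Finset.card_filter_le _ _
  have heq : S.card = 16 ∧
      Nat.card {q : ↥Q // a (C.pr q) = C.pr q} ≤ Nat.card ↥(Q ⊓ Subgroup.centralizer ({h} : Set ↥(CG z))) := by
    constructor <;> nlinarith
  refine ⟨fun y hy => ?_, fun q hq => ?_⟩
  · have hSeq : S = C.fib a := Finset.eq_of_subset_of_card_le (Finset.filter_subset _ _)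
      (by rw [C.fib_card ha0 ha1]; exact heq.1.ge)
    rw [← hSeq] at hy
    exact (hS y).1 hy
  · obtain ⟨n, hn⟩ := ((hf.bijective_of_nat_card_le heq.2).2 ⟨q, hq⟩)
    have e : (n : ↥(CG z)) = q := congrArg
      (fun x : {q : ↥Q // a (C.pr q) = C.pr q} => ((x.1 : ↥Q) : ↥(CG z))) hn
    rw [← e]
    exact (Subgroup.mem_centralizer_singleton_iff.1 n.2.2).symm

theorem comm_full {h : ↥(CG z)} (hA : h ∈ C.A) (ho : Other z (h : G)) (hQ : h ∉ Q) :
    ∀ q : ↥Q, fhom C.act h (C.pr q) = C.pr q → h * q = q * h :=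
  (C.orbit_and_fix hA ho hQ).2

/-- The noncentral members of a coset of `A ∩ Q` outside `Q` form one `Q`-orbit. -/
theorem orbit_mem {x y : G} (hx : x ∈ C.AG) (hxo : Other z x) (hxQ : x ∉ C.QG) (hy : y ∈ C.AG)
    (hyo : Other z y) (hxy : x * y ∈ C.QG) : ∃ q ∈ C.QG, q * x * q⁻¹ = y := by
  obtain ⟨x, hx', rfl⟩ := hx
  obtain ⟨y, hy', rfl⟩ := hy
  have hxQ' : x ∉ Q := fun e => hxQ (coe_mem_QG.2 e)
  have hxy' : x * y ∈ Q := coe_mem_QG.1 (by simpa using hxy)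
  have hy : y ∈ C.fib (fhom C.act x) := by
    refine C.mem_fib.2 ⟨hy', hyo, fun e => hxQ' ?_, ?_⟩
    · simpa using Q.mul_mem hxy' (Q.inv_mem e)
    · have h1 := (fhom_ker C.std.model _).2 hxy'
      rw [map_mul, mul_eq_one_iff_inv_eq, ← map_inv,
        inv_eq_of_mul_eq_one_right (C.std.sq x hx')] at h1
      exact h1.symm
  obtain ⟨q, hq, e⟩ := (C.orbit_and_fix hx' hxo hxQ').1 y hy
  exact ⟨q, coe_mem_QG.2 hq, by simpa using congrArg Subtype.val e⟩

theorem mem_of_conj {g h : ↥(CG z)} (hg : g * h * g⁻¹ ∈ C.A) (ho : Other z (h : G)) (hQ : h ∉ Q)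
    (hu : inA0 (fhom C.act h)) : h ∈ C.A := by
  refine (C.std.mem_iff h).2 ⟨hu, fun q hq => ?_⟩
  have hfix : fhom C.act h (C.pr q) = C.pr q := (b0_spec hq).2.1 _ hu
  obtain ⟨r, hr, hpr⟩ := act_pr' C.std.model g q
  have := C.comm_full hg (by simpa using (other_conj (z := z) (g : G)).2 ho)
    (fun e => hQ (by simpa [mul_assoc] using Q_conj_mem e g⁻¹)) r (by
      rw [hpr, map_mul, map_mul, map_inv]
      simp [Equiv.Perm.mul_apply, hfix])
  rw [hr] at this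
  calc h * q = g⁻¹ * ((g * h * g⁻¹) * (g * q * g⁻¹)) * g := by group
    _ = g⁻¹ * ((g * q * g⁻¹) * (g * h * g⁻¹)) * g := by rw [this]
    _ = q * h := by group

omit [Finite G] in
theorem mem_centralizer_closure_pair {s t g : G} :
    g ∈ Subgroup.centralizer (Subgroup.closure ({s, t} : Set G) : Set G) ↔
      g * s = s * g ∧ g * t = t * g := by
  rw [Subgroup.centralizer_closure, Subgroup.mem_centralizer_iff]
  refine ⟨fun h => ⟨(h s (by simp)).symm, (h t (by simp)).symm⟩, ?_⟩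
  rintro ⟨h₁, h₂⟩ x (rfl | rfl)
  exacts [h₁.symm, h₂.symm]

theorem mem_CE_iff {g : G} :
    g ∈ C.CE ↔ g * C.d C.a C.b = C.d C.a C.b * g ∧ g * C.d C.b C.c = C.d C.b C.c * g :=
  mem_centralizer_closure_pair

/-- The members of `E`, with their vectors. -/
theorem E_cases {x : G} (hx : x ∈ C.E) :
    ∃ q : ↥Q, ((q : ↥(CG z)) : G) = x ∧ InE (C.pr q) ∧ (x = 1 ∨ Other z x) := by
  obtain ⟨q1, p1, c1⟩ := C.q1
  obtain ⟨q2, p2, c2⟩ := C.q2
  have hQsq : ∀ q : ↥Q, ((q : ↥(CG z)) : G) ∈ C.AG → q * q = 1 := fun q h =>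
    Subtype.ext (C.std.sq _ (coe_mem_AG.1 h))
  have s1 := hQsq q1 (c1 ▸ C.duads.mem _ _ C.hab)
  have s2 := hQsq q2 (c2 ▸ C.duads.mem _ _ C.hbc)
  have h12 : q1 * q2 = q2 * q1 := Subtype.ext (C.std.comm
    (coe_mem_AG.1 (c1 ▸ C.duads.mem _ _ C.hab)) (coe_mem_AG.1 (c2 ▸ C.duads.mem _ _ C.hbc)))
  have h12a : ∀ w, q1 * (q2 * w) = q2 * (q1 * w) := fun w => by rw [← mul_assoc, h12, mul_assoc]
  have s1a : ∀ w, q1 * (q1 * w) = w := fun w => by rw [← mul_assoc, s1, one_mul]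
  have s2a : ∀ w, q2 * (q2 * w) = w := fun w => by rw [← mul_assoc, s2, one_mul]
  let K : Subgroup ↥Q :=
    { carrier := {q | q = 1 ∨ q = q1 ∨ q = q2 ∨ q = q1 * q2}
      one_mem' := Or.inl rfl
      mul_mem' := by
        rintro _ _ (rfl | rfl | rfl | rfl) (rfl | rfl | rfl | rfl) <;>
          simp only [Set.mem_ofPred_eq, one_mul, mul_one, mul_assoc, s1, s2, s1a, ← h12, ← h12a,
            true_or, or_true]
      inv_mem' := by
        rintro _ (rfl | rfl | rfl | rfl) <;>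
          simp only [Set.mem_ofPred_eq, inv_one, mul_inv_rev, inv_eq_of_mul_eq_one_right s1,
            inv_eq_of_mul_eq_one_right s2, ← h12, true_or, or_true] }
  have hle : C.E ≤ K.map ((CG z).subtype.comp Q.subtype) := by
    rw [E, Subgroup.closure_le]
    rintro y (rfl | rfl)
    · exact ⟨q1, Or.inr (Or.inl rfl), c1⟩
    · exact ⟨q2, Or.inr (Or.inr (Or.inl rfl)), c2⟩
  obtain ⟨q, hq, rfl⟩ := hle hx
  refine ⟨q, rfl, ?_⟩
  have hval : ∀ q : ↥Q, ((CG z).subtype.comp Q.subtype) q = ((q : ↥(CG z)) : G) := fun _ => rfl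
  rcases hq with rfl | rfl | rfl | rfl
  · exact ⟨Or.inl ((C.std.model.pr_zero 1).2 (Or.inl rfl)), Or.inl (map_one _)⟩
  · exact ⟨Or.inr (Or.inl p1), Or.inr (hval q ▸ c1 ▸ C.duads.other _ _ C.hab)⟩
  · exact ⟨Or.inr (Or.inr (Or.inl p2)), Or.inr (hval q ▸ c2 ▸ C.duads.other _ _ C.hbc)⟩
  · refine ⟨Or.inr (Or.inr (Or.inr (by rw [C.std.model.pr_mul, p1, p2]))), Or.inr ?_⟩
    rw [map_mul, hval, hval, c1, c2, C.duads.tri _ _ _ C.hab C.hbc C.hac]
    exact C.duads.other _ _ C.hac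

theorem mem_CE_Q {q : ↥Q} : ((q : ↥(CG z)) : G) ∈ C.CE ↔ orth (C.pr q) e1 ∧ orth (C.pr q) e2 := by
  obtain ⟨q1, p1, c1⟩ := C.q1
  obtain ⟨q2, p2, c2⟩ := C.q2
  rw [C.mem_CE_iff, ← p1, ← p2, ← comm_iff_orth C.std.model, ← comm_iff_orth C.std.model,
    ← c1, ← c2, Subtype.ext_iff, Subtype.ext_iff]
  rfl

theorem image_CE {h : ↥(CG z)} (hh : (h : G) ∈ C.CE) :
    fhom C.act h ∈ stabE (fhom C.act).range := by
  obtain ⟨q1, p1, c1⟩ := C.q1
  obtain ⟨q2, p2, c2⟩ := C.q2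
  rw [C.mem_CE_iff, ← c1, ← c2] at hh
  exact ⟨⟨h, rfl⟩, p1 ▸ fix_of_comm C.std.model (Subtype.ext hh.1),
    p2 ▸ fix_of_comm C.std.model (Subtype.ext hh.2)⟩

theorem lift_stabE {u : Equiv.Perm W} (hu : u ∈ stabE (fhom C.act).range) :
    ∃ h : ↥(CG z), fhom C.act h = u ∧ (h : G) ∈ C.CE := by
  classical
  obtain ⟨⟨h0, rfl⟩, f1, f2⟩ := hu
  obtain ⟨q1, p1, c1⟩ := C.q1
  obtain ⟨q2, p2, c2⟩ := C.q2
  obtain ⟨v, hv1, hv2⟩ := c_dual (decide (Commute h0 (q1 : ↥(CG z))))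
    (decide (Commute h0 (q2 : ↥(CG z))))
  obtain ⟨q, rfl⟩ := C.std.model.pr_surj v
  refine ⟨h0 * q, ?_, ?_⟩
  · rw [map_mul, (fhom_ker C.std.model q).2 q.2, mul_one]
  have key : ∀ p : ↥Q, fhom C.act h0 (C.pr p) = C.pr p →
      (orth (C.pr q) (C.pr p) ↔ Commute h0 (p : ↥(CG z))) →
        h0 * q * p = (p : ↥(CG z)) * (h0 * q) := by
    intro p hfix hiff
    rw [← comm_iff_orth C.std.model] at hiff
    by_cases hc : h0 * p = p * h0
    · rw [mul_assoc, hiff.2 hc, ← mul_assoc, hc, mul_assoc]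
    · have hq' : (q : ↥(CG z)) * p = p * q * zC z :=
        (flip C.std.model (by rw [act_Q C.std.model]; rfl)).resolve_left fun e => hc (hiff.1 e)
      have hh' : h0 * p = p * h0 * zC z := (flip C.std.model hfix).resolve_left hc
      calc h0 * q * (p : ↥(CG z)) = h0 * (p * q * zC z) := by rw [mul_assoc, hq']
        _ = (h0 * p) * q * zC z := by group
        _ = p * h0 * (zC z * q) * zC z := by rw [hh']; group
        _ = p * h0 * (q * zC z) * zC z := by rw [zC_comm]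
        _ = p * (h0 * q) * (zC z * zC z) := by group
        _ = _ := by rw [zC_sq C.std.model, mul_one]
  simp only [decide_eq_decide] at hv1 hv2
  have k1 := congrArg Subtype.val (key q1 (p1 ▸ f1) (p1 ▸ hv1))
  have k2 := congrArg Subtype.val (key q2 (p2 ▸ f2) (p2 ▸ hv2))
  simp only [Subgroup.coe_mul, c1] at k1
  simp only [Subgroup.coe_mul, c2] at k2
  exact C.mem_CE_iff.2 ⟨k1, k2⟩

theorem comm_z {g : G} (_hg : g ∈ C.CE) (h : g * z * g⁻¹ * z⁻¹ ∈ C.E) : g * z = z * g := by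
  obtain ⟨q, hq, -, h1 | ho⟩ := C.E_cases h
  · exact mul_inv_eq_iff_eq_mul.1 (mul_inv_eq_one.1 h1)
  · exfalso
    have hmem : g * z * g⁻¹ * z⁻¹ ∈ C.QG := hq ▸ coe_mem_QG.2 q.2
    have := (C.facts.loc.mul_z hmem ho (IsConj.refl z)).2
    rw [inv_mul_cancel_right] at this
    exact this (isConj_iff.2 ⟨g, rfl⟩)

theorem sing_of_sq_mem {q : ↥Q} (h : ((q : ↥(CG z)) : G) * ((q : ↥(CG z)) : G) ∈ C.E) :
    sing (C.pr q) := by
  rcases sq_cases C.std.model q with e | e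
  · exact (C.std.model.pr_sq q).2 (Subtype.ext e)
  · have e' : ((q : ↥(CG z)) : G) * ((q : ↥(CG z)) : G) = z := congrArg Subtype.val e
    rw [e'] at h
    exact absurd h C.z_not_mem_E

/-- The covering of the involutions of `C(z̄)`, given the facts on the frame. -/
theorem cover_of
    (hmov : ∀ u ∈ stabE (fhom C.act).range, u * u = 1 → u ≠ 1 →
      ∃ h ∈ stabE (fhom C.act).range, inA0 (h * u * h⁻¹))
    (hfix : ∀ u, inA0 u → u ≠ 1 → ∀ v, orth v e1 → orth v e2 → InE (vadd v (u v)) → u v = v)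
    (hvec : ∀ v, sing v → orth v e1 → orth v e2 → ∃ h ∈ stabE (fhom C.act).range, inB0 (h v))
    (hpair : ∀ u, inA0 u → u ≠ 1 → ∀ v, sing v → orth v e1 → orth v e2 → u v = v →
      ∃ h ∈ stabE (fhom C.act).range, inB0 (h v) ∧ inA0 (h * u * h⁻¹))
    {j : G} (hj : j ∈ C.CE) (hjz : j * z = z * j) (hj2 : j * j ∈ C.E) :
    ∃ g ∈ C.CE, g * z = z * g ∧ g * j * g⁻¹ ∈ C.AG := by
  let h : ↥(CG z) := ⟨j, Subgroup.mem_centralizer_singleton_iff.2 hjz⟩
  have hE : ∀ g ∈ C.CE, g * (j * j) * g⁻¹ = j * j := fun g hg => by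
    rw [← Subgroup.mem_centralizer_iff.1 hg _ hj2, mul_inv_cancel_right]
  by_cases h1 : fhom C.act h = 1
  · have hQ : h ∈ Q := (fhom_ker C.std.model h).1 h1
    obtain ⟨o1, o2⟩ := C.mem_CE_Q.1 (show (((⟨h, hQ⟩ : ↥Q) : ↥(CG z)) : G) ∈ C.CE from hj)
    obtain ⟨w, hw, hB⟩ := hvec _ (C.sing_of_sq_mem (q := ⟨h, hQ⟩) hj2) o1 o2
    obtain ⟨g, rfl, hg⟩ := C.lift_stabE hw
    obtain ⟨r, hr, hpr⟩ := act_pr' C.std.model g ⟨h, hQ⟩
    refine ⟨g, hg, Subgroup.mem_centralizer_singleton_iff.1 g.2, ?_⟩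
    have := coe_mem_AG.2 ((C.std.memQ r).2 (hpr ▸ hB))
    simpa [hr] using this
  have hu2 : fhom C.act h * fhom C.act h = 1 := by
    obtain ⟨q, hq, -⟩ := C.E_cases hj2
    rw [← map_mul, fhom_ker C.std.model]
    have e : h * h = (q : ↥(CG z)) := Subtype.ext hq.symm
    rw [e]
    exact q.2
  obtain ⟨m, hm, hA0⟩ := hmov _ (C.image_CE hj) hu2 h1
  obtain ⟨g₁, rfl, hg₁⟩ := C.lift_stabE hm
  set k := g₁ * h * g₁⁻¹ with hk
  have hk0 : inA0 (fhom C.act k) := by rwa [map_mul, map_mul, map_inv]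
  have hk1 : fhom C.act k ≠ 1 := by
    rw [map_mul, map_mul, map_inv, Ne, conj_eq_one_iff]
    exact h1
  have hkCE : (k : G) ∈ C.CE := mul_mem (mul_mem hg₁ hj) (inv_mem hg₁)
  have hk2 : (k : G) * (k : G) ∈ C.E := by
    have : (k : G) * (k : G) = (g₁ : G) * (j * j) * (g₁ : G)⁻¹ := by
      simp only [hk, Subgroup.coe_mul, InvMemClass.coe_inv, h]
      group
    rw [this, hE _ hg₁]
    exact hj2
  obtain ⟨x, hxA, hxo, hxQ, hfx⟩ := C.exists_other_lift hk0 hk1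
  have hxq : x⁻¹ * k ∈ Q := C.fhom_eq_iff.1 hfx
  set q : ↥Q := ⟨x⁻¹ * k, hxq⟩ with hq
  have hxx := C.std.sq x hxA
  have hkxq : k = x * q := (mul_inv_cancel_left x k).symm
  have hxCE : (x : G) ∈ C.CE := C.AG_le_CE (coe_mem_AG.2 hxA)
  obtain ⟨o1, o2⟩ := (C.mem_CE_Q (q := q)).1 (by
    show ((x⁻¹ * k : ↥(CG z)) : G) ∈ C.CE
    exact mul_mem (inv_mem hxCE) hkCE)
  obtain ⟨r, hr, hpr⟩ := act_pr' C.std.model x q
  have hcomm : x * q = q * x := by
    refine C.comm_full hxA hxo hxQ q ?_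
    refine hfix _ (hfx ▸ hk0) (hfx ▸ hk1) _ o1 o2 ?_
    obtain ⟨p, hp, hpE, -⟩ := C.E_cases hk2
    have hp' : p = r * q := Subtype.ext (Subtype.ext (by
      rw [hp, hkxq]
      have : (r : ↥(CG z)) * q = x * q * (x * q) := by
        rw [hr, inv_eq_of_mul_eq_one_right hxx]; group
      exact (congrArg Subtype.val this).symm))
    rw [hp', C.std.model.pr_mul, hpr, vadd_comm'] at hpE
    exact hpE
  have hs : sing (C.pr q) := by
    refine C.sing_of_sq_mem ?_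
    have e : ((q : ↥(CG z)) * q : ↥(CG z)) = k * k := by
      rw [hkxq]
      calc (q : ↥(CG z)) * q = (x * x) * (q * q) := by rw [hxx, one_mul]
        _ = x * (x * q) * q := by group
        _ = x * (q * x) * q := by rw [hcomm]
        _ = _ := by group
    have e' := congrArg Subtype.val e
    simp only [Subgroup.coe_mul] at e'
    rw [e']
    exact hk2
  obtain ⟨m₂, hm₂, hB, hA2⟩ := hpair _ (hfx ▸ hk0) (hfx ▸ hk1) _ hs o1 o2 (fix_of_comm C.std.model hcomm)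
  obtain ⟨g₂, rfl, hg₂⟩ := C.lift_stabE hm₂
  obtain ⟨r₂, hr₂, hpr₂⟩ := act_pr' C.std.model g₂ q
  refine ⟨((g₂ * g₁ : ↥(CG z)) : G), mul_mem hg₂ hg₁,
    Subgroup.mem_centralizer_singleton_iff.1 (g₂ * g₁ : ↥(CG z)).2, ?_⟩
  have hxA' : g₂ * x * g₂⁻¹ ∈ C.A := by
    refine C.mem_of_conj (g := g₂⁻¹) ?_ ?_ (fun e => hxQ ?_) (by rwa [map_mul, map_mul, map_inv])
    · simpa [mul_assoc] using hxA
    · simpa using (other_conj (z := z) (g₂ : G)).2 hxo
    · simpa [mul_assoc] using Q_conj_mem e g₂⁻¹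
  have hqA : g₂ * (q : ↥(CG z)) * g₂⁻¹ ∈ C.A := hr₂ ▸ (C.std.memQ r₂).2 (hpr₂ ▸ hB)
  have e : ((g₂ * g₁ : ↥(CG z)) : G) * j * ((g₂ * g₁ : ↥(CG z)) : G)⁻¹ =
      (((g₂ * x * g₂⁻¹) * (g₂ * (q : ↥(CG z)) * g₂⁻¹) : ↥(CG z)) : G) := by
    rw [show (g₂ * x * g₂⁻¹) * (g₂ * (q : ↥(CG z)) * g₂⁻¹) = g₂ * (x * q) * g₂⁻¹ by group, ← hkxq,
      hk]
    simp only [Subgroup.coe_mul, InvMemClass.coe_inv, h]
    group
  rw [e]
  exact coe_mem_AG.2 (C.A.mul_mem hxA' hqA)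

end Cfg

end CfsgLib.LargeFischer58
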