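import Cfsg.Agent.LargeFischer58.Defs

/-!
Large Fischer type: a configuration of the four group exists: the duads of the elementary subgroup of
order `2 ^ 11`, and the members over the distinguished line.
-/

set_option autoImplicit false
set_option maxRecDepth 100000

namespace CfsgLib.LargeFischer58

open Cfsg CfsgLib.LargeFischer85 CfsgLib.LargeFischer28 CfsgLib.LargeFischer45
open Finset hiding card_map

variable {G : Type*} [Group G] [Finite G] {z : G}

/-- The second class on `A` as a triangular configuration. -/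
theorem exists_hyp {Q A : Subgroup G} (L : Local z Q A) :
    letI : CommGroup ↥A :=
      { (inferInstance : Group ↥A) with mul_comm := fun a b => Subtype.ext (L.comm a.2 b.2) }
    ∃ D : Finset ↥A, (∀ a : ↥A, a ∈ D ↔ (a : G) ∈ dSet z Q A) ∧
      letI := Classical.decEq ↥A
      Triangular45.Hyp D := by
  classical
  letI : CommGroup ↥A :=
    { (inferInstance : Group ↥A) with mul_comm := fun a b => Subtype.ext (L.comm a.2 b.2) }
  letI : DecidableEq ↥A := Classical.decEq _
  obtain ⟨-, hD, hall⟩ := L.card_sets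
  obtain ⟨hd, he, -⟩ := L.ways_eq
  let D : Finset ↥A := (dSet z Q A).subtype (· ∈ A)
  have hmem : ∀ a : ↥A, a ∈ D ↔ (a : G) ∈ dSet z Q A := fun a => by simp [D]
  have hcard : ∀ (p : ↥A → Prop) [DecidablePred p] (p' : G → Prop),
      (∀ a : ↥A, p a ↔ p' a) → (D.filter p).card = {u | u ∈ dSet z Q A ∧ p' u}.ncard := by
    intro p _ p' hp
    rw [← Finset.card_map (Function.Embedding.subtype (· ∈ A)), ← Set.ncard_coe_finset]
    congr 1
    ext u
    simp only [Finset.coe_map, Function.Embedding.coe_subtype, Set.mem_image, Finset.coe_filter,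
      Set.mem_setOf_eq]
    constructor
    · rintro ⟨a, ⟨ha, hpa⟩, rfl⟩
      exact ⟨(hmem a).1 ha, (hp a).1 hpa⟩
    · rintro ⟨hu, hpu⟩
      exact ⟨⟨u, (mem_sel.1 hu).1⟩, ⟨(hmem _).2 hu, (hp _).2 hpu⟩, rfl⟩
  refine ⟨D, hmem, ?_⟩
  show Triangular45.Hyp D
  refine ⟨fun a => Subtype.ext (L.sq a.2), fun h1 => ?_, ?_, fun a ha => ?_,
    fun v hv1 hvD => ?_, fun w hw w' hw' hne hn x hx hxw hxw' => ?_,
    fun w hw w' hw' hne hn => ?_⟩
  · exact ((mem_sel.1 ((hmem 1).1 h1)).2.1).1 rfl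
  · rw [← Finset.card_map (Function.Embedding.subtype (· ∈ A)), ← hD]
    congr 1
    exact Finset.subtype_map_of_mem fun x hx => (mem_sel.1 hx).1
  · rw [hcard _ (fun u => (a : G) * u ∈ dSet z Q A) fun u => hmem (a * u)]
    exact hd _ ((hmem a).1 ha)
  · rw [hcard _ (fun u => (v : G) * u ∈ dSet z Q A) fun u => hmem (v * u)]
    exact he _ (L.not_zSet_dSet v.2 (fun e => hv1 (Subtype.ext e)) fun h => hvD ((hmem v).2 h))
  · exact (hmem _).2 ((L.common ((hmem w).1 hw) ((hmem w').1 hw')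
      (fun e => hne (Subtype.ext e)) (fun h => hn ((hmem (w * w')).2 h))).1 _ ((hmem x).1 hx)
      ((hmem (x * w)).1 hxw) ((hmem (x * w')).1 hxw'))
  · rw [hcard _ (fun u => u * (w : G) ∈ dSet z Q A ∧ u * (w' : G) ∈ dSet z Q A)
      fun u => and_congr (hmem (u * w)) (hmem (u * w'))]
    exact (L.common ((hmem w).1 hw) ((hmem w').1 hw') (fun e => hne (Subtype.ext e))
      (fun h => hn ((hmem (w * w')).2 h))).2

theorem duads_of_local {Q A : Subgroup G} (L : Local z Q A)
    (hS : ∀ P : Sylow 2 G, Nat.card ↥(P : Subgroup G) = 2 ^ 21) (T : Sylow 2 G)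
    (hAT : A ≤ (T : Subgroup G)) (hTz : ∀ x ∈ (T : Subgroup G), x * z = z * x)
    (hC : Subgroup.centralizer (A : Set G) ≤ A) : ∃ d, Duads z A d := by
  classical
  letI : CommGroup ↥A :=
    { (inferInstance : Group ↥A) with mul_comm := fun a b => Subtype.ext (L.comm a.2 b.2) }
  letI : DecidableEq ↥A := Classical.decEq _
  obtain ⟨D, hmem, hyp⟩ := exists_hyp L
  have hdd : ∀ {a : ↥A}, a ∈ D → Other z (a : G) := fun {a} ha =>
    (mem_sel.1 ((hmem a).1 ha)).2.1
  have hall := L.card_sets.2.2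
  obtain ⟨t₀, ht₀⟩ := Finset.card_pos.1 (show 0 < D.card by rw [hyp.card]; norm_num)
  obtain ⟨o, -, -, -⟩ := Finset.card_eq_two.1 (Triangular45.card_ends hyp ht₀)
  obtain ⟨e, he⟩ := DesignUnique.exists_equiv24 (Triangular45.card_pts hyp)
    (Triangular45.steiner hyp o)
  set d : GolayPt → GolayPt → G :=
    fun p q => ((Triangular45.duad D (e.symm p) (e.symm q) : ↥A) : G) with hddef
  have hne : ∀ {p q : GolayPt}, p ≠ q → e.symm p ≠ e.symm q := fun h h' => h (e.symm.injective h')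
  have hinj : ∀ p q r s, p ≠ q → d p q = d r s → ({p, q} : Finset GolayPt) = {r, s} := by
    intro p q r s hpq heq
    have he' := Subtype.val_injective heq
    have hrs : e.symm r ≠ e.symm s := fun e' => hyp.one (by
      have := Triangular45.duad_mem hyp (hne hpq)
      rwa [he', e', Triangular45.duad_self] at this)
    have := (Triangular45.ends_duad hyp (hne hpq)).symm.trans (he' ▸ Triangular45.ends_duad hyp hrs)
    have := congrArg (fun x => x.image e) this
    simpa [Finset.image_insert] using this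
  have haut : ∀ m : ↥(Subgroup.normalizer (A : Set G)), ∃ σ ∈ Cfsg.M24, ∀ p q,
      (m : G) * d p q * (m : G)⁻¹ = d (σ p) (σ q) := by
    intro m
    let ρ := A.normalizerMonoidHom m
    have hρ : ∀ a : ↥A, ((ρ a : ↥A) : G) = (m : G) * (a : G) * (m : G)⁻¹ := fun a => rfl
    have hsub : ∀ a, a ∈ D → ρ a ∈ D := fun a ha =>
      (hmem _).2 (by rw [hρ]; exact dSet_conj m.2 ((hmem a).1 ha))
    have hiff : ∀ a, ρ a ∈ D ↔ a ∈ D := fun a => ⟨fun h => by
      obtain ⟨b, hb, hab⟩ := Finset.surj_on_of_inj_on_of_card_le (fun b (_ : b ∈ D) => ρ b)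
        (fun b hb => hsub b hb) (fun b c _ _ hbc => ρ.injective hbc) le_rfl (ρ a) h
      exact ρ.injective hab.symm ▸ hb, hsub a⟩
    obtain ⟨π, hπ, hπd⟩ := Triangular45.aut_points hyp o ρ hiff
    refine ⟨e.permCongrHom π, ?_, fun p q => ?_⟩
    · rw [← DesignUnique.aut_octads, ← DesignUnique.map_aut e he]
      exact ⟨π, hπ, rfl⟩
    · rw [hddef]
      simp only
      rw [← hρ, hπd]
      simp [Equiv.permCongrHom]
  choose σ hσ hσd using haut
  have uniq : ∀ σ τ : Equiv.Perm GolayPt, (∀ p q, d (σ p) (σ q) = d (τ p) (τ q)) → σ = τ := by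
    intro σ τ hst
    refine Equiv.ext fun p => ?_
    by_contra hn
    obtain ⟨q, hq⟩ : ∃ q, q ∉ ({p, σ.symm (τ p)} : Finset GolayPt) := by
      by_contra hno
      push Not at hno
      have hc := Finset.card_le_two (a := p) (b := σ.symm (τ p))
      rw [Finset.eq_univ_of_forall hno, Finset.card_univ] at hc
      exact absurd hc (by decide)
    simp only [Finset.mem_insert, Finset.mem_singleton, not_or] at hq
    have := hinj _ _ _ _ (fun e => hq.1 (σ.injective e).symm) (hst p q)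
    have h1 : τ p ∈ ({σ p, σ q} : Finset GolayPt) := this ▸ Finset.mem_insert_self _ _
    simp only [Finset.mem_insert, Finset.mem_singleton] at h1
    rcases h1 with e | e
    · exact hn e.symm
    · exact hq.2 (by rw [e, Equiv.symm_apply_apply])
  let Φ : ↥(Subgroup.normalizer (A : Set G)) →* ↥Cfsg.M24 :=
    MonoidHom.mk' (fun m => ⟨σ m, hσ m⟩) fun m n => by
      refine Subtype.ext (uniq _ _ fun p q => ?_)
      show d (σ (m * n) p) (σ (m * n) q) = d (σ m (σ n p)) (σ m (σ n q))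
      rw [← hσd, ← hσd, ← hσd]
      simp [mul_assoc]
  have hker : Φ.ker ≤ A.subgroupOf (Subgroup.normalizer (A : Set G)) := by
    intro m hm
    rw [Subgroup.mem_subgroupOf]
    refine hC (Subgroup.mem_centralizer_iff.2 fun a ha => ?_)
    have hfix : ∀ u ∈ D, (m : G) * (u : G) * (m : G)⁻¹ = u := by
      intro u hu
      obtain ⟨p, q, hpq, hends⟩ := Finset.card_eq_two.1 (Triangular45.card_ends hyp hu)
      have hu' : (u : G) = d (e p) (e q) := by
        simp only [hddef, Equiv.symm_apply_apply]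
        rw [← Triangular45.val_pair hyp o hpq, ← hends, Triangular45.val_ends hyp o hu]
      rw [hu', hσd, show σ m = 1 from congrArg Subtype.val (MonoidHom.mem_ker.1 hm)]
      rfl
    have hcomm : ∀ u ∈ D, (u : G) * (m : G) = (m : G) * u := fun u hu =>
      (mul_inv_eq_iff_eq_mul.1 (hfix u hu)).symm
    by_cases h1 : (⟨a, ha⟩ : ↥A) = 1
    · rw [show a = 1 from congrArg Subtype.val h1]; simp
    by_cases hD : (⟨a, ha⟩ : ↥A) ∈ D
    · exact hcomm _ hD
    obtain ⟨u, hu⟩ : (D.filter fun u => (⟨a, ha⟩ : ↥A) * u ∈ D).Nonempty := by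
      rw [← Finset.card_pos, hyp.dec _ h1 hD]; norm_num
    obtain ⟨hu1, hu2⟩ := Finset.mem_filter.1 hu
    have e1 := hcomm _ hu2
    have e2 := hcomm u hu1
    have e3 : Commute (a * (u : G) * (u : G)) (m : G) :=
      Commute.mul_left (show Commute (a * (u : G)) (m : G) from e1) e2
    rw [mul_assoc, L.sq u.2, mul_one] at e3
    exact e3
  have hsurj : Function.Surjective Φ := by
    refine MonoidHom.range_eq_top.1 (top_of_small_index _ ?_)
    have h := Φ.ker.card_mul_index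
    rw [Subgroup.index_ker] at h
    have hk : Nat.card Φ.ker ≤ 2 ^ 11 := (Subgroup.card_le_of_le hker).trans (le_of_eq (by
      rw [Nat.card_congr (Subgroup.subgroupOfEquivOfLe (Subgroup.le_normalizer (H := A))).toEquiv,
        L.top.card]))
    have hd := L.dvd_card hS T hAT hTz
    rw [← h] at hd
    have hd' := Nat.le_of_dvd (by rw [h]; exact Nat.card_pos) hd
    have h2 := Φ.range.card_mul_index
    rw [show Nat.card ↥Cfsg.M24 = 244823040 from Cfsg.Agent.S0364.result] at h2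
    have h3 : 2 ^ 11 * 27202560 ≤ 2 ^ 11 * Nat.card Φ.range :=
      hd'.trans (Nat.mul_le_mul_right _ hk)
    have h4 := Nat.le_of_mul_le_mul_left h3 (by norm_num)
    nlinarith
  refine ⟨d, fun p q h => (Triangular45.duad D (e.symm p) (e.symm q)).2,
    fun p q h => hdd (Triangular45.duad_mem hyp (hne h)), fun a ha ho => ?_, hinj,
    fun p q => congrArg Subtype.val (Triangular45.duad_comm hyp _ _),
    fun p q r h1 h2 h3 =>
      congrArg Subtype.val (Triangular45.duad_triangle hyp (hne h1) (hne h2) (hne h3)),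
    fun p q r s hpq hrs h1 h2 h3 h4 => ?_, fun τ hτ => ?_,
    fun m hm => ⟨σ ⟨m, hm⟩, hσ _, fun p q _ => hσd ⟨m, hm⟩ p q⟩⟩
  · have hu : (⟨a, ha⟩ : ↥A) ∈ D := (hmem _).2 (hall a ha ho.1 ho.2)
    obtain ⟨p, q, hpq, hends⟩ := Finset.card_eq_two.1 (Triangular45.card_ends hyp hu)
    refine ⟨e p, e q, fun h => hpq (e.injective h), ?_⟩
    simp only [hddef, Equiv.symm_apply_apply]
    rw [← Triangular45.val_pair hyp o hpq, ← hends, Triangular45.val_ends hyp o hu]
  · set u := Triangular45.duad D (e.symm p) (e.symm q)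
    set v := Triangular45.duad D (e.symm r) (e.symm s)
    have hu := Triangular45.duad_mem hyp (hne hpq)
    have hv := Triangular45.duad_mem hyp (hne hrs)
    have hdis : Disjoint (Triangular45.ends D u) (Triangular45.ends D v) := by
      rw [Triangular45.ends_duad hyp (hne hpq), Triangular45.ends_duad hyp (hne hrs)]
      simp [e.symm.injective.eq_iff, h1, h2, h3, h4, Ne.symm h1, Ne.symm h2, Ne.symm h3, Ne.symm h4]
    have hn := Triangular45.not_mem_of_disjoint hyp hu hv hdis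
    have hne1 : u * v ≠ 1 := fun h => by
      have := hinj p q r s hpq (congrArg Subtype.val (Triangular45.eq_of_mul_eq_one hyp h))
      have hp : p ∈ ({r, s} : Finset GolayPt) := this ▸ Finset.mem_insert_self _ _
      simp [h1, h2] at hp
    have hz := L.not_zSet_dSet (u * v).2 (fun h => hne1 (Subtype.ext h))
      (fun h => hn ((hmem _).2 h))
    exact (mem_sel.1 hz).2
  · obtain ⟨m, hm⟩ := hsurj ⟨τ, hτ⟩
    refine ⟨m, m.2, fun p q _ => ?_⟩
    rw [hσd, show σ m = τ from congrArg Subtype.val hm]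

/-- Two duads with product in the second class share a point. -/
theorem Duads.share {A : Subgroup G} {d : GolayPt → GolayPt → G} (h : Duads z A d)
    {p q r s : GolayPt} (hpq : p ≠ q) (hrs : r ≠ s) (ho : Other z (d p q * d r s)) :
    p = r ∨ p = s ∨ q = r ∨ q = s := by
  by_contra hne
  simp only [not_or] at hne
  exact ho.2 (h.disj p q r s hpq hrs hne.1 hne.2.1 hne.2.2.1 hne.2.2.2)

/-- The configuration exists. -/
theorem exists_cfg {Q : Subgroup ↥(CG z)} [Q.Normal] (hF : IsOfLargeFischerTypeAt z Q) :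
    Nonempty (Cfg z Q) := by
  classical
  obtain ⟨pr₀, act₀, hM₀, hc₀⟩ := LargeFischer20.exists_model_class hF
  obtain ⟨pr, act, T, A, S⟩ := exists_std hM₀ hc₀
  have hM := S.model
  have hfacts := S.facts hF
  obtain ⟨P, hAP, hPz⟩ := hfacts.sylow
  obtain ⟨d, hd⟩ := duads_of_local hfacts.loc (card_sylow hF) P hAP hPz hfacts.cent
  have hR : RangeOK (fhom act).range := by
    refine ⟨?_, ?_, (fhom_range hM).1, (fhom_range hM).2, ?_, fun g hg => ?_⟩
    · rintro _ ⟨h, rfl⟩; exact hM.good _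
    · rw [fhom, MonoidHom.range_comp, QuotientGroup.range_mk', ← MonoidHom.range_eq_map,
        ← Nat.card_congr (MonoidHom.ofInjective hM.act_inj).toEquiv, hM.card]
    · obtain ⟨k, hk⟩ := hM.anti
      obtain ⟨c, rfl⟩ := QuotientGroup.mk'_surjective Q k
      exact ⟨_, ⟨c, rfl⟩, hk⟩
    · obtain ⟨h, -, rfl⟩ := S.surj g hg
      exact ⟨h, rfl⟩
  obtain ⟨hB1, hB2, h11, h12, h13, h14⟩ : inB0 e1 ∧ inB0 e2 ∧ inOne 0 e1 ∧ inOne 0 e2 ∧
      inOne 0 (vadd e1 e2) ∧ e1 ≠ e2 := by
    unfold inB0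
    decide +kernel
  obtain ⟨q1, hq1⟩ := hM.pr_surj e1
  obtain ⟨q2, hq2⟩ := hM.pr_surj e2
  have hAG : ∀ {q : ↥Q}, inB0 (pr q) → ((q : ↥(CG z)) : G) ∈ A.map (CG z).subtype :=
    fun {q} hq => ⟨q.1, (S.memQ q).2 hq, rfl⟩
  have hoth : ∀ {q : ↥Q}, inB0 (pr q) → inOne 0 (pr q) → Other z ((q : ↥(CG z)) : G) :=
    fun hq h1 => (S.other_iff hq).2 h1
  have hB1' : inB0 (pr q1) := hq1.symm ▸ hB1
  have hB2' : inB0 (pr q2) := hq2.symm ▸ hB2
  have ho1 := hoth hB1' (hq1.symm ▸ h11)
  have ho2 := hoth hB2' (hq2.symm ▸ h12)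
  have hB3 : inB0 (pr (q1 * q2)) := by
    rw [hM.pr_mul]; exact ((b0_spec hB1').2.2 _ hB2').2
  have ho3 : Other z (((q1 : ↥(CG z)) : G) * ((q2 : ↥(CG z)) : G)) :=
    hoth hB3 (by rw [hM.pr_mul, hq1, hq2]; exact h13)
  obtain ⟨p, q, hpq, hdpq⟩ := hd.surj _ (hAG hB1') ho1
  obtain ⟨r, s, hrs, hdrs⟩ := hd.surj _ (hAG hB2') ho2
  obtain ⟨a, b, c, hab, hbc, hac, hdab, hdbc⟩ : ∃ a b c, a ≠ b ∧ b ≠ c ∧ a ≠ c ∧
      d a b = ((q1 : ↥(CG z)) : G) ∧ d b c = ((q2 : ↥(CG z)) : G) := by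
    have key : ∀ a b c, a ≠ b → b ≠ c → d a b = ((q1 : ↥(CG z)) : G) →
        d b c = ((q2 : ↥(CG z)) : G) → a ≠ c := by
      rintro a b _ - - h1 h2 rfl
      rw [hd.symm, h1] at h2
      exact h14 (hq1.symm.trans ((congrArg pr (Subtype.ext (Subtype.ext h2))).trans hq2))
    have hs := hdrs
    rw [hd.symm] at hs
    have hp := hdpq
    rw [hd.symm] at hp
    rcases hd.share hpq hrs (by rw [hdpq, hdrs]; exact ho3) with e | e | e | e
    · subst e; exact ⟨q, p, s, hpq.symm, hrs, key _ _ _ hpq.symm hrs hp hdrs, hp, hdrs⟩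
    · subst e; exact ⟨q, p, r, hpq.symm, hrs.symm, key _ _ _ hpq.symm hrs.symm hp hs, hp, hs⟩
    · subst e; exact ⟨p, q, s, hpq, hrs, key _ _ _ hpq hrs hdpq hdrs, hdpq, hdrs⟩
    · subst e; exact ⟨p, q, r, hpq, hrs.symm, key _ _ _ hpq hrs.symm hdpq hs, hdpq, hs⟩
  -- the fourth point
  have L := hfacts.loc
  have habQ : d a b ∈ Q.map (CG z).subtype := hdab ▸ ⟨q1.1, q1.2, rfl⟩
  have hbcQ : d b c ∈ Q.map (CG z).subtype := hdbc ▸ ⟨q2.1, q2.2, rfl⟩
  have hacE : d a c = d a b * d b c := (hd.tri a b c hab hbc hac).symm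
  have hacQ : d a c ∈ Q.map (CG z).subtype := hacE ▸ mul_mem habQ hbcQ
  have hou := L.mul_z habQ (hd.other a b hab) (IsConj.refl z)
  obtain ⟨u, v, huv, hduv⟩ := hd.surj _ (mul_mem (hd.mem a b hab) L.mem) hou
  have hsq : d a b * d a b = 1 := L.sq (hd.mem a b hab)
  have hzab : d u v * d a b = z := by
    rw [hduv, L.comm (hd.mem a b hab) L.mem, mul_assoc, hsq, mul_one]
  have hzbc : d u v * d b c = d a c * z := by
    rw [hduv, hacE, mul_assoc, L.comm L.mem (hd.mem b c hbc), ← mul_assoc]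
  have hn : ∀ x, (x = u ∨ x = v) → x ≠ a ∧ x ≠ b := by
    intro x hx
    have hcases : ∀ y, (y = a ∨ y = b) → x ≠ y := by
      rintro y hy rfl
      obtain ⟨w, hw, hwx⟩ : ∃ w, d u v = d w x ∧ w ≠ x := by
        rcases hx with rfl | rfl
        · exact ⟨v, hd.symm _ _, huv.symm⟩
        · exact ⟨u, rfl, huv⟩
      obtain ⟨y, hy', hyx⟩ : ∃ y, d a b = d x y ∧ x ≠ y := by
        rcases hy with rfl | rfl
        · exact ⟨b, rfl, hab⟩
        · exact ⟨a, hd.symm _ _, hab.symm⟩
      by_cases hwy : w = y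
      · subst hwy
        rw [hw, hy', hd.symm x w, L.sq (hd.mem w x hwx)] at hzab
        exact L.one_ne (hzab ▸ IsConj.refl z)
      · have := hd.tri w x y hwx hyx hwy
        rw [← hw, ← hy', hzab] at this
        exact (hd.other w y hwy).2 (this ▸ IsConj.refl z)
    exact ⟨hcases a (Or.inl rfl), hcases b (Or.inr rfl)⟩
  have ho4 : Other z (d u v * d b c) :=
    hzbc ▸ L.mul_z hacQ (hd.other a c hac) (IsConj.refl z)
  obtain ⟨e, hce, hae, hbe, hde⟩ : ∃ e, c ≠ e ∧ a ≠ e ∧ b ≠ e ∧ d c e = d u v := by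
    rcases hd.share huv hbc ho4 with h | h | h | h
    · exact absurd h (hn u (Or.inl rfl)).2
    · subst h
      exact ⟨v, huv, Ne.symm (hn v (Or.inr rfl)).1, Ne.symm (hn v (Or.inr rfl)).2, rfl⟩
    · exact absurd h (hn v (Or.inr rfl)).2
    · subst h
      exact ⟨u, huv.symm, Ne.symm (hn u (Or.inl rfl)).1, Ne.symm (hn u (Or.inl rfl)).2, hd.symm _ _⟩
  exact ⟨{ pr, act, T, A, d, a, b, c, e, large := hF, std := S, range := hR, facts := hfacts,
           duads := hd, hab, hac, hae, hbc, hbe, hce,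
           q1 := ⟨q1, hq1, hdab.symm⟩, q2 := ⟨q2, hq2, hdbc.symm⟩,
           zeq := by rw [hde, L.comm (hd.mem a b hab) (hd.mem u v huv), hzab] }⟩

end CfsgLib.LargeFischer58
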