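import Cfsg.Agent.LargeFischer58.Basic

/-!
Large Fischer type, the configuration: the four group as stated.
-/

set_option autoImplicit false
set_option maxRecDepth 100000

namespace CfsgLib.LargeFischer58

open Cfsg CfsgLib.LargeFischer85 CfsgLib.LargeFischer28 CfsgLib.LargeFischer45

namespace Cfg

variable {G : Type*} [Group G] [Finite G] {z : G} {Q : Subgroup ↥(CG z)} [Q.Normal]
  (C : Cfg z Q)

theorem E_elementary : IsElementaryAbelian 2 C.E := by
  refine CfsgLib.LocalP.isElementaryAbelian_mono ?_ C.E_le_AG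
  exact C.facts.loc.top.elem

theorem E_card : Nat.card C.E = 4 := by
  classical
  have h1 := C.duads.other _ _ C.hab
  have h2 := C.duads.other _ _ C.hbc
  have h3 := C.duads.other _ _ C.hac
  have ne12 : C.d C.a C.b ≠ C.d C.b C.c := fun e => by
    have := C.duads.inj _ _ _ _ C.hab e
    have hm : C.a ∈ ({C.a, C.b} : Finset GolayPt) := Finset.mem_insert_self _ _
    rw [this] at hm
    simp only [Finset.mem_insert, Finset.mem_singleton] at hm
    rcases hm with h | h
    · exact C.hab h
    · exact C.hac h
  have ne13 : C.d C.a C.b ≠ C.d C.a C.c := fun e => by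
    have := C.duads.inj _ _ _ _ C.hab e
    have hm : C.b ∈ ({C.a, C.b} : Finset GolayPt) :=
      Finset.mem_insert_of_mem (Finset.mem_singleton_self _)
    rw [this] at hm
    simp only [Finset.mem_insert, Finset.mem_singleton] at hm
    rcases hm with h | h
    · exact C.hab h.symm
    · exact C.hbc h
  have ne23 : C.d C.b C.c ≠ C.d C.a C.c := fun e => by
    have := C.duads.inj _ _ _ _ C.hbc e
    have hm : C.b ∈ ({C.b, C.c} : Finset GolayPt) := Finset.mem_insert_self _ _
    rw [this] at hm
    simp only [Finset.mem_insert, Finset.mem_singleton] at hm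
    rcases hm with h | h
    · exact C.hab h.symm
    · exact C.hbc h
  have heq : (C.E : Set G) =
      ↑({1, C.d C.a C.b, C.d C.b C.c, C.d C.a C.c} : Finset G) := by
    ext t
    simp [C.mem_E_iff]
  rw [← SetLike.coe_sort_coe, Nat.card_coe_set_eq, heq, Set.ncard_coe_finset,
    Finset.card_insert_of_notMem (by simp [h1.1.symm, h2.1.symm, h3.1.symm]),
    Finset.card_insert_of_notMem (by simp [ne12, ne13]), Finset.card_pair ne23]

theorem exists_noncentral : ∃ t ∈ C.E, orderOf t = 2 ∧ ¬ IsConj z t := by
  obtain ⟨h1, h2⟩ := C.duads.other _ _ C.hab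
  refine ⟨_, C.ab_mem_E, orderOf_eq_prime ?_ h1, h2⟩
  rw [pow_two]
  exact C.AG_sq (C.duads.mem _ _ C.hab)

end Cfg

end CfsgLib.LargeFischer58
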