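import Cfsg.Agent.LargeFischer58.Defs

/-!
Large Fischer type, the configuration: elementary facts on `E`, `z` and the conjugates over points.
-/

set_option autoImplicit false
set_option maxRecDepth 100000

namespace CfsgLib.LargeFischer58

open Cfsg CfsgLib.LargeFischer85 CfsgLib.LargeFischer28 CfsgLib.LargeFischer45

theorem lineBasic : inB0 e1 ∧ inB0 e2 ∧ inOne 0 e1 ∧ inOne 0 e2 ∧ inOne 0 (vadd e1 e2) ∧ e1 ≠ e2 ∧
    inB0 (vadd e1 e2) := by
  unfold inB0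
  decide +kernel

theorem fixE_of_inA0 {u : Equiv.Perm W} (hu : inA0 u) : FixE u :=
  ⟨(b0_spec lineBasic.1).2.1 u hu, (b0_spec lineBasic.2.1).2.1 u hu⟩

theorem RangeOK.inA0_mem_stabE {R : Subgroup (Equiv.Perm W)} (hR : RangeOK R) {u : Equiv.Perm W}
    (hu : inA0 u) : u ∈ stabE R :=
  ⟨hR.a0 u hu, fixE_of_inA0 hu⟩

theorem RangeOK.isP_mem_stabE {R : Subgroup (Equiv.Perm W)} (hR : RangeOK R) {u : Equiv.Perm W}
    (hu : IsP R u) : u ∈ stabE R := by
  obtain ⟨h, hh, hf, ht⟩ := hu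
  have h1 := mul_mem (mul_mem (inv_mem (show h ∈ stabE R from ⟨hh, hf⟩))
    (hR.inA0_mem_stabE ht.1)) (show h ∈ stabE R from ⟨hh, hf⟩)
  simpa [mul_assoc] using h1

theorem IsP.conj {R : Subgroup (Equiv.Perm W)} {u h : Equiv.Perm W} (hu : IsP R u)
    (hh : h ∈ stabE R) : IsP R (h * u * h⁻¹) := by
  obtain ⟨k, hk, hf, ht⟩ := hu
  obtain ⟨h1, h2⟩ := mul_mem (show k ∈ stabE R from ⟨hk, hf⟩) (inv_mem hh)
  exact ⟨k * h⁻¹, h1, h2, by simpa [mul_assoc] using ht⟩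

theorem IsTv.isP {R : Subgroup (Equiv.Perm W)} {u : Equiv.Perm W} (hu : IsTv u) : IsP R u :=
  ⟨1, R.one_mem, ⟨rfl, rfl⟩, by simpa using hu⟩

namespace Cfg

variable {G : Type*} [Group G] [Finite G] {z : G} {Q : Subgroup ↥(CG z)} [Q.Normal]
  (C : Cfg z Q)

theorem AG_sq {x : G} (hx : x ∈ C.AG) : x * x = 1 := by
  obtain ⟨x, hx, rfl⟩ := hx
  exact congrArg Subtype.val (C.std.sq x hx)

theorem AG_inv {x : G} (hx : x ∈ C.AG) : x⁻¹ = x := inv_eq_of_mul_eq_one_right (C.AG_sq hx)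

theorem AG_le_CG : C.AG ≤ CG z := by rintro _ ⟨x, -, rfl⟩; exact x.2

theorem QG_le_CG : C.QG ≤ CG z := by rintro _ ⟨x, -, rfl⟩; exact x.2

theorem tri' {p q r : GolayPt} (hpq : p ≠ q) (hqr : q ≠ r) (hpr : p ≠ r) :
    C.d q p * C.d q r = C.d p r := by
  rw [C.duads.symm q p, C.duads.tri p q r hpq hqr hpr]

theorem ab_bc : C.d C.a C.b * C.d C.b C.c = C.d C.a C.c :=
  C.duads.tri _ _ _ C.hab C.hbc C.hac

theorem mem_E_iff {t : G} : t ∈ C.E ↔
    t = 1 ∨ t = C.d C.a C.b ∨ t = C.d C.b C.c ∨ t = C.d C.a C.c := by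
  constructor
  · intro ht
    have h1 := C.duads.mem _ _ C.hab
    have h2 := C.duads.mem _ _ C.hbc
    have h3 := C.duads.mem _ _ C.hac
    have e3 : C.d C.b C.c * C.d C.a C.b = C.d C.a C.c := by rw [C.AG_comm h2 h1, C.ab_bc]
    have e4 : C.d C.a C.b * C.d C.a C.c = C.d C.b C.c := C.tri' C.hab.symm C.hac C.hbc
    have e5 : C.d C.a C.c * C.d C.b C.c = C.d C.a C.b := by
      rw [C.duads.symm C.b C.c]; exact C.duads.tri _ _ _ C.hac C.hbc.symm C.hab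
    let S : Subgroup G :=
      { carrier := {t | t = 1 ∨ t = C.d C.a C.b ∨ t = C.d C.b C.c ∨ t = C.d C.a C.c}
        one_mem' := Or.inl rfl
        inv_mem' := by
          rintro t (rfl | rfl | rfl | rfl)
          · exact Or.inl inv_one
          · exact Or.inr (Or.inl (C.AG_inv h1))
          · exact Or.inr (Or.inr (Or.inl (C.AG_inv h2)))
          · exact Or.inr (Or.inr (Or.inr (C.AG_inv h3)))
        mul_mem' := by
          rintro x y (rfl | rfl | rfl | rfl) (rfl | rfl | rfl | rfl) <;>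
            simp only [Set.mem_setOf_eq, one_mul, mul_one, C.AG_sq h1, C.AG_sq h2, C.AG_sq h3,
              C.ab_bc, e3, e4, e5, C.AG_comm h3 h1, C.AG_comm h2 h3, true_or, or_true] }
    have hle : C.E ≤ S := by
      rw [E, Subgroup.closure_le]
      rintro t (rfl | rfl)
      · exact Or.inr (Or.inl rfl)
      · exact Or.inr (Or.inr (Or.inl rfl))
    exact hle ht
  · have hab : C.d C.a C.b ∈ C.E := Subgroup.subset_closure (Or.inl rfl)
    have hbc : C.d C.b C.c ∈ C.E := Subgroup.subset_closure (Or.inr rfl)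
    rintro (rfl | rfl | rfl | rfl)
    · exact one_mem _
    · exact hab
    · exact hbc
    · exact C.ab_bc ▸ mul_mem hab hbc

theorem ab_mem_E : C.d C.a C.b ∈ C.E := C.mem_E_iff.2 (Or.inr (Or.inl rfl))
theorem bc_mem_E : C.d C.b C.c ∈ C.E := C.mem_E_iff.2 (Or.inr (Or.inr (Or.inl rfl)))
theorem ac_mem_E : C.d C.a C.c ∈ C.E := C.mem_E_iff.2 (Or.inr (Or.inr (Or.inr rfl)))

theorem E_other {t : G} (ht : t ∈ C.E) (h1 : t ≠ 1) : Other z t := by
  rcases C.mem_E_iff.1 ht with rfl | rfl | rfl | rfl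
  · exact absurd rfl h1
  · exact C.duads.other _ _ C.hab
  · exact C.duads.other _ _ C.hbc
  · exact C.duads.other _ _ C.hac

theorem ab_mem_QG : C.d C.a C.b ∈ C.QG := by
  obtain ⟨q, -, h⟩ := C.q1
  exact h ▸ ⟨q.1, q.2, rfl⟩

theorem bc_mem_QG : C.d C.b C.c ∈ C.QG := by
  obtain ⟨q, -, h⟩ := C.q2
  exact h ▸ ⟨q.1, q.2, rfl⟩

theorem E_le_QG : C.E ≤ C.QG := by
  rw [E, Subgroup.closure_le]
  rintro t (rfl | rfl)
  · exact C.ab_mem_QG
  · exact C.bc_mem_QG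

theorem z_not_mem_E : z ∉ C.E := fun h => by
  by_cases h1 : z = 1
  · have := C.std.model.ord
    rw [h1, orderOf_one] at this
    norm_num at this
  · exact (C.E_other h h1).2 (IsConj.refl z)

theorem z_mul_E_other {t : G} (ht : t ∈ C.E) (h1 : t ≠ 1) : Other z (t * z) :=
  C.facts.loc.mul_z (C.E_le_QG ht) (C.E_other ht h1) (IsConj.refl z)

theorem isConj_zp {x : GolayPt} (ha : x ≠ C.a) (hb : x ≠ C.b) (hc : x ≠ C.c) :
    IsConj z (C.zp x) :=
  C.duads.disj _ _ _ _ C.hab hc.symm C.hac ha.symm C.hbc hb.symm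

theorem zp_mem {x : GolayPt} (hc : x ≠ C.c) : C.zp x ∈ C.AG :=
  mul_mem (C.duads.mem _ _ C.hab) (C.duads.mem _ _ hc.symm)

theorem zp_e : C.zp C.e = z := C.zeq

theorem ab_mul_zp (x : GolayPt) : C.d C.a C.b * C.zp x = C.d C.c x := by
  rw [zp, ← mul_assoc, C.AG_sq (C.duads.mem _ _ C.hab), one_mul]

theorem bc_mul_zp {x : GolayPt} (ha : x ≠ C.a) (hc : x ≠ C.c) :
    C.d C.b C.c * C.zp x = C.d C.a x := by
  rw [zp, ← mul_assoc, C.AG_comm (C.duads.mem _ _ C.hbc) (C.duads.mem _ _ C.hab), C.ab_bc]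
  exact C.duads.tri _ _ _ C.hac hc.symm ha.symm

theorem ac_mul_zp {x : GolayPt} (hb : x ≠ C.b) (hc : x ≠ C.c) :
    C.d C.a C.c * C.zp x = C.d C.b x := by
  rw [zp, ← mul_assoc, C.AG_comm (C.duads.mem _ _ C.hac) (C.duads.mem _ _ C.hab),
    C.tri' (p := C.b) C.hab.symm C.hac C.hbc]
  exact C.duads.tri _ _ _ C.hbc hc.symm hb.symm

theorem zp_mul_zp {x y : GolayPt} (hx : x ≠ C.c) (hy : y ≠ C.c) (hxy : x ≠ y) :
    C.zp x * C.zp y = C.d x y := by
  have hab := C.duads.mem _ _ C.hab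
  have hcx := C.duads.mem _ _ hx.symm
  rw [zp, zp, C.AG_comm hab hcx, mul_assoc, ← mul_assoc (C.d C.a C.b), C.AG_sq hab, one_mul]
  exact C.tri' hx hy.symm hxy

theorem proj_eq_iff {g h : ↥C.CE} : C.proj g = C.proj h ↔ (g : G)⁻¹ * (h : G) ∈ C.E := by
  rw [proj, QuotientGroup.mk'_apply, QuotientGroup.mk'_apply, QuotientGroup.eq,
    Subgroup.mem_subgroupOf]
  rfl

theorem proj_eq_one_iff {g : ↥C.CE} : C.proj g = 1 ↔ (g : G) ∈ C.E := by
  rw [proj, QuotientGroup.mk'_apply, QuotientGroup.eq_one_iff, Subgroup.mem_subgroupOf]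

theorem proj_surj : Function.Surjective C.proj := QuotientGroup.mk'_surjective _

theorem proj_commute_iff {g h : ↥C.CE} :
    Commute (C.proj g) (C.proj h) ↔ (g : G) * h * (g : G)⁻¹ * (h : G)⁻¹ ∈ C.E := by
  have e : Commute (C.proj g) (C.proj h) ↔ C.proj (g * h * g⁻¹ * h⁻¹) = 1 := by
    rw [map_mul, map_mul, map_mul, map_inv, map_inv, ← commutatorElement_def,
      commutatorElement_eq_one_iff_commute]
  rw [e, C.proj_eq_one_iff]
  rfl

theorem proj_mem_Ab_iff {g : ↥C.CE} : C.proj g ∈ C.Ab ↔ (g : G) ∈ C.AG := by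
  refine ⟨fun h => ?_, fun h => ⟨g, h, rfl⟩⟩
  obtain ⟨h', hh', e⟩ := h
  have := mul_mem (show (h' : G) ∈ C.AG from hh') (C.E_le_AG (C.proj_eq_iff.1 e))
  rwa [mul_inv_cancel_left] at this

theorem Ab_elem {y : C.X} (hy : y ∈ C.Ab) : y * y = 1 := by
  obtain ⟨h, hh, rfl⟩ := hy
  rw [← map_mul, C.proj_eq_one_iff]
  show (h : G) * h ∈ C.E
  have hh' : (h : G) ∈ C.AG := hh
  rw [C.AG_sq hh']
  exact one_mem _

theorem base_mem_Ab : C.base ∈ C.Ab := C.proj_mem_Ab_iff.2 C.z_mem_AG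

theorem base_ne_one : C.base ≠ 1 := fun h => C.z_not_mem_E (C.proj_eq_one_iff.1 h)

end Cfg

end CfsgLib.LargeFischer58
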