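import Cfsg.Agent.LargeFischer58.Tv45
import Cfsg.Agent.LargeFischer58.CheckData

/-!
Finite checks on the plane group: the movers, covers of singular vectors, and the relations
between the 45 maps.
-/

set_option autoImplicit false
set_option maxRecDepth 100000
set_option maxHeartbeats 1000000

namespace CfsgLib.LargeFischer58

open CfsgLib.LargeFischer85 CfsgLib.LargeFischer28

/-- Membership in the line, for numbers. -/
def inEB (x : ℕ) : Bool := x == 0 || x == e1.val || x == e2.val || x == (vadd e1 e2).val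

theorem inEB_iff (x : W) : inEB x.val = true ↔ InE x := by
  simp only [inEB, InE, Bool.or_eq_true, beq_iff_eq, ← Fin.val_inj, Fin.val_zero, or_assoc]

theorem c_lineB0 : ((spanN b0Basis).contains e1.val && (spanN b0Basis).contains e2.val &&
    decide (inOne 0 e1) && decide (inOne 0 e2) && decide (inOne 0 (vadd e1 e2)) &&
    !(e1 == e2)) = true := by
  decide +kernel

theorem line_facts : inB0 e1 ∧ inB0 e2 ∧ inOne 0 e1 ∧ inOne 0 e2 ∧ inOne 0 (vadd e1 e2) ∧
    e1 ≠ e2 := by
  have h := c_lineB0
  simp only [Bool.and_eq_true, decide_eq_true_eq, List.contains_iff_mem, Bool.not_eq_true',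
    beq_eq_false_iff_ne] at h
  obtain ⟨⟨⟨⟨⟨a, b⟩, c⟩, d⟩, e⟩, f⟩ := h
  exact ⟨a, b, c, d, e, f⟩

theorem c_masks : chk (liftP fun v =>
    perpN.testBit v.val == decide (orth v e1 ∧ orth v e2) &&
    condN.testBit v.val == decide (sing v ∧ orth v e1 ∧ orth v e2) &&
    b0N.testBit v.val == (spanN b0Basis).contains v.val &&
    (!perpN.testBit v.val || decide (herm v e1))) 12 0 = true := by
  decide +kernel

theorem mask_spec (v : W) : perpN.testBit v.val = decide (orth v e1 ∧ orth v e2) ∧
    condN.testBit v.val = decide (sing v ∧ orth v e1 ∧ orth v e2) ∧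
    (b0N.testBit v.val = true ↔ inB0 v) ∧ (perpN.testBit v.val = true → herm v e1) := by
  have h := forall_of_chk _ c_masks v
  simp only [Bool.and_eq_true, beq_iff_eq, Bool.or_eq_true, Bool.not_eq_true',
    decide_eq_true_eq] at h
  obtain ⟨⟨⟨a, b⟩, c⟩, d⟩ := h
  refine ⟨a, b, ?_, fun hp => ?_⟩
  · rw [c, List.contains_iff_mem]
    rfl
  · rcases d with d | d
    · rw [hp] at d
      exact absurd d (by simp)
    · exact d

theorem orth_herm {v : W} (h1 : orth v e1) (h2 : orth v e2) : herm v e1 :=
  (mask_spec v).2.2.2 (by rw [(mask_spec v).1, decide_eq_true_eq]; exact ⟨h1, h2⟩)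

/-! ### The fixed space of two members of the elementary subgroup -/

/-- The map exhibiting the common fixed space of two maps. -/
def piPair (p : ℕ × ℕ) (a b n : ℕ) : ℕ :=
  n ^^^ appN p.1 12 (appN a 12 n ^^^ n) ^^^ appN p.2 12 (appN b 12 n ^^^ n)

/-- The columns of a member of the elementary subgroup, by its position. -/
def aN (k : ℕ) : ℕ := elsC (jN (a0J.getD k 0))

theorem c_b0closed : ((spanN b0Basis).contains 0 && (spanN b0Basis).all fun u =>
    (spanN b0Basis).all fun v => b0N.testBit (u ^^^ v) && decide (u ^^^ v < 4096)) = true := by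
  decide +kernel

theorem c_pairs : ((List.range 15).all fun i => (List.range i).all fun j =>
    (List.range 12).all fun t =>
      (spanN b0Basis).contains (piPair (pairC.getD (i * (i - 1) / 2 + j) (0, 0)) (aN i) (aN j)
        (2 ^ t))) = true := by
  decide +kernel

theorem exists_pos {a : ℕ} (ha : a ∈ a0J) : ∃ k, k < 15 ∧ a0J.getD k 0 = a := by
  obtain ⟨k, hk, e⟩ := List.mem_iff_getElem.1 ha
  exact ⟨k, hk, by rw [List.getD_eq_getElem _ _ hk, e]⟩

theorem piPair_xor (p : ℕ × ℕ) (a b x y : ℕ) :
    piPair p a b (x ^^^ y) = piPair p a b x ^^^ piPair p a b y := by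
  simp only [piPair, appN_xor]
  ac_rfl

theorem piPair_mem {i j : ℕ} (hi : i < 15) (hj : j < i) (n : W)
    (h1 : appN (aN i) 12 n.val = n.val) (h2 : appN (aN j) 12 n.val = n.val) : inB0 n := by
  have hc := c_pairs
  simp only [List.all_eq_true, List.mem_range, List.contains_iff_mem] at hc
  have hb := c_b0closed
  simp only [Bool.and_eq_true, List.all_eq_true, decide_eq_true_eq] at hb
  have hx : ∀ u ∈ spanN b0Basis, ∀ v ∈ spanN b0Basis, u ^^^ v ∈ spanN b0Basis := fun u hu v hv =>
    (mask_spec ⟨u ^^^ v, (hb.2 u hu v hv).2⟩).2.2.1.1 (hb.2 u hu v hv).1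
  have h := xor_mem_of_testBit (F := piPair (pairC.getD (i * (i - 1) / 2 + j) (0, 0)) (aN i) (aN j))
    hb.1 hx (piPair_xor _ _ _) (hc i hi j hj) 12 le_rfl n.val (by simpa using n.isLt)
  rw [piPair, h1, h2, Nat.xor_self] at h
  have e0 : ∀ c, appN c 12 0 = 0 := fun c => by
    have := congrArg Fin.val (isAdd_app c).map_zero
    simpa [app] using this
  rw [e0, e0, Nat.xor_zero, Nat.xor_zero] at h
  exact h

theorem fix_pair {u v : Equiv.Perm W} (hu : inA0 u) (hv : inA0 v) (u1 : u ≠ 1) (v1 : v ≠ 1)
    (huv : u ≠ v) : ∀ w, u w = w → v w = w → inB0 w := by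
  intro w h1 h2
  obtain ⟨a, ha, rfl⟩ := hu.resolve_left u1
  obtain ⟨b, hb, rfl⟩ := hv.resolve_left v1
  obtain ⟨i, hi, ei⟩ := exists_pos ha
  obtain ⟨j, hj, ej⟩ := exists_pos hb
  have g1 : appN (aN i) 12 w.val = w.val := by rw [aN, ei]; exact congrArg Fin.val h1
  have g2 : appN (aN j) 12 w.val = w.val := by rw [aN, ej]; exact congrArg Fin.val h2
  rcases lt_trichotomy i j with h | h | h
  · exact piPair_mem hj h w g2 g1
  · subst h
    exact absurd (congrArg jP (Fin.ext (ei.symm.trans ej) : a = b)) huv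
  · exact piPair_mem hi h w g1 g2

/-- The test for fixed vectors modulo the line. -/
def fixLineB (n v : ℕ) : Bool := !perpN.testBit n || n == v || !inEB (n ^^^ v)

theorem c_fixline : ((List.range 15).all fun k => chkA (aN k) fixLineB 12 0 0) = true := by
  decide +kernel

theorem fix_of_inE {u : Equiv.Perm W} (hu : inA0 u) (u1 : u ≠ 1) :
    ∀ v, orth v e1 → orth v e2 → InE (vadd v (u v)) → u v = v := by
  intro v o1 o2 hE
  obtain ⟨a, ha, rfl⟩ := hu.resolve_left u1
  obtain ⟨k, hk, ek⟩ := exists_pos ha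
  have hc := c_fixline
  simp only [List.all_eq_true, List.mem_range] at hc
  have h := forall_of_chkA _ fixLineB (hc k hk) v
  rw [aN, ek] at h
  have hp : perpN.testBit v.val = true := by
    rw [(mask_spec v).1, decide_eq_true_eq]; exact ⟨o1, o2⟩
  have hb : inEB (v.val ^^^ (jP a v).val) = true := by
    rw [← vadd_val]; exact (inEB_iff _).2 hE
  have e : (app (elsC (jN a.val)) v).val = (jP a v).val := rfl
  rw [e] at h
  simp only [fixLineB, hp, hb, Bool.not_true, Bool.false_or, Bool.or_false, beq_iff_eq] at h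
  exact Fin.ext h.symm

/-! ### The movers -/

/-- A map by its index. -/
def tvPn (i : ℕ) : Equiv.Perm W := if h : i < 45 then tvP ⟨i, h⟩ else 1

/-- The movers. -/
def movP (k : ℕ) : Equiv.Perm W := ((movW.getD k []).map tvPn).prod

/-- The packed columns of a mover. -/
def movN (k : ℕ) : ℕ := movC.getD k 0

theorem c_mov : ((List.range 27).all fun k => (List.finRange 12).all fun j =>
    movP k (bas j) == app (movN k) (bas j)) = true := by
  decide +kernel

theorem movP_induction {S : Subgroup (Equiv.Perm W)} (h : ∀ i, tvP i ∈ S) (k : ℕ) :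
    movP k ∈ S := by
  refine S.list_prod_mem fun x hx => ?_
  obtain ⟨i, -, rfl⟩ := List.mem_map.1 hx
  unfold tvPn
  split
  · exact h _
  · exact S.one_mem

theorem movP_good (k : ℕ) : movP k ∈ GL6 := movP_induction tvP_good k

theorem movP_apply {k : ℕ} (hk : k < 27) (n : W) : movP k n = app (movN k) n := by
  have h := c_mov
  simp only [List.all_eq_true, List.mem_range, List.mem_finRange, forall_const, beq_iff_eq] at h
  exact congrFun (isAdd_ext (movP_good k).1.add (isAdd_app _) (h k hk)) n

theorem movP_fix (k : ℕ) : FixE (movP k) := by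
  have h : movP k ∈ MulAction.stabilizer (Equiv.Perm W) e1 ⊓
      MulAction.stabilizer (Equiv.Perm W) e2 :=
    movP_induction (fun i => Subgroup.mem_inf.2 ⟨(tvP_fix i).1, (tvP_fix i).2⟩) k
  exact ⟨h.1, h.2⟩

theorem c_movT : ((List.range 27).all fun k => (movT.getD k []).all fun p =>
    decide (p.2 < 5) && (List.range 12).all fun j =>
      appN (movN k) 12 (col (tvC.getD p.1 0) j) ==
        appN (tvC.getD p.2 0) 12 (col (movN k) j)) = true := by
  decide +kernel

theorem conj_of_cols {h g g' : Equiv.Perm W} {c a b : ℕ} (hh : ∀ n, h n = app c n)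
    (hg : ∀ n, g n = app a n) (hg' : ∀ n, g' n = app b n)
    (hcol : ∀ j < 12, appN c 12 (col a j) = appN b 12 (col c j)) : h * g * h⁻¹ = g' := by
  rw [mul_inv_eq_iff_eq_mul]
  refine Equiv.ext fun n => ?_
  rw [Equiv.Perm.mul_apply, Equiv.Perm.mul_apply, hh, hg, hg', hh]
  refine congrFun (isAdd_ext (isAdd_comp (isAdd_app c) (isAdd_app a))
    (isAdd_comp (isAdd_app b) (isAdd_app c)) fun j => Fin.ext ?_) n
  show appN c 12 (app a (bas j)).val = appN b 12 (app c (bas j)).val
  rw [app_bas, app_bas]
  exact hcol j.val j.isLt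

theorem c_cover : chk (fun n => !condN.testBit n ||
    (decide (getP covN 5 n < 27) && b0N.testBit (appN (movN (getP covN 5 n)) 12 n))) 12 0 =
      true := by
  decide +kernel

theorem cover_vec_core {S : Subgroup (Equiv.Perm W)} (hS : ∀ i, tvP i ∈ S) {v : W}
    (hs : sing v) (o1 : orth v e1) (o2 : orth v e2) : ∃ h ∈ S, inB0 (h v) := by
  have h := chk_spec _ 12 0 c_cover v.val (Nat.zero_le _) (by simpa using v.isLt)
  have hc : condN.testBit v.val = true := by
    rw [(mask_spec v).2.1, decide_eq_true_eq]; exact ⟨hs, o1, o2⟩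
  simp only [hc, Bool.not_true, Bool.false_or, Bool.and_eq_true, decide_eq_true_eq] at h
  refine ⟨movP (getP covN 5 v.val), movP_induction hS _, ?_⟩
  rw [movP_apply h.1]
  exact (mask_spec _).2.2.1.1 h.2

theorem c_movA : ((List.range 15).all fun k => (movA.getD k []).all fun p =>
    decide (p.1 < 27) && decide (p.2 < 15) && (List.range 12).all fun j =>
      appN (movN p.1) 12 (col (aN k) j) == appN (aN p.2) 12 (col (movN p.1) j)) = true := by
  decide +kernel

/-- The test of the covers of fixed singular vectors. -/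
def coverB (k n v : ℕ) : Bool :=
  !(n == v) || !condN.testBit n ||
    (movA.getD k []).any fun p => b0N.testBit (appN (movN p.1) 12 n)

theorem c_cover_pair : ((List.range 15).all fun k => chkA (aN k) (coverB k) 12 0 0) = true := by
  decide +kernel

theorem cover_pair_core {S : Subgroup (Equiv.Perm W)} (hS : ∀ i, tvP i ∈ S) {u : Equiv.Perm W}
    (hu : inA0 u) (u1 : u ≠ 1) : ∀ v, sing v → orth v e1 → orth v e2 → u v = v →
      ∃ h ∈ S, inB0 (h v) ∧ inA0 (h * u * h⁻¹) := by
  intro v hs o1 o2 hf
  obtain ⟨a, ha, rfl⟩ := hu.resolve_left u1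
  obtain ⟨k, hk, ek⟩ := exists_pos ha
  have hc := c_cover_pair
  simp only [List.all_eq_true, List.mem_range] at hc
  have h := forall_of_chkA _ (coverB k) (hc k hk) v
  have hv : (app (aN k) v).val = v.val := by rw [aN, ek]; exact congrArg Fin.val hf
  have hcnd : condN.testBit v.val = true := by
    rw [(mask_spec v).2.1, decide_eq_true_eq]; exact ⟨hs, o1, o2⟩
  simp only [coverB, hv, hcnd, beq_self_eq_true, Bool.not_true, Bool.false_or,
    List.any_eq_true] at h
  obtain ⟨p, hp, hb⟩ := h
  have hm := c_movA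
  simp only [List.all_eq_true, List.mem_range, Bool.and_eq_true, decide_eq_true_eq,
    beq_iff_eq] at hm
  obtain ⟨⟨h1, h2⟩, hcol⟩ := hm k hk p hp
  refine ⟨movP p.1, movP_induction hS _, ?_, ?_⟩
  · rw [movP_apply h1]
    exact (mask_spec _).2.2.1.1 hb
  · have hmem : a0J.getD p.2 0 ∈ a0J := by
      rw [List.getD_eq_getElem _ _ (show p.2 < a0J.length from h2)]
      exact List.getElem_mem _
    have hlt : a0J.getD p.2 0 < 107 := by
      have := c_a0flag
      simp only [List.all_eq_true, Bool.and_eq_true, decide_eq_true_eq] at this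
      exact (this _ hmem).1.1
    rw [conj_of_cols (g' := jP ⟨_, hlt⟩) (c := movN p.1) (a := aN k) (b := aN p.2)
      (movP_apply h1) (fun n => by rw [aN, ek]; rfl) (fun n => rfl) hcol]
    exact Or.inr ⟨⟨_, hlt⟩, hmem, rfl⟩

/-! ### The relations between the 45 maps -/

/-- Commutation on the basis. -/
def commB (i j : ℕ) : Bool :=
  (List.range 12).all fun t => appN (tvC.getD i 0) 12 (col (tvC.getD j 0) t) ==
    appN (tvC.getD j 0) 12 (col (tvC.getD i 0) t)

theorem commB_iff (i j : Fin 45) : commB i.val j.val = true ↔ tvP i * tvP j = tvP j * tvP i := by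
  simp only [commB, List.all_eq_true, List.mem_range, beq_iff_eq]
  constructor
  · intro h
    rw [← mul_inv_eq_iff_eq_mul]
    exact conj_of_cols (tvP_apply i) (tvP_apply j) (tvP_apply j) h
  · intro h t ht
    have := congrArg (fun g : Equiv.Perm W => (g (bas ⟨t, ht⟩)).val) h
    simp only [Equiv.Perm.mul_apply, tvP_apply] at this
    have e : ∀ c d : ℕ, (app c (app d (bas ⟨t, ht⟩))).val = appN c 12 (col d t) := fun c d => by
      show appN c 12 (app d (bas ⟨t, ht⟩)).val = _
      rw [app_bas]
    rw [e, e] at this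
    exact this

theorem c_inj : ((List.range 45).all fun i => (List.range i).all fun j =>
    (List.range 12).any fun t => !(col (tvC.getD i 0) t == col (tvC.getD j 0) t)) = true := by
  decide +kernel

theorem tvP_injective : Function.Injective tvP := by
  have aux : ∀ i j : Fin 45, j.val < i.val → tvP i ≠ tvP j := fun i j h e => by
    have hc := c_inj
    simp only [List.all_eq_true, List.mem_range, List.any_eq_true, Bool.not_eq_true',
      beq_eq_false_iff_ne] at hc
    obtain ⟨t, ht, hne⟩ := hc i.val i.isLt j.val h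
    have := congrArg (fun g : Equiv.Perm W => (g (bas ⟨t, ht⟩)).val) e
    simp only [tvP_apply, app_bas] at this
    exact hne this
  intro i j e
  rcases lt_trichotomy i.val j.val with h | h | h
  · exact absurd e.symm (aux j i h)
  · exact Fin.ext h
  · exact absurd e (aux i j h)

theorem c_plane : ((List.range 45).all fun i => (List.range 45).all fun j =>
    !commB i j || (List.range 27).any fun k =>
      ((movT.getD k []).any fun p => p.1 == i) && (movT.getD k []).any fun p => p.1 == j) =
        true := by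
  decide +kernel

theorem tvP_to_tv {k : ℕ} (hk : k < 27) {i : Fin 45} {p : ℕ × ℕ} (hp : p ∈ movT.getD k [])
    (hi : p.1 = i.val) : IsTv (movP k * tvP i * (movP k)⁻¹) := by
  have h := c_movT
  simp only [List.all_eq_true, List.mem_range, Bool.and_eq_true, decide_eq_true_eq,
    beq_iff_eq] at h
  obtain ⟨h5, hcol⟩ := h k hk p hp
  rw [hi] at hcol
  rw [conj_of_cols (g' := tvP ⟨p.2, by omega⟩) (movP_apply hk) (tvP_apply i) (fun n => rfl) hcol]
  exact isTv_iff.2 ⟨⟨p.2, by omega⟩, h5, rfl⟩

theorem tv_comm_core {S : Subgroup (Equiv.Perm W)} (hS : ∀ i, tvP i ∈ S) {i j : Fin 45}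
    (h : tvP i * tvP j = tvP j * tvP i) :
    ∃ g ∈ S, IsTv (g * tvP i * g⁻¹) ∧ IsTv (g * tvP j * g⁻¹) := by
  have hc := c_plane
  simp only [List.all_eq_true, List.mem_range, Bool.or_eq_true, Bool.not_eq_true',
    List.any_eq_true, Bool.and_eq_true, beq_iff_eq] at hc
  rcases hc i.val i.isLt j.val j.isLt with h0 | ⟨k, hk, ⟨p, hp, hpi⟩, q, hq, hqj⟩
  · rw [(commB_iff i j).2 h] at h0
    exact absurd h0 (by simp)
  · exact ⟨movP k, movP_induction hS k, tvP_to_tv hk hp hpi, tvP_to_tv hk hq hqj⟩

theorem c_braid : ((List.range 45).all fun i => (List.range 45).all fun j =>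
    commB i j || (List.range 12).all fun t =>
      appN (tvC.getD i 0) 12 (appN (tvC.getD j 0) 12 (col (tvC.getD i 0) t)) ==
        appN (tvC.getD j 0) 12 (appN (tvC.getD i 0) 12 (col (tvC.getD j 0) t))) = true := by
  decide +kernel

theorem tv_three_core {i j : Fin 45} (h : tvP i * tvP j ≠ tvP j * tvP i) :
    (tvP i * tvP j) ^ 3 = 1 := by
  have hc := c_braid
  simp only [List.all_eq_true, List.mem_range, Bool.or_eq_true, beq_iff_eq] at hc
  rcases hc i.val i.isLt j.val j.isLt with h0 | h0
  · exact absurd ((commB_iff i j).1 h0) h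
  have hb : tvP i * tvP j * tvP i = tvP j * tvP i * tvP j := by
    refine Equiv.ext fun n => congrFun (isAdd_ext (isAdd_comp (isAdd_app (tvN i))
      (isAdd_comp (isAdd_app (tvN j)) (isAdd_app (tvN i))))
      (isAdd_comp (isAdd_app (tvN j)) (isAdd_comp (isAdd_app (tvN i)) (isAdd_app (tvN j))))
      fun t => Fin.ext ?_) n
    show appN (tvN i) 12 (appN (tvN j) 12 (app (tvN i) (bas t)).val) =
      appN (tvN j) 12 (appN (tvN i) 12 (app (tvN j) (bas t)).val)
    rw [app_bas, app_bas]
    exact h0 t.val t.isLt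
  calc (tvP i * tvP j) ^ 3 = (tvP i * tvP j * tvP i) * (tvP j * tvP i * tvP j) := by
        simp only [pow_succ, pow_zero, one_mul, mul_assoc]
    _ = (tvP i * tvP j * tvP i) * (tvP i * tvP j * tvP i) := by rw [← hb]
    _ = 1 := by
        simp only [mul_assoc]
        rw [← mul_assoc (tvP i) (tvP i), tvP_sq, one_mul, ← mul_assoc (tvP j) (tvP j), tvP_sq,
          one_mul, tvP_sq]

/-- The image of a map minus the identity. -/
def imgL (i : ℕ) : List ℕ := spanN (imgB.getD i [])

theorem c_img : ((List.range 45).all fun i => (imgL i).contains 0 &&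
    ((imgL i).all fun u => (imgL i).all fun v => (imgL i).contains (u ^^^ v)) &&
    (List.range 12).all fun t => (imgL i).contains (2 ^ t ^^^ col (tvC.getD i 0) t)) = true := by
  decide +kernel

theorem c_fix : ((List.range 45).all fun i => (List.range 45).all fun j =>
    commB i j || (imgL i).all fun x => !(appN (tvC.getD j 0) 12 x == x) || inEB x) = true := by
  decide +kernel

theorem mem_imgL (i : Fin 45) (w : W) : (vadd w (tvP i w)).val ∈ imgL i.val := by
  have hc := c_img
  simp only [List.all_eq_true, List.mem_range, Bool.and_eq_true] at hc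
  obtain ⟨⟨h0, hx⟩, hb⟩ := hc i.val i.isLt
  rw [vadd_val]
  show w.val ^^^ appN (tvN i) 12 w.val ∈ _
  refine xor_mem_of_testBit (F := fun n => n ^^^ appN (tvN i) 12 n) h0
    (fun u hu v hv => List.contains_iff_mem.1 (hx u hu v hv))
    (fun a b => by simp only [appN_xor]; ac_rfl) (fun t ht => ?_) 12 le_rfl w.val
    (by simpa using w.isLt)
  have e := app_bas (tvN i) ⟨t, ht⟩
  simp only [app, bas] at e
  show 2 ^ t ^^^ appN (tvN i) 12 (2 ^ t) ∈ _
  rw [e]
  exact List.contains_iff_mem.1 (hb t ht)

theorem tv_fix_core {i j : Fin 45} (h : tvP i * tvP j ≠ tvP j * tvP i) :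
    ∀ x w, vadd w (tvP i w) = x → tvP j x = x → InE x := by
  rintro x w rfl hx
  have hc := c_fix
  simp only [List.all_eq_true, List.mem_range, Bool.or_eq_true, Bool.not_eq_true',
    beq_eq_false_iff_ne] at hc
  rcases hc i.val i.isLt j.val j.isLt with h0 | h0
  · exact absurd ((commB_iff i j).1 h0) h
  rcases h0 _ (mem_imgL i w) with h1 | h1
  · exact absurd (congrArg Fin.val hx) h1
  · exact (inEB_iff _).1 h1

theorem c_lineTv : ((List.range 45).all fun i => decide (i < 5) ||
    ((List.range 5).filter fun k => commB i k).length == 1) = true := by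
  decide +kernel

theorem five_of_inA0 {i : Fin 45} (h : inA0 (tvP i)) : i.val < 5 := by
  obtain ⟨k, hk, e⟩ := isTv_iff.1 ⟨h, tvP_ne_one i, tvV i, tvP_move i⟩
  rw [tvP_injective e]
  exact hk

theorem tv_line_core {i : Fin 45} (h : ¬ inA0 (tvP i)) :
    ∃! v, IsTv v ∧ tvP i * v = v * tvP i := by
  have hc := c_lineTv
  simp only [List.all_eq_true, List.mem_range, Bool.or_eq_true, decide_eq_true_eq,
    beq_iff_eq] at hc
  have hlen := (hc i.val i.isLt).resolve_left fun h5 => h (tvP_inA0 i h5)
  obtain ⟨k, hk⟩ := List.length_eq_one_iff.1 hlen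
  have hkm : k ∈ (List.range 5).filter fun k => commB i.val k := by rw [hk]; simp
  simp only [List.mem_filter, List.mem_range] at hkm
  refine ⟨tvP ⟨k, by omega⟩,
    ⟨isTv_iff.2 ⟨⟨k, by omega⟩, hkm.1, rfl⟩, (commB_iff i ⟨k, by omega⟩).1 hkm.2⟩, ?_⟩
  rintro v ⟨hv, hvc⟩
  obtain ⟨m, hm, rfl⟩ := isTv_iff.1 hv
  have hmm : m.val ∈ (List.range 5).filter fun k => commB i.val k :=
    List.mem_filter.2 ⟨List.mem_range.2 hm, (commB_iff i m).2 hvc⟩
  rw [hk, List.mem_singleton] at hmm
  exact congrArg tvP (Fin.ext hmm)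

theorem c_out : ((List.range 5).all fun k =>
    decide (5 ≤ outC.getD k 0) && decide (outC.getD k 0 < 45) && commB (outC.getD k 0) k) =
      true := by
  decide +kernel

theorem tv_exists_core {v : Equiv.Perm W} (hv : IsTv v) :
    ∃ i : Fin 45, ¬ inA0 (tvP i) ∧ tvP i * v = v * tvP i := by
  obtain ⟨k, hk, rfl⟩ := isTv_iff.1 hv
  have hc := c_out
  simp only [List.all_eq_true, List.mem_range, Bool.and_eq_true, decide_eq_true_eq] at hc
  obtain ⟨⟨h5, h45⟩, hcm⟩ := hc k.val hk
  refine ⟨⟨_, h45⟩, fun h => ?_, (commB_iff ⟨_, h45⟩ k).1 hcm⟩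
  have := five_of_inA0 h
  simp only at this
  omega

theorem tv_five : Nat.card {u // IsTv u} = 5 := by
  let f : Fin 5 → {u // IsTv u} := fun k =>
    ⟨tvP ⟨k.val, by omega⟩, isTv_iff.2 ⟨⟨k.val, by omega⟩, k.isLt, rfl⟩⟩
  have hf : Function.Bijective f := by
    refine ⟨fun a b e => ?_, fun u => ?_⟩
    · have := congrArg Fin.val (tvP_injective (congrArg Subtype.val e))
      exact Fin.ext this
    · obtain ⟨i, hi, e⟩ := isTv_iff.1 u.2
      exact ⟨⟨i.val, hi⟩, Subtype.ext e.symm⟩
  rw [← Nat.card_eq_of_bijective f hf, Nat.card_fin]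

end CfsgLib.LargeFischer58
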