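import Cfsg.Agent.LargeFischer58.Plane
import Cfsg.Prelude.Def_FischerSpaces
import Cfsg.Prelude.Def_SporadicB

/-!
From the plane data: the class of `z` is a class of 3-transpositions generating the group, its
commuting graph is connected, every member commutes with a point of the plane, and the group acts
primitively on it.
-/

set_option autoImplicit false

namespace CfsgLib.LargeFischer58

variable {X : Type*} [Group X] {z : X} {Ab : Subgroup X}

/-- The points of the plane commuting with a member. -/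
def cline (z : X) (Ab : Subgroup X) (d : X) : Set X := {x | x ∈ pts z Ab ∧ Commute d x}

theorem class_conj {x : X} (hx : x ∈ conjugatesOf z) (g : X) :
    g * x * g⁻¹ ∈ conjugatesOf z :=
  IsConj.trans hx (isConj_iff.2 ⟨g, rfl⟩)

theorem exists_mul_inv {x : X} (hx : x ∈ conjugatesOf z) : ∃ g : X, g * x * g⁻¹ = z :=
  isConj_iff.1 (IsConj.symm hx)

theorem conj_inj (g : X) {a b : X} (h : g * a * g⁻¹ = g * b * g⁻¹) : a = b :=
  mul_left_cancel (mul_right_cancel h)

theorem conj_back (g a : X) : g * (g⁻¹ * a * g⁻¹⁻¹) * g⁻¹ = a := by simp [mul_assoc]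

theorem conj_twice (g h a : X) : g * (h * a * h⁻¹) * g⁻¹ = g * h * a * (g * h)⁻¹ := by
  simp [mul_assoc]

namespace PlaneData

variable (P : PlaneData z Ab)

section Basic

theorem z_mem_class : z ∈ conjugatesOf z := IsConj.refl z

include P

theorem z_mem_pts : z ∈ pts z Ab := ⟨IsConj.refl z, P.mem⟩

theorem class_sq {x : X} (hx : x ∈ conjugatesOf z) : x * x = 1 := by
  obtain ⟨g, rfl⟩ := isConj_iff.1 hx
  rw [show g * z * g⁻¹ * (g * z * g⁻¹) = g * (z * z) * g⁻¹ by simp [mul_assoc], P.sq, mul_one,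
    mul_inv_cancel]

theorem class_inv {x : X} (hx : x ∈ conjugatesOf z) : x⁻¹ = x :=
  inv_eq_of_mul_eq_one_right (P.class_sq hx)

theorem class_ne_one {x : X} (hx : x ∈ conjugatesOf z) : x ≠ 1 := by
  rintro rfl
  obtain ⟨g, hg⟩ := exists_mul_inv hx
  exact P.ne (by rw [← hg]; simp)

theorem orderOf_class {x : X} (hx : x ∈ conjugatesOf z) : orderOf x = 2 :=
  orderOf_eq_prime (by rw [pow_two]; exact P.class_sq hx) (P.class_ne_one hx)

theorem comm_Ab {a b : X} (ha : a ∈ Ab) (hb : b ∈ Ab) : Commute a b := by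
  have h := P.elem _ (mul_mem ha hb)
  have h1 : a⁻¹ = a := inv_eq_of_mul_eq_one_right (P.elem a ha)
  have h2 : b⁻¹ = b := inv_eq_of_mul_eq_one_right (P.elem b hb)
  calc a * b = (a * b)⁻¹ := (inv_eq_of_mul_eq_one_right h).symm
    _ = b * a := by rw [mul_inv_rev, h1, h2]

theorem exists_second : ∃ w ∈ pts z Ab, w ≠ z := by
  by_contra h
  push Not at h
  have hs : pts z Ab ⊆ {z} := fun w hw => h w hw
  have := Set.ncard_le_ncard hs
  rw [P.card_pts, Set.ncard_singleton] at this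
  omega

end Basic

section Normalizer

theorem Ab_normal {g a : X} (hg : g ∈ Subgroup.normalizer (Ab : Set X)) :
    g * a * g⁻¹ ∈ Ab ↔ a ∈ Ab :=
  (Subgroup.mem_normalizer_iff.1 hg a).symm

theorem pts_normal {g a : X} (hg : g ∈ Subgroup.normalizer (Ab : Set X)) (ha : a ∈ pts z Ab) :
    g * a * g⁻¹ ∈ pts z Ab :=
  ⟨class_conj ha.1 g, (Ab_normal hg).2 ha.2⟩

theorem cline_conj {g d : X} (hg : g ∈ Subgroup.normalizer (Ab : Set X)) :
    cline z Ab (g * d * g⁻¹) = (fun x => g * x * g⁻¹) '' cline z Ab d := by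
  ext x
  constructor
  · intro hx
    refine ⟨g⁻¹ * x * g⁻¹⁻¹, ⟨pts_normal (inv_mem hg) hx.1, ?_⟩, conj_back g x⟩
    have := (Commute.conj_iff g⁻¹).2 hx.2
    simpa [mul_assoc] using this
  · rintro ⟨y, hy, rfl⟩
    exact ⟨pts_normal hg hy.1, (Commute.conj_iff g).2 hy.2⟩

include P

theorem exists_to_z {x : X} (hx : x ∈ pts z Ab) :
    ∃ g ∈ Subgroup.normalizer (Ab : Set X), g * x * g⁻¹ = z := by
  by_cases hxz : x = z
  · exact ⟨1, one_mem _, by simp [hxz]⟩
  obtain ⟨g, hg, h1, -⟩ := P.two_trans x hx z P.z_mem_pts hxz x hx hxz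
  exact ⟨g, hg, h1⟩

theorem pts_pair {x y x' y' : X} (hx : x ∈ pts z Ab) (hy : y ∈ pts z Ab) (hne : x ≠ y)
    (hx' : x' ∈ pts z Ab) (hy' : y' ∈ pts z Ab) (hne' : x' ≠ y') :
    ∃ g ∈ Subgroup.normalizer (Ab : Set X), g * x * g⁻¹ = x' ∧ g * y * g⁻¹ = y' := by
  obtain ⟨w, hw, hwz⟩ := P.exists_second
  obtain ⟨g, hg, h1, h2⟩ := P.two_trans x hx y hy hne w hw hwz
  obtain ⟨k, hk, h3, h4⟩ := P.two_trans x' hx' y' hy' hne' w hw hwz
  refine ⟨k⁻¹ * g, mul_mem (inv_mem hk) hg, ?_, ?_⟩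
  · rw [← conj_twice, h1, ← h3]
    simp [mul_assoc]
  · rw [← conj_twice, h2, ← h4]
    simp [mul_assoc]

end Normalizer

section Planes

include P

/-- A commuting involution is brought into the plane along with the member. -/
theorem exists_plane {d j : X} (hd : d ∈ conjugatesOf z) (hj : j * j = 1) (h : Commute j d) :
    ∃ g : X, g * d * g⁻¹ = z ∧ g * j * g⁻¹ ∈ Ab := by
  obtain ⟨g, hg⟩ := exists_mul_inv hd
  have hj' : g * j * g⁻¹ * (g * j * g⁻¹) = 1 := by
    rw [show g * j * g⁻¹ * (g * j * g⁻¹) = g * (j * j) * g⁻¹ by simp [mul_assoc], hj, mul_one,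
      mul_inv_cancel]
  have hc : Commute (g * j * g⁻¹) z := hg ▸ (Commute.conj_iff g).2 h
  obtain ⟨k, hk, hkA⟩ := P.cover _ hj' hc
  refine ⟨k * g, ?_, by rw [← conj_twice]; exact hkA⟩
  rw [← conj_twice, hg, hk.eq, mul_inv_cancel_right]

/-- Any two commuting pairs of different members are conjugate. -/
theorem pair_conj {a b w : X} (ha : a ∈ conjugatesOf z) (hb : b ∈ conjugatesOf z) (hne : a ≠ b)
    (hc : Commute a b) (hw : w ∈ pts z Ab) (hwz : w ≠ z) :
    ∃ g : X, g * a * g⁻¹ = z ∧ g * b * g⁻¹ = w := by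
  obtain ⟨g, hg, hgb⟩ := P.exists_plane ha (P.class_sq hb) hc.symm
  have hb' : g * b * g⁻¹ ∈ pts z Ab := ⟨class_conj hb g, hgb⟩
  have hne' : z ≠ g * b * g⁻¹ := fun e => hne (conj_inj g (hg.trans e))
  obtain ⟨k, -, h1, h2⟩ := P.two_trans z P.z_mem_pts _ hb' hne' w hw hwz
  exact ⟨k * g, by rw [← conj_twice, hg, h1], by rw [← conj_twice, h2]⟩

end Planes

section Lines

include P

theorem line_at {d x : X} (hd : d ∈ conjugatesOf z) (hdA : d ∉ Ab) (hx : x ∈ pts z Ab)
    (hc : Commute d x) :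
    (cline z Ab d).ncard = 5 ∧
      ∃ g : X, g * d * g⁻¹ ∈ Ab ∧ ∀ y ∈ cline z Ab d, g * y * g⁻¹ ∈ Ab := by
  obtain ⟨n, hn, hnx⟩ := P.exists_to_z hx
  have hdA' : n * d * n⁻¹ ∉ Ab := fun h => hdA ((Ab_normal hn).1 h)
  have hnb : n * d * n⁻¹ ∈ nbrs z :=
    ⟨class_conj hd n, fun e => hdA' (e ▸ P.mem), (hnx ▸ (Commute.conj_iff n).2 hc).symm⟩
  obtain ⟨h5, g, hg, hgl⟩ := P.line _ hnb hdA'
  have he : cline z Ab (n * d * n⁻¹) = (fun x => n * x * n⁻¹) '' cline z Ab d := cline_conj hn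
  refine ⟨?_, g * n, by rw [← conj_twice]; exact hg, fun y hy => ?_⟩
  · have h5' : (cline z Ab (n * d * n⁻¹)).ncard = 5 := h5
    rwa [he, Set.ncard_image_of_injective _ fun a b h => conj_inj n h] at h5'
  · have hy' : n * y * n⁻¹ ∈ cline z Ab (n * d * n⁻¹) := he ▸ ⟨y, hy, rfl⟩
    rw [← conj_twice]
    exact hgl _ hy'.1 hy'.2

theorem line_eq {d d' x y : X} (hd : d ∈ conjugatesOf z) (hd' : d' ∈ conjugatesOf z)
    (hdA : d ∉ Ab) (hdA' : d' ∉ Ab) (hxy : x ≠ y) (h1 : x ∈ cline z Ab d) (h2 : y ∈ cline z Ab d)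
    (h3 : x ∈ cline z Ab d') (h4 : y ∈ cline z Ab d') : cline z Ab d = cline z Ab d' := by
  obtain ⟨n, hn, hnx⟩ := P.exists_to_z h1.1
  have key : ∀ e : X, e ∈ conjugatesOf z → e ∉ Ab → Commute e x → n * e * n⁻¹ ∈ nbrs z ∧
      n * e * n⁻¹ ∉ Ab := by
    intro e he heA hc
    have heA' : n * e * n⁻¹ ∉ Ab := fun h => heA ((Ab_normal hn).1 h)
    exact ⟨⟨class_conj he n, fun h => heA' (h ▸ P.mem),
      (hnx ▸ (Commute.conj_iff n).2 hc).symm⟩, heA'⟩
  obtain ⟨hn1, hA1⟩ := key d hd hdA h1.2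
  obtain ⟨hn2, hA2⟩ := key d' hd' hdA' h3.2
  have hyz : n * y * n⁻¹ ≠ z := fun e => hxy (conj_inj n (hnx.trans e.symm))
  have hyp : n * y * n⁻¹ ∈ pts z Ab := pts_normal hn h2.1
  have hyd : Commute (n * d * n⁻¹) (n * y * n⁻¹) := (Commute.conj_iff n).2 h2.2
  have hyd' : Commute (n * d' * n⁻¹) (n * y * n⁻¹) := (Commute.conj_iff n).2 h4.2
  ext u
  constructor
  · intro hu
    exact ⟨hu.1, (Commute.conj_iff n).1 (P.line_unique _ hn1 _ hn2 hA1 hA2 _ hyp hyz hyd hyd' _
      (pts_normal hn hu.1) ((Commute.conj_iff n).2 hu.2))⟩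
  · intro hu
    exact ⟨hu.1, (Commute.conj_iff n).1 (P.line_unique _ hn2 _ hn1 hA2 hA1 _ hyp hyz hyd' hyd _
      (pts_normal hn hu.1) ((Commute.conj_iff n).2 hu.2))⟩

/-- There is a line through any two points. -/
theorem line_through {x y : X} (hx : x ∈ pts z Ab) (hy : y ∈ pts z Ab) (hne : x ≠ y) :
    ∃ e ∈ conjugatesOf z, e ∉ Ab ∧ x ∈ cline z Ab e ∧ y ∈ cline z Ab e := by
  obtain ⟨n, hn, hnx⟩ := P.exists_to_z hx
  have hyz : n * y * n⁻¹ ≠ z := fun e => hne (conj_inj n (hnx.trans e.symm))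
  obtain ⟨d, hd, hdA, hdy⟩ := P.line_exists _ (pts_normal hn hy) hyz
  have e1 : n * (n⁻¹ * d * n⁻¹⁻¹) * n⁻¹ = d := conj_back n d
  refine ⟨n⁻¹ * d * n⁻¹⁻¹, class_conj hd.1 _, fun h => hdA ((Ab_normal (inv_mem hn)).1 h),
    ⟨hx, (Commute.conj_iff n).1 ?_⟩, ⟨hy, (Commute.conj_iff n).1 ?_⟩⟩
  · rw [e1, hnx]; exact hd.2.2.symm
  · rw [e1]; exact hdy

end Lines

section Graph

variable [Finite X]

include P

/-- Two lines meet. -/
theorem two_lines {d d' x x' : X} (hd : d ∈ conjugatesOf z) (hd' : d' ∈ conjugatesOf z)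
    (hdA : d ∉ Ab) (hdA' : d' ∉ Ab) (hx : x ∈ cline z Ab d) (hx' : x' ∈ cline z Ab d') :
    ∃ u, u ∈ cline z Ab d ∧ u ∈ cline z Ab d' := by
  classical
  by_contra hno
  push Not at hno
  have hxp : ∀ p ∈ cline z Ab d', x ≠ p := fun p hp e => hno x hx (e ▸ hp)
  choose! e he heA hex hep using fun p (hp : p ∈ cline z Ab d') =>
    P.line_through hx.1 hp.1 (hxp p hp)
  let L : X → Finset X := fun a => (cline z Ab a).toFinite.toFinset
  have hL : ∀ a q, q ∈ L a ↔ q ∈ cline z Ab a := fun a q => Set.Finite.mem_toFinset _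
  have h4 : ∀ a, a ∈ conjugatesOf z → a ∉ Ab → x ∈ cline z Ab a → ((L a).erase x).card = 4 := by
    intro a ha haA hxa
    rw [Finset.card_erase_of_mem ((hL a x).2 hxa), ← Set.ncard_eq_toFinset_card,
      (P.line_at ha haA hxa.1 hxa.2).1]
  have hF : (L d').card = 5 := by
    rw [← Set.ncard_eq_toFinset_card, (P.line_at hd' hdA' hx'.1 hx'.2).1]
  have hdisj : ((L d' : Finset X) : Set X).PairwiseDisjoint fun p => (L (e p)).erase x := by
    intro p hp p' hp' hne
    rw [Finset.mem_coe, hL] at hp hp'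
    refine Finset.disjoint_left.2 fun q hq hq' => ?_
    rw [Finset.mem_erase, hL] at hq hq'
    have heq := P.line_eq (he p hp) (he p' hp') (heA p hp) (heA p' hp') (Ne.symm hq.1) (hex p hp)
      hq.2 (hex p' hp') hq'.2
    have hp'1 : p' ∈ cline z Ab (e p) := heq ▸ hep p' hp'
    have heq' := P.line_eq (he p hp) hd' (heA p hp) hdA' hne (hep p hp) hp'1 hp hp'
    exact hno x hx (heq' ▸ hex p hp)
  have hdisj' : Disjoint ((L d').biUnion fun p => (L (e p)).erase x) ((L d).erase x) := by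
    refine Finset.disjoint_left.2 fun q hq hq' => ?_
    obtain ⟨p, hp, hq⟩ := Finset.mem_biUnion.1 hq
    rw [hL] at hp
    rw [Finset.mem_erase, hL] at hq hq'
    have heq := P.line_eq (he p hp) hd (heA p hp) hdA (Ne.symm hq.1) (hex p hp) hq.2 hx hq'.2
    exact hno p (heq ▸ hep p hp) hp
  have hsub : ((L d').biUnion fun p => (L (e p)).erase x) ∪ (L d).erase x ⊆
      ((pts z Ab).toFinite.toFinset).erase x := by
    intro q hq
    rw [Finset.mem_erase, Set.Finite.mem_toFinset]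
    rcases Finset.mem_union.1 hq with hq | hq
    · obtain ⟨p, -, hq⟩ := Finset.mem_biUnion.1 hq
      rw [Finset.mem_erase, hL] at hq
      exact ⟨hq.1, hq.2.1⟩
    · rw [Finset.mem_erase, hL] at hq
      exact ⟨hq.1, hq.2.1⟩
  have hcard := Finset.card_le_card hsub
  rw [Finset.card_union_of_disjoint hdisj', Finset.card_biUnion hdisj,
    Finset.sum_congr rfl (fun p hp => h4 (e p) (he p ((hL d' p).1 hp)) (heA p ((hL d' p).1 hp))
      (hex p ((hL d' p).1 hp))), Finset.sum_const, hF, h4 d hd hdA hx,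
    Finset.card_erase_of_mem ((Set.Finite.mem_toFinset _).2 hx.1),
    ← Set.ncard_eq_toFinset_card, P.card_pts, smul_eq_mul] at hcard
  omega

theorem exists_off_line {d x : X} (hd : d ∈ conjugatesOf z) (hdA : d ∉ Ab) (hx : x ∈ cline z Ab d) :
    ∃ y ∈ pts z Ab, ∃ y' ∈ pts z Ab, y ≠ y' ∧ ¬ Commute d y ∧ ¬ Commute d y' := by
  have h5 := (P.line_at hd hdA hx.1 hx.2).1
  have hsub : cline z Ab d ⊆ pts z Ab := fun u hu => hu.1
  have h16 : 1 < (pts z Ab \ cline z Ab d).ncard := by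
    rw [Set.ncard_sdiff hsub, P.card_pts, h5]
    omega
  obtain ⟨y, hy, y', hy', hne⟩ := (Set.one_lt_ncard (Set.toFinite _)).1 h16
  exact ⟨y, hy.1, y', hy'.1, hne, fun h => hy.2 ⟨hy.1, h⟩, fun h => hy'.2 ⟨hy'.1, h⟩⟩

/-- Commuting with a point of the plane passes to commuting members. -/
theorem exists_point_step {d e : X} (hd : d ∈ conjugatesOf z) (he : e ∈ conjugatesOf z)
    (hde : Commute d e) (hpt : ∃ x ∈ pts z Ab, Commute d x) : ∃ x ∈ pts z Ab, Commute e x := by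
  by_cases hdA : d ∈ Ab
  · exact ⟨d, ⟨hd, hdA⟩, hde.symm⟩
  obtain ⟨x, hx, hdx⟩ := hpt
  obtain ⟨h5, g, hgd, hgl⟩ := P.line_at hd hdA hx hdx
  by_cases heA : g * e * g⁻¹ ∈ Ab
  · exact ⟨x, hx, (Commute.conj_iff g).1 (P.comm_Ab heA (hgl x ⟨hx, hdx⟩))⟩
  obtain ⟨w, hw, _, _, _, hdw, _⟩ := P.exists_off_line hd hdA ⟨hx, hdx⟩
  have hwA : g * w * g⁻¹ ∉ Ab := fun h => hdw ((Commute.conj_iff g).1 (P.comm_Ab hgd h))
  have hsub : (fun x => g * x * g⁻¹) '' cline z Ab d ⊆ cline z Ab (g * w * g⁻¹) := by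
    rintro _ ⟨y, hy, rfl⟩
    exact ⟨⟨class_conj hy.1.1 g, hgl y hy⟩,
      (Commute.conj_iff g).2 (P.comm_Ab hw.2 hy.1.2)⟩
  have hgx := hsub ⟨x, ⟨hx, hdx⟩, rfl⟩
  have heq : (fun x => g * x * g⁻¹) '' cline z Ab d = cline z Ab (g * w * g⁻¹) := by
    refine Set.eq_of_subset_of_ncard_le hsub (le_of_eq ?_)
    rw [(P.line_at (class_conj hw.1 g) hwA hgx.1 hgx.2).1,
      Set.ncard_image_of_injective _ fun a b h => conj_inj g h, h5]
  obtain ⟨u, hue, huw⟩ := P.two_lines (class_conj he g) (class_conj hw.1 g) heA hwA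
    (show g * d * g⁻¹ ∈ cline z Ab (g * e * g⁻¹) from
      ⟨⟨class_conj hd g, hgd⟩, (Commute.conj_iff g).2 hde.symm⟩) hgx
  rw [← heq] at huw
  obtain ⟨y, hy, rfl⟩ := huw
  exact ⟨y, hy.1, (Commute.conj_iff g).1 hue.2⟩

omit [Finite X] in
/-- Two members centralising one involution commute with a third member. -/
theorem common_member {d e j : X} (hd : d ∈ conjugatesOf z) (he : e ∈ conjugatesOf z)
    (hj : j * j = 1) (hj1 : j ≠ 1) (hjd : Commute j d) (hje : Commute j e) :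
    ∃ p ∈ conjugatesOf z, Commute d p ∧ Commute p e := by
  obtain ⟨a, had, haj⟩ := P.exists_plane hd hj hjd
  obtain ⟨b, hbe, hbj⟩ := P.exists_plane he hj hje
  have hne : a * j * a⁻¹ ≠ 1 := fun h => hj1 (conj_inj a (h.trans (by simp)))
  have e1 : b * a⁻¹ * (a * j * a⁻¹) * (b * a⁻¹)⁻¹ = b * j * b⁻¹ := by simp [mul_assoc]
  obtain ⟨x, hx, hx'⟩ := P.meet (b * a⁻¹) (a * j * a⁻¹) hne haj (e1 ▸ hbj)
  refine ⟨a⁻¹ * x * a⁻¹⁻¹, class_conj hx.1 _, (Commute.conj_iff a).1 ?_,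
    (Commute.conj_iff b).1 ?_⟩
  · rw [had, conj_back]
    exact P.comm_Ab P.mem hx.2
  · rw [hbe, show b * (a⁻¹ * x * a⁻¹⁻¹) * b⁻¹ = b * a⁻¹ * x * (b * a⁻¹)⁻¹ by simp [mul_assoc]]
    exact P.comm_Ab hx'.2 P.mem

/-- Two commuting involutions centralise a member. -/
theorem common_cent {j k : X} (hj : j * j = 1) (hk : k * k = 1) (hc : Commute j k) :
    ∃ d ∈ conjugatesOf z, Commute j d ∧ Commute k d := by
  obtain ⟨K, hK⟩ := Sylow.exists_subgroup_card_pow_prime 2 P.sylow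
  have hK' : Nat.card (K.map (Subgroup.centralizer ({z} : Set X)).subtype) = 2 ^ 15 := by
    rw [Subgroup.card_map_of_injective (Subgroup.subtype_injective _), hK]
  obtain ⟨S, hS⟩ := (IsPGroup.of_card hK').exists_le_sylow
  obtain ⟨n, hn⟩ := S.2.exists_card_eq
  have hn15 : n ≤ 15 := by
    by_contra h
    exact P.two.2 ((pow_dvd_pow 2 (Nat.not_le.1 h)).trans (hn ▸ Subgroup.card_subgroup_dvd_card _))
  have hSK : (S : Subgroup X) = K.map (Subgroup.centralizer ({z} : Set X)).subtype := by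
    refine (Subgroup.eq_of_le_of_card_ge hS ?_).symm
    rw [hK', hn]
    exact Nat.pow_le_pow_right (by norm_num) hn15
  have hE : IsPGroup 2 ↥(Subgroup.closure ({j, k} : Set X)) := by
    intro u
    refine ⟨1, Subtype.ext ?_⟩
    have key : (u : X) * u = 1 ∧ Commute (u : X) j ∧ Commute (u : X) k := by
      refine Subgroup.closure_induction (p := fun u _ => u * u = 1 ∧ Commute u j ∧ Commute u k)
        ?_ ?_ ?_ ?_ u.2
      · rintro x (rfl | rfl)
        · exact ⟨hj, Commute.refl _, hc⟩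
        · exact ⟨hk, hc.symm, Commute.refl _⟩
      · exact ⟨one_mul 1, Commute.one_left _, Commute.one_left _⟩
      · intro x y _ hy hx' hy'
        have hcxy : Commute x y := by
          refine Subgroup.closure_induction (p := fun y _ => Commute x y) ?_ (Commute.one_right x)
            (fun _ _ _ _ h1 h2 => h1.mul_right h2) (fun _ _ h1 => h1.inv_right) hy
          rintro w (rfl | rfl)
          exacts [hx'.2.1, hx'.2.2]
        exact ⟨by rw [← mul_assoc, mul_assoc x y x, ← hcxy.eq, ← mul_assoc x x y, hx'.1, one_mul,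
          hy'.1], hx'.2.1.mul_left hy'.2.1, hx'.2.2.mul_left hy'.2.2⟩
      · intro x _ hx'
        exact ⟨by rw [← mul_inv_rev, hx'.1, inv_one], hx'.2.1.inv_left, hx'.2.2.inv_left⟩
    simpa [pow_two] using key.1
  obtain ⟨T, hT⟩ := hE.exists_le_sylow
  obtain ⟨g, rfl⟩ := MulAction.exists_smul_eq X S T
  have key : ∀ u ∈ (((g • S : Sylow 2 X)) : Subgroup X), Commute u (g * z * g⁻¹) := by
    intro u hu
    rw [Sylow.coe_subgroup_smul, hSK, Subgroup.mem_pointwise_smul_iff_inv_smul_mem] at hu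
    obtain ⟨v, -, hv⟩ := hu
    have hvz : Commute (v : X) z := Subgroup.mem_centralizer_singleton_iff.1 v.2
    have huv : u = g * (v : X) * g⁻¹ := by
      change (v : X) = _ at hv
      simp [hv, mul_assoc, MulAut.smul_def]
    rw [huv]
    exact (Commute.conj_iff g).2 hvz
  exact ⟨g * z * g⁻¹, class_conj (IsConj.refl z) g,
    key j (hT (Subgroup.subset_closure (Or.inl rfl))),
    key k (hT (Subgroup.subset_closure (Or.inr rfl)))⟩

/-- The commuting graph on the class is connected: a property holding at `z` and passing to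
commuting members holds for all members. -/
theorem class_induction (p : X → Prop) (hz : p z)
    (hstep : ∀ a ∈ conjugatesOf z, ∀ b ∈ conjugatesOf z, Commute a b → p a → p b)
    {d : X} (hd : d ∈ conjugatesOf z) : p d := by
  obtain ⟨j, hjA, hj1, hjD⟩ := P.other
  have hj : j * j = 1 := P.elem j hjA
  set u := d * j with hu
  have hdd : d * d = 1 := P.class_sq hd
  have hdud : d * u * d = u⁻¹ := by
    rw [hu, mul_inv_rev, P.class_inv hd, inv_eq_of_mul_eq_one_right hj, ← mul_assoc d d j, hdd,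
      one_mul]
  have hpow : ∀ m : ℕ, d * u ^ m * d = (u ^ m)⁻¹ := by
    intro m
    induction m with
    | zero => simpa using hdd
    | succ m ih =>
      rw [pow_succ, show d * (u ^ m * u) * d = d * u ^ m * d * (d * u * d) by
        simp only [mul_assoc]
        rw [← mul_assoc d d (u * d), hdd, one_mul], ih, hdud, ← mul_inv_rev, ← pow_succ',
        pow_succ]
  have heven : 2 ∣ orderOf u := by
    by_contra hodd
    obtain ⟨m, hm⟩ : ∃ m, orderOf u = 2 * m + 1 := ⟨orderOf u / 2, by omega⟩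
    apply hjD
    have h1 : d * (u ^ m)⁻¹ = u ^ m * d := by
      rw [← hpow m, show d * (d * u ^ m * d) = d * d * (u ^ m * d) by simp [mul_assoc], hdd,
        one_mul]
    have h2 : u ^ m * d * (u ^ m)⁻¹ = j := by
      rw [mul_assoc, h1, ← mul_assoc, ← pow_add]
      have h3 : u * (u ^ (m + m) * d) = u * j := by
        rw [← mul_assoc, ← pow_succ', show m + m + 1 = orderOf u by omega, pow_orderOf_eq_one,
          one_mul, hu, mul_assoc, hj, mul_one]
      exact mul_left_cancel h3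
    exact h2 ▸ class_conj hd _
  obtain ⟨m, hm⟩ := heven
  have hpos : 0 < orderOf u := orderOf_pos u
  set t := u ^ m with ht
  have htt : t * t = 1 := by
    rw [ht, ← pow_add, show m + m = orderOf u by omega, pow_orderOf_eq_one]
  have ht1 : t ≠ 1 := fun h => by
    have := Nat.le_of_dvd (by omega) (orderOf_dvd_of_pow_eq_one h)
    omega
  have htd : Commute t d := by
    have h := hpow m
    rw [← ht, inv_eq_of_mul_eq_one_right htt] at h
    calc t * d = d * t * d * d := by rw [h]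
      _ = d * t := by rw [mul_assoc (d * t), hdd, mul_one]
  have htj : Commute t j := by
    have h : Commute t u := (Commute.refl u).pow_left m
    have e : j = d * u := by rw [hu, ← mul_assoc, hdd, one_mul]
    rw [e]
    exact htd.mul_right h
  obtain ⟨f, hf, hft, hfj⟩ := P.common_cent htt hj htj
  obtain ⟨p₁, hp₁, hzp, hpf⟩ := P.common_member (IsConj.refl z) hf hj hj1
    (P.comm_Ab hjA P.mem) hfj
  obtain ⟨p₂, hp₂, hfp, hpd⟩ := P.common_member hf hd htt ht1 hft htd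
  exact hstep p₂ hp₂ d hd hpd (hstep f hf p₂ hp₂ hfp (hstep p₁ hp₁ f hf hpf
    (hstep z (IsConj.refl z) p₁ hp₁ hzp hz)))

/-- Every member commutes with a point of the plane. -/
theorem exists_point {d : X} (hd : d ∈ conjugatesOf z) : ∃ x ∈ pts z Ab, Commute d x :=
  P.class_induction (fun d => ∃ x ∈ pts z Ab, Commute d x)
    ⟨z, P.z_mem_pts, Commute.refl z⟩ (fun _ ha _ hb hc h => P.exists_point_step ha hb hc h) hd

/-- Two members commute with a common member, and so noncommuting members generate `Sym(3)`. -/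
theorem three_all : ∀ d ∈ conjugatesOf z, ∀ e ∈ conjugatesOf z, ¬ Commute d e →
    (d * e) ^ 3 = 1 := by
  intro d hd e he hde
  obtain ⟨g, hg⟩ := exists_mul_inv he
  obtain ⟨x, hx, hdx⟩ := P.exists_point (class_conj hd g)
  obtain ⟨n, hn, hnx⟩ := P.exists_to_z hx
  have hnc : ¬ Commute (n * g * d * (n * g)⁻¹) (n * g * e * (n * g)⁻¹) :=
    fun h => hde ((Commute.conj_iff _).1 h)
  have h1 : Commute z (n * g * d * (n * g)⁻¹) := by
    rw [← hnx, ← conj_twice]
    exact (Commute.conj_iff n).2 hdx.symm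
  have h2 : Commute z (n * g * e * (n * g)⁻¹) := by
    rw [← hnx, ← conj_twice, hg]
    exact (Commute.conj_iff n).2 (P.comm_Ab hx.2 P.mem)
  have h := P.three _ ⟨class_conj hd _, fun h => hnc (h ▸ h2), h1⟩
    _ ⟨class_conj he _, fun h => hnc (h ▸ h1.symm), h2⟩ hnc
  rw [show n * g * d * (n * g)⁻¹ * (n * g * e * (n * g)⁻¹) = n * g * (d * e) * (n * g)⁻¹ by
    simp [mul_assoc], conj_pow] at h
  exact conj_inj (n * g) (h.trans (by simp))

theorem isThreeTranspositionSet : Cfsg.IsThreeTranspositionSet (conjugatesOf z) := by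
  refine ⟨fun d hd => P.orderOf_class hd, fun d hd e he => ?_⟩
  by_cases h : Commute d e
  · left
    rw [h.mul_pow, pow_two, pow_two, P.class_sq hd, P.class_sq he, one_mul]
  · exact Or.inr (P.three_all d hd e he h)

theorem braid {d e : X} (hd : d ∈ conjugatesOf z) (he : e ∈ conjugatesOf z) (h : ¬ Commute d e) :
    d * e * d = e * d * e := by
  have h3 : d * e * d * (e * d * e) = 1 := by
    rw [show d * e * d * (e * d * e) = (d * e) ^ 3 by simp [pow_succ, mul_assoc]]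
    exact P.three_all d hd e he h
  rw [eq_inv_of_mul_eq_one_left h3]
  simp [mul_assoc, P.class_inv hd, P.class_inv he]

/-- There are members that do not commute. -/
theorem noncomm : ∃ a ∈ conjugatesOf z, ∃ c ∈ conjugatesOf z, ¬ Commute a c := by
  obtain ⟨w, hw, hwz⟩ := P.exists_second
  obtain ⟨d, hd, hdA, hdw⟩ := P.line_exists w hw hwz
  obtain ⟨y, hy, _, _, _, hdy, _⟩ := P.exists_off_line hd.1 hdA ⟨hw, hdw⟩
  exact ⟨d, hd.1, y, hy.1, hdy⟩

omit [Finite X] in
/-- Every member has other members commuting with it. -/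
theorem exists_nbr {x : X} (hx : x ∈ conjugatesOf z) :
    ∃ y ∈ conjugatesOf z, y ≠ x ∧ Commute x y := by
  obtain ⟨w, hw, hwz⟩ := P.exists_second
  obtain ⟨g, hg⟩ := exists_mul_inv hx
  have e : g * (g⁻¹ * w * g⁻¹⁻¹) * g⁻¹ = w := conj_back g w
  refine ⟨g⁻¹ * w * g⁻¹⁻¹, class_conj hw.1 _, fun h => hwz ?_, (Commute.conj_iff g).1 ?_⟩
  · rw [← e, h, hg]
  · rw [hg, e]
    exact P.comm_Ab P.mem hw.2

theorem closure_eq_top : Subgroup.closure (conjugatesOf z) = ⊤ := by
  set K := Subgroup.closure (conjugatesOf z) with hK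
  have hn : ∀ g : X, ∀ k ∈ K, g * k * g⁻¹ ∈ K := by
    intro g k hk
    refine Subgroup.closure_induction (p := fun k _ => g * k * g⁻¹ ∈ K) ?_ ?_ ?_ ?_ hk
    · exact fun x hx => Subgroup.subset_closure (class_conj hx g)
    · simp
    · intro x y _ _ h1 h2
      simpa [mul_assoc] using mul_mem h1 h2
    · intro x _ h1
      simpa [mul_assoc] using inv_mem h1
  have hstep : ∀ d ∈ conjugatesOf z, ∀ e ∈ conjugatesOf z, ¬ Commute d e →
      ∃ k ∈ K, k * d * k⁻¹ = e := fun d hd e he h => by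
    refine ⟨d * e, mul_mem (Subgroup.subset_closure hd) (Subgroup.subset_closure he), ?_⟩
    rw [mul_inv_rev, P.class_inv hd, P.class_inv he,
      show d * e * d * (e * d) = d * (e * d * e) * d by simp [mul_assoc],
      ← P.braid hd he h,
      show d * (d * e * d) * d = d * d * e * (d * d) by simp [mul_assoc], P.class_sq hd,
      one_mul, mul_one]
  have hpts : ∀ x ∈ pts z Ab, ∀ y ∈ pts z Ab, x ≠ y → ∃ k ∈ K, k * x * k⁻¹ = y := by
    intro x hx y hy hne
    obtain ⟨e₀, he₀, heA₀, hxe, hye⟩ := P.line_through hx hy hne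
    obtain ⟨w, hw, _, _, _, hew, _⟩ := P.exists_off_line he₀ heA₀ hxe
    have h3 : 1 < (cline z Ab e₀ \ {x}).ncard := by
      rw [Set.ncard_sdiff_singleton_of_mem hxe, (P.line_at he₀ heA₀ hx hxe.2).1]
      omega
    obtain ⟨u, hu, hux, huy⟩ : ∃ u, u ∈ cline z Ab e₀ ∧ u ≠ x ∧ u ≠ y := by
      obtain ⟨u, hu, u', hu', huu⟩ := (Set.one_lt_ncard (Set.toFinite _)).1 h3
      by_cases h : u = y
      · exact ⟨u', hu'.1, hu'.2, fun h' => huu (h.trans h'.symm)⟩
      · exact ⟨u, hu.1, hu.2, h⟩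
    have hwu : w ≠ u := fun h => hew (h ▸ hu.2)
    obtain ⟨e, he, heA, hwe, hue⟩ := P.line_through hw hu.1 hwu
    have hnot : ∀ q, q ∈ cline z Ab e₀ → q ≠ u → ¬ Commute e q := by
      intro q hq hqu hc
      have heq := P.line_eq he he₀ heA heA₀ hqu ⟨hq.1, hc⟩ hue hq hu
      exact hew (heq ▸ hwe).2
    obtain ⟨k, hk, hkx⟩ := hstep e he x hx.1 (hnot x hxe (Ne.symm hux))
    obtain ⟨l, hl, hly⟩ := hstep e he y hy.1 (hnot y hye (Ne.symm huy))
    refine ⟨l * k⁻¹, mul_mem hl (inv_mem hk), ?_⟩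
    rw [← hkx, ← hly]
    simp [mul_assoc]
  have hall : ∀ d ∈ conjugatesOf z, ∃ k ∈ K, k * z * k⁻¹ = d := by
    intro d hd
    refine P.class_induction (fun d => ∃ k ∈ K, k * z * k⁻¹ = d)
      ⟨1, one_mem _, by simp⟩ (fun a ha b hb hc ⟨k, hk, hka⟩ => ?_) hd
    by_cases hab : a = b
    · exact ⟨k, hk, hka.trans hab⟩
    obtain ⟨w, hw, hwz⟩ := P.exists_second
    obtain ⟨g, hga, hgb⟩ := P.pair_conj ha hb hab hc hw hwz
    obtain ⟨l, hl, hlz⟩ := hpts z P.z_mem_pts w hw hwz.symm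
    refine ⟨g⁻¹ * l * g⁻¹⁻¹ * k, mul_mem (hn g⁻¹ l hl) hk, ?_⟩
    calc g⁻¹ * l * g⁻¹⁻¹ * k * z * (g⁻¹ * l * g⁻¹⁻¹ * k)⁻¹
        = g⁻¹ * (l * (g * (k * z * k⁻¹) * g⁻¹) * l⁻¹) * g := by simp [mul_assoc]
      _ = g⁻¹ * (g * b * g⁻¹) * g := by rw [hka, hga, hlz, hgb]
      _ = b := by simp [mul_assoc]
  refine eq_top_iff.2 fun g _ => ?_
  obtain ⟨k, hk, hkz⟩ := hall _ (class_conj (IsConj.refl z) g)
  have hc : k⁻¹ * g ∈ Subgroup.centralizer ({z} : Set X) := by
    rw [Subgroup.mem_centralizer_singleton_iff]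
    calc k⁻¹ * g * z = k⁻¹ * (g * z * g⁻¹) * g := by simp [mul_assoc]
      _ = k⁻¹ * (k * z * k⁻¹) * g := by rw [hkz]
      _ = z * (k⁻¹ * g) := by simp [mul_assoc]
  simpa using mul_mem hk (P.gen hc)

theorem ttg : Cfsg.IsThreeTranspositionGroup (conjugatesOf z) :=
  ⟨P.isThreeTranspositionSet, fun g _ hd => class_conj hd g, P.closure_eq_top⟩

theorem isClass : Cfsg.IsThreeTranspositionClass (conjugatesOf z) :=
  ⟨P.isThreeTranspositionSet, ⟨z, IsConj.refl z, rfl⟩, P.closure_eq_top⟩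

theorem prim : Cfsg.IsPrimitiveUnderConj (conjugatesOf z) := by
  obtain ⟨w₀, hw₀, hw₀z⟩ := P.exists_second
  refine ⟨fun a ha b hb => isConj_iff.1 (IsConj.trans (IsConj.symm ha) hb),
    ⟨z, IsConj.refl z, w₀, hw₀.1, Ne.symm hw₀z⟩, fun B hB hblock => ?_⟩
  by_contra hcon
  push Not at hcon
  obtain ⟨hns, hne⟩ := hcon
  have hfix : ∀ g : X, ∀ a ∈ B, g * a * g⁻¹ ∈ B → ∀ b ∈ B, g * b * g⁻¹ ∈ B := by
    intro g a ha hga b hb
    rcases hblock g with h | h
    · exact h ▸ ⟨b, hb, rfl⟩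
    · exact absurd hga (Set.disjoint_left.1 h ⟨a, ha, rfl⟩)
  obtain ⟨a, ha, b, hb, hab, hcab⟩ : ∃ a ∈ B, ∃ b ∈ B, a ≠ b ∧ Commute a b := by
    obtain ⟨a, ha, b, hb, hab⟩ := hns
    by_cases hc : Commute a b
    · exact ⟨a, ha, b, hb, hab, hc⟩
    obtain ⟨g, hga⟩ := exists_mul_inv (hB ha)
    have hbA : g * b * g⁻¹ ∉ Ab := fun h =>
      hc ((Commute.conj_iff g).1 (hga ▸ P.comm_Ab P.mem h))
    obtain ⟨x, hx, hbx⟩ := P.exists_point (class_conj (hB hb) g)
    obtain ⟨y, hy, y', hy', hyy, hby, hby'⟩ :=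
      P.exists_off_line (class_conj (hB hb) g) hbA ⟨hx, hbx⟩
    have pull : ∀ q ∈ pts z Ab, ¬ Commute (g * b * g⁻¹) q →
        g⁻¹ * q * g⁻¹⁻¹ ∈ conjugatesOf z ∧ Commute a (g⁻¹ * q * g⁻¹⁻¹) ∧
          ¬ Commute b (g⁻¹ * q * g⁻¹⁻¹) := by
      intro q hq hnq
      refine ⟨class_conj hq.1 _, (Commute.conj_iff g).1 ?_,
        fun h => hnq (conj_back g q ▸ (Commute.conj_iff g).2 h)⟩
      rw [hga, conj_back]
      exact P.comm_Ab P.mem hq.2
    obtain ⟨hs, has, hbs⟩ := pull y hy hby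
    obtain ⟨hr, har, hbr⟩ := pull y' hy' hby'
    set s := g⁻¹ * y * g⁻¹⁻¹ with hsdef
    set r := g⁻¹ * y' * g⁻¹⁻¹ with hrdef
    have hsr : Commute s r := (Commute.conj_iff g⁻¹).2 (P.comm_Ab hy.2 hy'.2)
    have hsne : s ≠ r := fun h => hyy (conj_inj g⁻¹ h)
    have hfix' : ∀ q, q ∈ conjugatesOf z → Commute a q → ∀ c ∈ B, q * c * q⁻¹ ∈ B :=
      fun q hq hq' c hc' => hfix q a ha (by rw [hq'.symm.eq, mul_inv_cancel_right]; exact ha) c hc'
    have hu := hfix' s hs has _ (hfix' r hr har _ (hfix' s hs has b hb))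
    have hu2 := hfix' r hr har _ (hfix' s hs has b hb)
    rw [P.class_inv hs, P.class_inv hr] at hu2
    have hb' : r * (s * b * s) * r = (s * r) * b * (s * r) := by
      rw [show r * (s * b * s) * r = (r * s) * b * (s * r) by simp [mul_assoc], ← hsr.eq]
    rw [hb'] at hu2
    have hbs' := P.braid hs (hB hb) (fun h => hbs h.symm)
    have hbr' := P.braid hr (hB hb) (fun h => hbr h.symm)
    refine ⟨b, hb, _, hu2, fun heq => hsne ?_, ?_⟩
    · have h1 : s * b * s = r * b * r := by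
        calc s * b * s = s * (s * r * b * (s * r)) * s := by rw [← heq]
          _ = (s * s) * (r * b * (s * (r * s))) := by simp [mul_assoc]
          _ = r * b * ((s * s) * r) := by
            rw [P.class_sq hs, one_mul, one_mul, ← hsr.eq, ← mul_assoc s s r, P.class_sq hs, one_mul]
          _ = r * b * r := by rw [P.class_sq hs, one_mul]
      rw [hbs', hbr'] at h1
      exact mul_left_cancel (mul_right_cancel h1)
    · have e : s * r * b * (s * r) = s * b * r * b * s := by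
        calc s * r * b * (s * r) = s * r * b * (r * s) := by rw [hsr.eq]
          _ = s * (r * b * r) * s := by simp [mul_assoc]
          _ = s * b * r * b * s := by rw [hbr']; simp [mul_assoc]
      show b * (s * r * b * (s * r)) = s * r * b * (s * r) * b
      rw [e]
      calc b * (s * b * r * b * s) = b * s * b * r * b * s := by simp [mul_assoc]
        _ = s * b * (s * r) * b * s := by rw [← hbs']; simp [mul_assoc]
        _ = s * b * r * (s * b * s) := by rw [hsr.eq]; simp [mul_assoc]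
        _ = s * b * r * b * s * b := by rw [hbs']; simp [mul_assoc]
  refine hne (Set.Subset.antisymm hB fun d hd => ?_)
  obtain ⟨g₀, hg₀⟩ := exists_mul_inv (hB ha)
  have hclosed : ∀ c ∈ B, ∀ e ∈ conjugatesOf z, Commute c e → e ∈ B := by
    intro c hc e he hce
    by_cases hce' : c = e
    · exact hce' ▸ hc
    obtain ⟨g, hgc, hge⟩ := P.pair_conj (hB hc) he hce' hce hw₀ hw₀z
    obtain ⟨k, hka, hkb⟩ := P.pair_conj (hB ha) (hB hb) hab hcab hw₀ hw₀z
    have e1 : g⁻¹ * k * a * (g⁻¹ * k)⁻¹ = c := by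
      rw [← conj_twice, hka, ← hgc]; simp [mul_assoc]
    have e2 : g⁻¹ * k * b * (g⁻¹ * k)⁻¹ = e := by
      rw [← conj_twice, hkb, ← hge]; simp [mul_assoc]
    exact e2 ▸ hfix _ a ha (e1.symm ▸ hc) b hb
  have hall : ∀ d ∈ conjugatesOf z, g₀⁻¹ * d * g₀⁻¹⁻¹ ∈ B := by
    intro d hd
    refine P.class_induction (fun d => g₀⁻¹ * d * g₀⁻¹⁻¹ ∈ B)
      (by rw [← hg₀]; simpa [mul_assoc] using ha)
      (fun a' ha' b' hb' hc' h => hclosed _ h _ (class_conj hb' _) ((Commute.conj_iff _).2 hc')) hd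
  simpa [mul_assoc] using hall _ (class_conj hd g₀)

end Graph

end PlaneData

end CfsgLib.LargeFischer58
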