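import Cfsg.Agent.LargeFischer58.Neighbours

/-!
Large Fischer type, the configuration: a normal 2-subgroup of the local subgroup which is not central.
-/

set_option autoImplicit false
set_option maxRecDepth 100000

namespace CfsgLib.LargeFischer58

open Cfsg CfsgLib.LargeFischer85 CfsgLib.LargeFischer28 CfsgLib.LargeFischer45

namespace Cfg

variable {G : Type*} [Group G] [Finite G] {z : G} {Q : Subgroup ↥(CG z)} [Q.Normal]
  (C : Cfg z Q)

/-- The image of the part of `Q` centralising `E`. -/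
def Qbar : Subgroup C.X := (C.QG.subgroupOf C.CE).map C.proj

theorem Qbar_isPGroup : IsPGroup 2 C.Qbar := by
  refine IsPGroup.map ?_ C.proj
  intro g
  refine ⟨2, Subtype.ext (Subtype.ext ?_)⟩
  obtain ⟨q, hq, hqe'⟩ := (g.2 : ((g : ↥C.CE) : G) ∈ C.QG)
  have hqe : (q : G) = ((g : ↥C.CE) : G) := hqe'
  show ((g : ↥C.CE) : G) ^ (2 ^ 2) = 1
  have h := sq_cases C.std.model (⟨q, hq⟩ : ↥Q)
  rw [← hqe]
  show (q : G) ^ (2 ^ 2) = 1
  rcases h with h | h
  · have h' : (q : G) * q = 1 := congrArg Subtype.val h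
    rw [show (2 : ℕ) ^ 2 = 2 + 2 from rfl, pow_add, pow_two, h', one_mul]
  · have h' : (q : G) * q = z := congrArg Subtype.val h
    rw [show (2 : ℕ) ^ 2 = 2 + 2 from rfl, pow_add, pow_two, h', C.AG_sq C.z_mem_AG]

theorem mem_centralizer_base {g : ↥C.CE} (h : Commute (C.proj g) C.base) :
    (g : G) * z = z * (g : G) :=
  C.comm_z g.2 (C.proj_commute_iff.1 h)

theorem Qbar_normal {y k : C.X} (hy : Commute y C.base) (hk : k ∈ C.Qbar) :
    y * k * y⁻¹ ∈ C.Qbar := by
  obtain ⟨g, rfl⟩ := C.proj_surj y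
  obtain ⟨q, hq, rfl⟩ := hk
  refine ⟨g * q * g⁻¹, ?_, by rw [map_mul, map_mul, map_inv]⟩
  obtain ⟨c, hc, hce⟩ := (hq : (q : G) ∈ C.QG)
  let gC : ↥(CG z) := ⟨(g : G), Subgroup.mem_centralizer_singleton_iff.2 (C.mem_centralizer_base hy)⟩
  refine ⟨gC * c * gC⁻¹, (inferInstance : Q.Normal).conj_mem c hc gC, ?_⟩
  show (g : G) * (c : G) * (g : G)⁻¹ = (g : G) * (q : G) * (g : G)⁻¹
  rw [show (c : G) = (q : G) from hce]

theorem core' : ∃ K : Subgroup C.X, IsPGroup 2 K ∧ K ≤ Subgroup.closure (nbrs C.base) ∧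
    (∀ g : C.X, Commute g C.base → ∀ k ∈ K, g * k * g⁻¹ ∈ K) ∧
    ∃ k ∈ K, ∃ d ∈ nbrs C.base, ¬ Commute k d := by
  classical
  refine ⟨Subgroup.closure (nbrs C.base) ⊓ C.Qbar, C.Qbar_isPGroup.to_le inf_le_right,
    inf_le_left, fun g hg k hk => ⟨?_, C.Qbar_normal hg hk.2⟩, ?_⟩
  · have hinv : ∀ y ∈ nbrs C.base, g * y * g⁻¹ ∈ nbrs C.base := by
      rintro y ⟨h1, h2, h3⟩
      refine ⟨h1.trans (isConj_iff.2 ⟨g, rfl⟩), fun e => h2 ?_, ?_⟩
      · rw [mul_inv_eq_iff_eq_mul, ← hg.eq] at e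
        exact mul_left_cancel e
      · show C.base * (g * y * g⁻¹) = g * y * g⁻¹ * C.base
        calc C.base * (g * y * g⁻¹) = (C.base * g) * y * g⁻¹ := by group
          _ = g * (C.base * y) * g⁻¹ := by rw [← hg.eq]; group
          _ = g * y * (C.base * g⁻¹) := by rw [h3.eq]; group
          _ = _ := by rw [← (hg.inv_left).eq]; group
    have hle : (Subgroup.closure (nbrs C.base)).map (MulAut.conj g).toMonoidHom ≤
        Subgroup.closure (nbrs C.base) := by
      rw [MonoidHom.map_closure, Subgroup.closure_le]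
      rintro _ ⟨y, hy, rfl⟩
      exact Subgroup.subset_closure (hinv y hy)
    exact hle ⟨k, hk.1, rfl⟩
  · obtain ⟨⟨v, hv⟩⟩ : Nonempty {u : Equiv.Perm W // IsTv u} :=
      (Nat.card_pos_iff.1 (by rw [tv_five]; norm_num)).1
    obtain ⟨x, hxf, y, hyf, hne⟩ :=
      Finset.one_lt_card.1 (show 1 < (C.ptFib v).card by rw [C.card_ptFib hv]; norm_num)
    obtain ⟨hxo, hxv⟩ := C.mem_ptFib.1 hxf
    obtain ⟨hyo, hyv⟩ := C.mem_ptFib.1 hyf
    obtain ⟨xa, xb, xc, xe⟩ := C.mem_outer.1 hxo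
    obtain ⟨ya, yb, yc, ye⟩ := C.mem_outer.1 hyo
    rw [C.imgPt_eq xc] at hxv
    rw [C.imgPt_eq yc] at hyv
    have nx := C.isNbr_zpC xa xb xc xe
    have ny := C.isNbr_zpC ya yb yc ye
    have hxy : C.d x y ∈ C.QG := C.adj_of_img_eq xc yc hne (hxv.trans hyv.symm)
    have hdC : C.d x y ∈ C.CE := C.AG_le_CE (C.duads.mem _ _ hne)
    have hk : C.pj _ hdC = C.pj (C.zpC x xc : G) nx.1 * C.pj (C.zpC y yc : G) ny.1 := by
      show C.proj _ = C.proj _ * C.proj _
      rw [← map_mul]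
      exact congrArg C.proj (Subtype.ext (C.zp_mul_zp xc yc hne).symm)
    refine ⟨C.pj _ hdC, ⟨?_, ⟨_, hxy, rfl⟩⟩, ?_⟩
    · rw [hk]
      exact mul_mem (Subgroup.subset_closure (C.pj_mem_nbrs nx))
        (Subgroup.subset_closure (C.pj_mem_nbrs ny))
    -- a member over a transvection not commuting with `v`
    obtain ⟨v', hv', hvne⟩ : ∃ v', IsTv v' ∧ v' ≠ v := by
      by_contra hno
      push Not at hno
      haveI : Subsingleton {u : Equiv.Perm W // IsTv u} :=
        ⟨fun a b => Subtype.ext ((hno a.1 a.2).trans (hno b.1 b.2).symm)⟩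
      have := Finite.card_le_one_iff_subsingleton.2 this
      rw [tv_five] at this
      norm_num at this
    obtain ⟨u, hu, huA, huv'⟩ := tv_exists C.range hv'
    have huv : u * v ≠ v * u := fun h =>
      hvne ((tv_line C.range hu huA).unique ⟨hv', huv'⟩ ⟨hv, h⟩)
    obtain ⟨j, hj, rfl⟩ := C.exists_nbr_of_isP hu
    refine ⟨C.pj j hj.1, C.pj_mem_nbrs hj, fun hcomm => ?_⟩
    obtain ⟨w, r, hr, hw⟩ := C.move_lf nx ny (hxv.trans hyv.symm)
    have hrd : ((r : ↥(CG z)) : G) = C.d x y := by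
      rw [hr]
      show C.zp y * C.d C.a C.b * (C.zp x * C.d C.a C.b)⁻¹ = C.d x y
      rw [mul_inv_rev, C.AG_inv (C.duads.mem _ _ C.hab), mul_assoc,
        ← mul_assoc (C.d C.a C.b), C.AG_sq (C.duads.mem _ _ C.hab), one_mul,
        C.AG_inv (C.zp_mem xc), C.zp_mul_zp yc xc hne.symm, C.duads.symm]
    have hc : (j : G) * C.d x y * (j : G)⁻¹ * (C.d x y)⁻¹ ∈ C.E := C.proj_commute_iff.1 hcomm.symm
    -- `u` fixes the vector of `x y` modulo the line
    obtain ⟨s, hs, hps⟩ := act_pr' C.std.model j r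
    have hsr : InE (vadd (C.pr r) (C.img j (C.pr r))) := by
      have hmem : (((s * r⁻¹ : ↥Q) : ↥(CG z)) : G) ∈ C.E := by
        rw [Subgroup.coe_mul, InvMemClass.coe_inv, hs]
        show (j : G) * ((r : ↥(CG z)) : G) * (j : G)⁻¹ * (((r : ↥(CG z)) : G))⁻¹ ∈ C.E
        rw [hrd]; exact hc
      have h := C.inE_of_mem_E hmem
      have h2 : C.pr r⁻¹ = C.pr r := by
        congr 1
        refine Subtype.ext (Subtype.ext ?_)
        rw [InvMemClass.coe_inv, InvMemClass.coe_inv, hrd, C.AG_inv (C.duads.mem _ _ hne)]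
      rw [C.std.model.pr_mul, hps, h2, vadd_comm'] at h
      exact h
    obtain ⟨k, hk, hkf, hkt⟩ := hj.isP
    obtain ⟨h, hh, hhE⟩ := C.lift_stabE (u := k) ⟨hk, hkf⟩
    obtain ⟨s', hs', hps'⟩ := act_pr' C.std.model h r
    have ho := C.orth_of_CE (q := s') (by
      rw [hs']
      show (h : G) * ((r : ↥(CG z)) : G) * (h : G)⁻¹ ∈ C.CE
      rw [hrd]
      exact mul_mem (mul_mem hhE hdC) (inv_mem hhE))
    have hk' : C.img h = k := hh
    have hfix : (k * C.img j * k⁻¹) (C.pr s') = C.pr s' := by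
      refine fix_of_inE hkt.1 hkt.2.1 _ ho.1 ho.2 ?_
      rw [hps', show fhom C.act h = k from hh]
      have hadd : IsAdd k := by rw [← hh]; exact (fhom_good C.std.model h).add
      have e : (k * C.img j * k⁻¹) (k (C.pr r)) = k (C.img j (C.pr r)) := by simp
      rw [e, ← hadd]
      rcases hsr with e | e | e | e <;> rw [e]
      · exact Or.inl hadd.map_zero
      · exact Or.inr (Or.inl hkf.1)
      · exact Or.inr (Or.inr (Or.inl hkf.2))
      · exact Or.inr (Or.inr (Or.inr (by rw [hadd, hkf.1, hkf.2])))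
    have hfix' : C.img j (C.pr r) = C.pr r := by
      rw [hps', show fhom C.act h = k from hh] at hfix
      simpa using hfix
    have hw' : vadd w (v w) = C.pr r := by rw [← hxv]; exact hw
    have hE := tv_fix C.range hv.isP hj.isP (fun e => huv e.symm) (C.pr r) w hw' hfix'
    rcases C.mem_of_inE hE with h1 | h1
    · rw [hrd] at h1
      rcases C.mem_E_iff.1 h1 with e | e | e | e
      · exact (C.duads.other x y hne).1 e
      all_goals
        have hm : x ∈ ({x, y} : Finset GolayPt) := Finset.mem_insert_self _ _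
        rw [C.duads.inj _ _ _ _ hne e] at hm
        simp only [Finset.mem_insert, Finset.mem_singleton] at hm
        tauto
    · rw [hrd] at h1
      have hmem : C.d x y * z * z = C.d x y := by
        rw [mul_assoc, C.AG_sq C.z_mem_AG, mul_one]
      rcases C.mem_E_iff.1 h1 with e | e | e | e
      · exact (C.duads.other x y hne).2 (isConj_iff.2 ⟨1, by
          rw [one_mul, inv_one, mul_one, ← hmem, e, one_mul]⟩)
      all_goals
        have h2 : C.d x y = C.d C.c C.e ∨ C.d x y = C.d C.a C.e ∨ C.d x y = C.d C.b C.e := by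
          rw [← hmem, e]
          first
            | exact Or.inl ((congrArg (C.d C.a C.b * ·) C.zp_e.symm).trans (C.ab_mul_zp C.e))
            | exact Or.inr (Or.inl ((congrArg (C.d C.b C.c * ·) C.zp_e.symm).trans
                (C.bc_mul_zp C.hae.symm C.hce.symm)))
            | exact Or.inr (Or.inr ((congrArg (C.d C.a C.c * ·) C.zp_e.symm).trans
                (C.ac_mul_zp C.hbe.symm C.hce.symm)))
        have hm' : x ∈ ({x, y} : Finset GolayPt) := Finset.mem_insert_self _ _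
        rcases h2 with h2 | h2 | h2 <;>
          rw [C.duads.inj _ _ _ _ hne h2] at hm' <;>
          simp only [Finset.mem_insert, Finset.mem_singleton] at hm' <;>
          tauto

end Cfg

end CfsgLib.LargeFischer58
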