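import Cfsg.Agent.LargeFischer58.Defs

/-!
The 45 maps of the plane group: the conjugates of the five maps of the elementary subgroup that
move a vector by the first vector of the distinguished line.
-/

set_option autoImplicit false
set_option maxRecDepth 100000
set_option maxHeartbeats 1000000

namespace CfsgLib.LargeFischer58

open CfsgLib.LargeFischer85 CfsgLib.LargeFischer28

/-- The packed columns of the 45 maps. -/
def tvC : List ℕ := [
  0x8aa4552aa155aa8554aa2551a8a545a2a515,
  0x92d71be729e139b2769ec79849bc76e469cd,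
  0xbb166366cdd8b8564f62fd1a1da3b5cda8b5,
  0xb4e6c9639d27ca785e1a735e6f8da4b526f1,
  0x9787e4e8d94be919734e6c9d93b7263e629d,
  0xb7c6e862ad15c9587f6e2d916cad852ea195,
  0xbb8664662dd1b8b646626d1d8bb4662661dd,
  0xbac65864adc5ba36528af45a61ad3525a1f5,
  0x96c7d8eb1963e8594f92f71a4dacb53da2b5,
  0x9a8754e3d92b8ab4569a375298b7463562fd,
  0xad45bc8d74be53ef29f49ac7f61ad31be369,
  0x92a715e7c9e839527f9e27919ca7858ea495,
  0x9627d1eb8964e8b94692671d2bb1668664dd,
  0x94a7c5eac958ea39522af15a91a73585a4f5,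
  0x87a4e527a1e5f93a725e4f9ca3a525a4a5c5,
  0x86e4d926e1d9f87a4ea2e5195d8fb4a625d1,
  0xba265164ddcbba465c8a645d1fb3a6b2661d,
  0xb8a645671de3b986741ef39a89a475b1a635,
  0xb3a6256a1d532a515f6a4d5c8fa4a5bca685,
  0xb2e619689d472991778ee499698d74be2691,
  0xb726e162dd1bc9b8766ecd9819b376b466cd,
  0xb8d64b678de4b916731e639d63bd26ce689d,
  0xb3d62b6a8d542ab1566a3d5268bd46c568fd,
  0x94d7cbea2951ea495c2a615d4fbca6e2691d,
  0x9717e3e8a945e989744efc9a29a175e1a935,
  0x9a1753e3a9258a545f9a475c2fa1a5eca985,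
  0x989747e2e9198994772ee199998774ee2991,
  0x939727e4e9c93a725e4a7c5e9f87a4e529f1,
  0x87d4eb27d1ebf94a7c5e3f925cbf86f16a3d,
  0x8ad45b2ad15baa1553aac55851bf36fc6a8d,
  0x8b94672b9167a89547527f1eab8564fd2ab1,
  0x2d71bead45bc53ef29f49ac7f61ad34bec69,
  0x2d71be8d74be5bcf68f49ac7f61ad353ef29,
  0x2d71be8d74be53ef29f68ad4f61ad358ef49,
  0x2d71be8d74be53ef29f49ac7f68ad45b2f61,
  0xad35b28d74be53ef29f49ac73692d75bcf68,
  0x2d71bead35b253ef29f49ac7c698d75bcf68,
  0x2d71be8d74be5b2f61f49ac7f29a175bcf68,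
  0x2d71be8d74be53ef29f61ad3f49ac75bcf68,
  0xac758e8d74be53ef293692d7f61ad35bcf68,
  0x2d71beac758e53ef29c698d7f61ad35bcf68,
  0x2d71be8d74be58ef49f29a17f61ad35bcf68,
  0xa1753e8d74be1be369f49ac7f61ad35bcf68,
  0x2d71bea1753e4bec69f49ac7f61ad35bcf68,
  0x8d74be2d71be53ef29f49ac7f61ad35bcf68]

/-- Vectors sent to their translate by the first vector of the line. -/
def tvW : List ℕ :=
  [11, 5, 11, 17, 5, 11, 5, 11, 11, 5, 12, 11, 5, 11, 11, 35, 5, 11, 11, 35, 5, 5, 5,
    5, 11, 11, 35, 17, 5, 5, 17, 12, 12, 12, 48, 2, 2, 2, 2, 2, 2, 2, 2, 2, 2]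

/-- The first five as members of the elementary subgroup. -/
def tvA : List ℕ := [29, 31, 45, 60, 82]

/-- The other members of the elementary subgroup. -/
def tvNA : List ℕ := [0, 28, 37, 40, 56, 63, 68, 81, 87, 88]

/-- The packed columns of map `i`. -/
def tvN (i : Fin 45) : ℕ := tvC.getD i.val 0

/-- A vector sent by map `i` to its translate by the first vector of the line. -/
def tvV (i : Fin 45) : W := ⟨tvW.getD i.val 0 % 4096, Nat.mod_lt _ (by norm_num)⟩

theorem c_tv : ((List.finRange 45).all fun i =>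
    linB (tvN i) &&
    ((List.range 12).all fun j => appN (tvN i) 12 (col (tvN i) j) == 2 ^ j) &&
    app (tvN i) e1 == e1 && app (tvN i) e2 == e2 &&
    vadd (tvV i) (app (tvN i) (tvV i)) == e1) = true := by
  decide +kernel

theorem c_tv_masks_low : ((List.finRange 45).all fun i =>
    decide (22 ≤ i.val) || chkA (tvN i) keepMasks 12 0 0) = true := by
  decide +kernel

theorem c_tv_masks_high : ((List.finRange 45).all fun i =>
    decide (i.val < 22) || chkA (tvN i) keepMasks 12 0 0) = true := by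
  decide +kernel

theorem tv_spec (i : Fin 45) : linB (tvN i) = true ∧
    (∀ j < 12, appN (tvN i) 12 (col (tvN i) j) = 2 ^ j) ∧
    app (tvN i) e1 = e1 ∧ app (tvN i) e2 = e2 ∧
    vadd (tvV i) (app (tvN i) (tvV i)) = e1 := by
  have h := c_tv
  simp only [List.all_eq_true, List.mem_finRange, forall_const, Bool.and_eq_true, beq_iff_eq,
    List.mem_range] at h
  obtain ⟨⟨⟨⟨a, b⟩, c⟩, d⟩, e⟩ := h i
  exact ⟨a, b, c, d, e⟩

theorem tvN_involutive (i : Fin 45) : Function.Involutive (app (tvN i)) := fun n =>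
  congrFun (isAdd_ext (isAdd_comp (isAdd_app _) (isAdd_app _)) isAdd_id fun j => Fin.ext <| by
    show appN (tvN i) 12 (app (tvN i) (bas j)).val = (bas j).val
    rw [app_bas]
    exact (tv_spec i).2.1 j.val j.isLt) n

/-- The 45 maps. -/
def tvP (i : Fin 45) : Equiv.Perm W := (tvN_involutive i).toPerm (app (tvN i))

theorem tvP_apply (i : Fin 45) (n : W) : tvP i n = app (tvN i) n := rfl

theorem tvP_sq (i : Fin 45) : tvP i * tvP i = 1 := Equiv.ext (tvN_involutive i)

theorem tvP_inv (i : Fin 45) : (tvP i)⁻¹ = tvP i := inv_eq_of_mul_eq_one_right (tvP_sq i)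

theorem tvP_good (i : Fin 45) : tvP i ∈ GL6 := by
  have hm : chkA (tvN i) keepMasks 12 0 0 = true := by
    have h1 := c_tv_masks_low
    have h2 := c_tv_masks_high
    simp only [List.all_eq_true, List.mem_finRange, forall_const, Bool.or_eq_true,
      decide_eq_true_eq] at h1 h2
    rcases h1 i with a | a
    · rcases h2 i with b | b
      · omega
      · exact b
    · exact a
  exact ⟨isGood_of_app (fun _ => rfl) hm (by simp [(tv_spec i).1]),
    fun n => isLinMap_of_linB (tv_spec i).1 n⟩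

theorem tvP_fix (i : Fin 45) : FixE (tvP i) := ⟨(tv_spec i).2.2.1, (tv_spec i).2.2.2.1⟩

theorem tvP_move (i : Fin 45) : vadd (tvV i) (tvP i (tvV i)) = e1 := (tv_spec i).2.2.2.2

theorem tvP_ne_one (i : Fin 45) : tvP i ≠ 1 := by
  intro h
  have hm := tvP_move i
  rw [h, Equiv.Perm.one_apply, vadd_self] at hm
  exact absurd hm (by decide)

/-- The leaf test: the vector is not moved by the first vector of the line. -/
def noMove (n v : ℕ) : Bool := !(n ^^^ v == 1470)

theorem c_five : ((List.range 5).all fun k =>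
    decide (tvA.getD k 0 < 107) && a0J.contains (tvA.getD k 0) &&
      (List.range 12).all fun j =>
        col (tvC.getD k 0) j == col (elsC (jN (tvA.getD k 0))) j) = true := by
  decide +kernel

theorem c_others : (a0J.all fun a => tvA.contains a ||
    (tvNA.contains a && chkA (elsC (jN a)) noMove 12 0 0)) = true := by
  decide +kernel

theorem c_tvA : tvA.length = 5 := rfl

theorem tvP_eq_jP (i : Fin 45) (h : i.val < 5) :
    ∃ a : Fin 107, a.val ∈ a0J ∧ a.val = tvA.getD i.val 0 ∧ tvP i = jP a := by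
  have hc := c_five
  simp only [List.all_eq_true, List.mem_range, Bool.and_eq_true, beq_iff_eq, decide_eq_true_eq,
    List.contains_iff_mem] at hc
  obtain ⟨⟨hlt, hmem⟩, hcol⟩ := hc i.val h
  refine ⟨⟨_, hlt⟩, hmem, rfl, Equiv.ext fun n => ?_⟩
  exact congrFun (isAdd_ext (isAdd_app _) (isAdd_app _) fun j => Fin.ext <| by
    rw [app_bas, app_bas]
    exact hcol j.val j.isLt) n

theorem tvP_inA0 (i : Fin 45) (h : i.val < 5) : inA0 (tvP i) := by
  obtain ⟨a, ha, -, e⟩ := tvP_eq_jP i h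
  exact Or.inr ⟨a, ha, e⟩

/-- The transvections of the plane group are the first five maps. -/
theorem isTv_iff {u : Equiv.Perm W} : IsTv u ↔ ∃ i : Fin 45, i.val < 5 ∧ u = tvP i := by
  constructor
  · rintro ⟨hu, h1, w, hw⟩
    obtain ⟨a, ha, rfl⟩ := hu.resolve_left h1
    have hc := c_others
    simp only [List.all_eq_true, Bool.or_eq_true, Bool.and_eq_true, List.contains_iff_mem] at hc
    rcases hc a.val ha with h | ⟨-, h⟩
    · obtain ⟨k, hk, hka⟩ := List.mem_iff_getElem.1 h
      have hk5 : k < 5 := hk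
      obtain ⟨b, -, hb, e⟩ := tvP_eq_jP ⟨k, by omega⟩ hk5
      refine ⟨⟨k, by omega⟩, hk5, ?_⟩
      have hab : b = a := Fin.ext (by
        rw [hb, List.getD_eq_getElem _ _ hk, hka])
      rw [e, hab]
    · have h2 := forall_of_chkA _ noMove h w
      have hv := congrArg Fin.val hw
      rw [vadd_val] at hv
      have hv' : w.val ^^^ (app (elsC (jN a.val)) w).val = 1470 := hv
      simp [noMove, hv'] at h2
  · rintro ⟨i, hi, rfl⟩
    exact ⟨tvP_inA0 i hi, tvP_ne_one i, tvV i, tvP_move i⟩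

end CfsgLib.LargeFischer58
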