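import Cfsg.Agent.LargeFischer58.StabOrbit
import Cfsg.Agent.LargeFischer58.Tv45

/-!
The pointwise stabiliser of the distinguished line: it is generated by the 45 transvections, has
order 25920, and each of its involutions has a conjugate in `A₀`.
-/

set_option autoImplicit false
set_option maxRecDepth 100000

namespace CfsgLib.LargeFischer58

open CfsgLib.LargeFischer85 CfsgLib.LargeFischer28

/-! ### Data -/

/-- Transvections generating the stabiliser. -/
def cjGen : List ℕ := [17, 18, 34, 35, 3]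

/-- Their action by conjugation on the 45 transvections. -/
def cjTab : List (List ℕ) :=
  [[40, 10, 7, 37, 4, 5, 33, 2, 42, 30, 1, 14, 12, 43, 11, 15, 38, 17, 41, 20, 19, 34, 22,
    23, 44, 25, 31, 27, 35, 29, 9, 26, 32, 6, 21, 28, 36, 3, 16, 39, 0, 18, 8, 13, 24],
   [13, 1, 5, 16, 30, 2, 32, 7, 39, 9, 23, 40, 12, 0, 43, 15, 3, 41, 18, 38, 37, 21, 34,
    10, 24, 44, 26, 31, 28, 35, 4, 27, 6, 33, 22, 29, 36, 20, 19, 8, 11, 17, 42, 14, 25],
   [29, 11, 6, 3, 24, 20, 2, 16, 12, 25, 35, 1, 8, 23, 28, 15, 7, 21, 22, 19, 5, 17, 18,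
    13, 4, 9, 26, 27, 14, 0, 30, 36, 37, 38, 34, 10, 31, 32, 33, 39, 40, 41, 42, 43, 44],
   [23, 14, 2, 9, 19, 26, 15, 27, 30, 3, 34, 21, 12, 22, 1, 6, 16, 28, 29, 4, 20, 11, 13,
    0, 24, 25, 5, 7, 17, 18, 8, 31, 32, 33, 10, 35, 44, 42, 39, 38, 40, 41, 37, 43, 36],
   [0, 1, 2, 3, 4, 33, 6, 22, 28, 35, 25, 11, 14, 36, 12, 40, 18, 37, 16, 41, 38, 32, 7,
    31, 24, 10, 26, 44, 8, 29, 42, 23, 21, 5, 34, 9, 13, 17, 20, 39, 15, 19, 30, 43, 27]]

/-- An entry of the table. -/
def cjImg (k i : ℕ) : ℕ := (cjTab.getD k []).getD i 0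

/-- Enough steps to reach all transvections. -/
def cjDepth : ℕ := 4

/-- The vectors of the chain. -/
def chBase : List ℕ := [7, 96, 19, 1]

/-- The orbits of the chain: the vector, plus `4096` times the position of the parent plus `256`
times the transvection. -/
def chTree : List (List ℕ) :=
  [[7, 2682, 1051645, 2099162, 4195933, 5246714, 6293469, 7343770, 8392154, 9438957,
    10487812, 11537402, 12586461, 13634458, 14682794, 16780957, 17828186, 18876906, 20975357, 22022493,
    23071213, 24120221, 25167450, 26216170, 29362861, 30411389, 32506372, 33554628, 34603028, 36702211,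
    37749251, 38797507, 39845907, 1053056, 2104743, 4201504, 7344897, 8394663, 9443311, 10491515,
    13638657, 16784789, 18879500, 20976768, 22024992, 23076335, 24123285, 26218764, 29364432, 32512379,
    33561273, 36707958, 37755766, 39852654, 5252352, 8400283, 9445506, 10498047, 12591176, 13639776,
    14692006, 16786791, 17835355, 18883088, 22031368, 26224230, 29369346, 33565567, 34614254, 36710389,
    37759481, 38808501, 5255308, 7352380, 9449776, 12597760, 14695799, 16793263, 17838113, 18886721,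
    20987519, 22034805, 23083429, 24132672, 32519641, 33568667, 34617339, 36716510, 38811478, 39860198,
    5263350, 7358656, 8408550, 10505822, 12599346, 13650875, 14698923, 17846016, 20988162, 23089079,
    24133672, 26230960, 29377288, 32524127, 34621039, 37766485, 38815385, 39863925, 9459728, 10508025,
    23091567, 29383599, 32529915, 33578683, 39870190, 9467365, 12612416, 18904951, 29389872, 37781398,
    9471653, 38833494, 14724447, 18919327, 22062763, 24159723, 13683622, 39898613, 22074048, 32561561,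
    38853470, 17889638, 39911093, 37896201, 24277006],
   [96, 3148281, 19925401, 27264665, 28313337, 40897600, 41943872, 44043296, 45089568, 27270912,
    40900057, 45095609],
   [19, 15731370, 31459965, 35651604, 42991811, 31461572, 35658413, 42998394],
   [1, 46141288]]

/-- The 64 elements of the Sylow subgroup, and for each involution a position in `A₀` and the word
of a transvection product conjugating it there. -/
def sylE : List (ℕ × ℕ × List ℕ) :=
  [(0, 0, []),
   (1, 0, []),
   (18, 0, []),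
   (25, 0, []),
   (36, 0, []),
   (41, 0, []),
   (43, 0, []),
   (47, 0, []),
   (49, 0, []),
   (52, 0, []),
   (58, 0, []),
   (59, 0, []),
   (69, 81, [28]),
   (79, 0, []),
   (82, 0, []),
   (84, 0, []),
   (87, 0, []),
   (89, 0, []),
   (92, 0, []),
   (98, 0, []),
   (99, 0, []),
   (109, 0, []),
   (117, 28, []),
   (119, 0, []),
   (121, 29, []),
   (127, 31, []),
   (131, 40, [8]),
   (136, 81, [8]),
   (150, 0, []),
   (151, 37, []),
   (153, 40, [28]),
   (155, 0, []),
   (157, 40, []),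
   (160, 0, [8]),
   (168, 0, []),
   (170, 0, []),
   (179, 0, []),
   (181, 45, []),
   (183, 0, []),
   (220, 56, []),
   (225, 0, [28]),
   (231, 60, []),
   (235, 0, []),
   (250, 63, []),
   (262, 0, []),
   (267, 0, []),
   (282, 0, []),
   (308, 68, []),
   (339, 0, []),
   (354, 0, []),
   (375, 81, []),
   (378, 82, []),
   (381, 68, [8]),
   (384, 87, [28]),
   (387, 87, []),
   (394, 88, []),
   (405, 0, []),
   (409, 0, []),
   (421, 87, [8]),
   (463, 68, [28]),
   (481, 28, [28]),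
   (490, 0, []),
   (500, 0, []),
   (506, 28, [8])]

/-! ### Proofs -/

/-- A transvection applied to a number. -/
def tvAp (i v : ℕ) : ℕ := appN (tvC.getD i 0) 12 v

/-- A product of transvections applied to a number, the last one first. -/
def wordA : List ℕ → ℕ → ℕ
  | [], v => v
  | i :: w, v => tvAp i (wordA w v)

/-- The transvection with a given number. -/
noncomputable def tvQ (i : ℕ) : Equiv.Perm W := if h : i < 45 then tvP ⟨i, h⟩ else 1

theorem tvQ_of {i : ℕ} (h : i < 45) : tvQ i = tvP ⟨i, h⟩ := dif_pos h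

theorem tvQ_app {i : ℕ} (h : i < 45) (v : W) : (tvQ i v).val = tvAp i v.val := by
  rw [tvQ_of h, tvP_apply]
  rfl

theorem tvQ_sq {i : ℕ} (h : i < 45) : tvQ i * tvQ i = 1 := by
  rw [tvQ_of h]
  exact tvP_sq _

theorem tvQ_good {i : ℕ} (h : i < 45) : tvQ i ∈ GL6 := by
  rw [tvQ_of h]
  exact tvP_good _

/-- The group generated by the transvections. -/
def tvT : Subgroup (Equiv.Perm W) := Subgroup.closure (Set.range tvP)

theorem tvQ_mem {i : ℕ} (h : i < 45) : tvQ i ∈ tvT := by
  rw [tvQ_of h]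
  exact Subgroup.subset_closure ⟨_, rfl⟩

theorem wordA_mem : ∀ w : List ℕ, (∀ i ∈ w, i < 45) →
    ∃ g ∈ tvT, ∀ v : W, (g v).val = wordA w v.val
  | [], _ => ⟨1, one_mem _, fun _ => rfl⟩
  | i :: w, h => by
    obtain ⟨g, hg, hgv⟩ := wordA_mem w fun j hj => h j (List.mem_cons_of_mem _ hj)
    have hi := h i List.mem_cons_self
    exact ⟨tvQ i * g, mul_mem (tvQ_mem hi) hg, fun v => by
      rw [Equiv.Perm.mul_apply, tvQ_app hi, hgv]; rfl⟩

theorem c_cj : ((List.range cjGen.length).all fun k => decide (cjGen.getD k 0 < 45) &&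
    (List.range 45).all fun i => decide (cjImg k i < 45) && (List.range 12).all fun j =>
      wordA [cjGen.getD k 0, i, cjGen.getD k 0] (2 ^ j) == col (tvC.getD (cjImg k i) 0) j) =
      true := by
  decide +kernel

theorem cj_spec {k i : ℕ} (hk : k < cjGen.length) (hi : i < 45) :
    cjGen.getD k 0 < 45 ∧ cjImg k i < 45 ∧
      tvQ (cjGen.getD k 0) * tvQ i * tvQ (cjGen.getD k 0) = tvQ (cjImg k i) := by
  have h := c_cj
  simp only [List.all_eq_true, List.mem_range, Bool.and_eq_true, decide_eq_true_eq,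
    beq_iff_eq] at h
  obtain ⟨hg, hh⟩ := h k hk
  obtain ⟨hc, hcol⟩ := hh i hi
  refine ⟨hg, hc, Equiv.ext fun n => ?_⟩
  rw [tvQ_of hg, tvQ_of hi, tvQ_of hc]
  simp only [Equiv.Perm.mul_apply, tvP_apply]
  exact congrFun (isAdd_ext (isAdd_comp (isAdd_app _) (isAdd_comp (isAdd_app _) (isAdd_app _)))
    (isAdd_app _) fun j => Fin.ext (by
      show appN _ 12 (appN _ 12 (appN _ 12 (bas j).val)) = _
      rw [app_bas]
      exact hcol j.val j.isLt)) n

/-- What is reached from a list by the tabulated conjugations. -/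
def cjReach : ℕ → List ℕ → List ℕ
  | 0, l => l
  | f + 1, l => cjReach f ((l ++ l.flatMap fun i =>
      (List.range cjGen.length).map fun k => cjImg k i).dedup)

theorem cjReach_ind {P : ℕ → Prop}
    (step : ∀ i, i < 45 → P i → ∀ k, k < cjGen.length → P (cjImg k i)) :
    ∀ f l, (∀ i ∈ l, i < 45 ∧ P i) → ∀ i ∈ cjReach f l, i < 45 ∧ P i
  | 0, _, hl, i, hi => hl i hi
  | f + 1, l, hl, i, hi => by
    refine cjReach_ind step f _ (fun j hj => ?_) i hi
    rw [List.mem_dedup, List.mem_append, List.mem_flatMap] at hj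
    rcases hj with hj | ⟨m, hm, hj⟩
    · exact hl j hj
    · obtain ⟨k, hk, rfl⟩ := List.mem_map.1 hj
      rw [List.mem_range] at hk
      exact ⟨(cj_spec hk (hl m hm).1).2.1, step m (hl m hm).1 (hl m hm).2 k hk⟩

theorem c_reach : ((List.range 45).all fun i =>
    (cjReach cjDepth [0, 1, 2, 3, 4]).contains i && (cjReach cjDepth cjGen).contains i) = true := by
  decide +kernel

theorem reach_root {P : ℕ → Prop} (h0 : ∀ i, i < 5 → P i)
    (step : ∀ i, i < 45 → P i → ∀ k, k < cjGen.length → P (cjImg k i)) {i : ℕ} (hi : i < 45) :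
    P i := by
  have h := c_reach
  simp only [List.all_eq_true, List.mem_range, Bool.and_eq_true, List.contains_iff_mem] at h
  refine (cjReach_ind step _ _ (fun j hj => ?_) i (h i hi).1).2
  simp only [List.mem_cons, List.not_mem_nil, or_false] at hj
  exact ⟨by omega, h0 j (by omega)⟩

theorem tvT_eq : tvT = Subgroup.closure {u | ∃ g ∈ cjGen, u = tvQ g} := by
  refine le_antisymm ((Subgroup.closure_le _).2 ?_) ((Subgroup.closure_le _).2 ?_)
  · rintro _ ⟨i, rfl⟩
    rw [show tvP i = tvQ i.val from (tvQ_of i.isLt).symm]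
    have h := c_reach
    simp only [List.all_eq_true, List.mem_range, Bool.and_eq_true, List.contains_iff_mem] at h
    have hg : ∀ g ∈ cjGen, g < 45 := fun g hg => by
      obtain ⟨k, hk, rfl⟩ := List.getElem_of_mem hg
      have := c_cj
      simp only [List.all_eq_true, List.mem_range, Bool.and_eq_true, decide_eq_true_eq] at this
      have := (this k hk).1
      rwa [List.getD_eq_getElem _ _ hk] at this
    refine (cjReach_ind (P := fun j => tvQ j ∈ Subgroup.closure {u | ∃ g ∈ cjGen, u = tvQ g})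
      (fun j hj hP k hk => ?_) _ _ (fun g hgm => ⟨hg g hgm, Subgroup.subset_closure ⟨g, hgm, rfl⟩⟩)
      i.val (h i.val i.isLt).2).2
    rw [← (cj_spec hk hj).2.2]
    have hm : tvQ (cjGen.getD k 0) ∈ Subgroup.closure {u | ∃ g ∈ cjGen, u = tvQ g} :=
      Subgroup.subset_closure ⟨_, by rw [List.getD_eq_getElem _ _ hk]; exact List.getElem_mem hk,
        rfl⟩
    exact mul_mem (mul_mem hm hP) hm
  · rintro _ ⟨g, hg, rfl⟩
    by_cases h : g < 45
    · exact tvQ_mem h
    · rw [tvQ, dif_neg h]; exact one_mem _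

theorem tvQ_mem_R {R : Subgroup (Equiv.Perm W)} (hR : RangeOK R) {i : ℕ} (hi : i < 45) :
    tvQ i ∈ R := by
  refine reach_root (P := fun j => tvQ j ∈ R) (fun j hj => ?_) (fun j hj hP k hk => ?_) hi
  · rw [tvQ_of (by omega)]
    exact hR.a0 _ (isTv_iff.2 ⟨⟨j, by omega⟩, hj, rfl⟩).1
  · obtain ⟨hg, -, he⟩ := cj_spec hk hj
    rw [← he, show ∀ a b : Equiv.Perm W, a * b * a = a * b * (a * b) * b⁻¹ from
      fun a b => by group]
    exact R.mul_mem (hR.sq _ (GL6.mul_mem (tvQ_good hg) (tvQ_good hj))) (R.inv_mem hP)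

/-- The transvections lie in the stabiliser of the line. -/
theorem tvP_mem {R : Subgroup (Equiv.Perm W)} (hR : RangeOK R) (i : Fin 45) :
    tvP i ∈ stabE R :=
  mem_stabE.2 ⟨by rw [show tvP i = tvQ i.val from (tvQ_of i.isLt).symm]
                  exact tvQ_mem_R hR i.isLt, tvP_fix i⟩

theorem tvT_le {R : Subgroup (Equiv.Perm W)} (hR : RangeOK R) : tvT ≤ stabE R :=
  (Subgroup.closure_le _).2 (by rintro _ ⟨i, rfl⟩; exact tvP_mem hR i)

/-- The vector of a level of the chain. -/
def chV (k : ℕ) : W := ⟨chBase.getD k 0 % 4096, Nat.mod_lt _ (by norm_num)⟩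

/-- Fixing the first vectors of the chain. -/
def chFix (k : ℕ) : Subgroup (Equiv.Perm W) where
  carrier := {g | g ∈ tvT ∧ ∀ j < k, g (chV j) = chV j}
  one_mem' := ⟨one_mem _, fun _ _ => rfl⟩
  mul_mem' h h' := ⟨mul_mem h.1 h'.1, fun j hj => by
    rw [Equiv.Perm.mul_apply, h'.2 j hj, h.2 j hj]⟩
  inv_mem' {g} h := ⟨inv_mem h.1, fun j hj => g.injective (by simp [h.2 j hj])⟩

/-- The vector at a position of an orbit of the chain. -/
def chP (k i : ℕ) : ℕ := (chTree.getD k []).getD i 0 % 4096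

theorem c_chain : ((List.range 4).all fun k => decide (chBase.getD k 0 < 4096) &&
    ((List.range (chTree.getD k []).length).all fun i =>
      if i == 0 then chP k i == chBase.getD k 0 else
        let x := (chTree.getD k []).getD i 0 / 4096
        let g := x / 256
        decide (x % 256 < i) && decide (g < 45) &&
          ((List.range k).all fun j => tvAp g (chBase.getD j 0) == chBase.getD j 0) &&
          tvAp g (chP k (x % 256)) == chP k i) &&
    ((List.range (chTree.getD k []).length).all fun i => (List.range i).all fun j =>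
      !(chP k i == chP k j))) = true := by
  decide +kernel

theorem chain_mem {k : ℕ} (hk : k < 4) : ∀ i, i < (chTree.getD k []).length →
    ∃ m ∈ chFix k, (m (chV k)).val = chP k i := by
  have h := c_chain
  simp only [List.all_eq_true, List.mem_range, Bool.and_eq_true, decide_eq_true_eq] at h
  have hb : ∀ j < 4, (chV j).val = chBase.getD j 0 := fun j hj => Nat.mod_eq_of_lt (h j hj).1.1
  intro i
  induction i using Nat.strong_induction_on with
  | _ i ih =>
    intro hi
    have h2 := (h k hk).1.2 i hi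
    by_cases h0 : i = 0
    · rw [if_pos (by simp [h0])] at h2
      exact ⟨1, one_mem _, by rw [Equiv.Perm.one_apply, hb k hk]; simpa using (beq_iff_eq.1 h2).symm⟩
    · rw [if_neg (by simp [h0])] at h2
      simp only [Bool.and_eq_true, decide_eq_true_eq, List.all_eq_true, List.mem_range,
        beq_iff_eq] at h2
      obtain ⟨⟨⟨hp, hg⟩, hfix⟩, ha⟩ := h2
      obtain ⟨m, hm, hv⟩ := ih _ hp (hp.trans hi)
      refine ⟨_, mul_mem (show tvQ _ ∈ chFix k from ⟨tvQ_mem hg, fun j hj => Fin.ext ?_⟩) hm, ?_⟩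
      · rw [tvQ_app hg, hb j (hj.trans hk)]
        exact hfix j hj
      · rw [Equiv.Perm.mul_apply, tvQ_app hg, hv, ha]

theorem card_chFix_step {k : ℕ} (hk : k < 4) :
    (chTree.getD k []).length * Nat.card (chFix (k + 1)) ≤ Nat.card (chFix k) := by
  choose t ht htv using fun i : Fin (chTree.getD k []).length => chain_mem hk i.val i.isLt
  let F : Fin (chTree.getD k []).length × ↥(chFix (k + 1)) → ↥(chFix k) := fun p =>
    ⟨t p.1 * p.2.1, mul_mem (ht p.1) ⟨p.2.2.1, fun j hj => p.2.2.2 j (by omega)⟩⟩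
  have hF : Function.Injective F := by
    rintro ⟨i, x⟩ ⟨j, y⟩ h
    have h' : t i * x.1 = t j * y.1 := congrArg Subtype.val h
    have hij : chP k i.val = chP k j.val := by
      have := congrArg (fun g : Equiv.Perm W => (g (chV k)).val) h'
      simpa [x.2.2 k (by omega), y.2.2 k (by omega), htv] using this
    have e : i = j := by
      have hn := c_chain
      simp only [List.all_eq_true, List.mem_range, Bool.and_eq_true, Bool.not_eq_true',
        beq_eq_false_iff_ne] at hn
      rcases lt_trichotomy i.val j.val with hlt | hlt | hlt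
      · exact absurd hij.symm ((hn k hk).2 j.val j.isLt i.val hlt)
      · exact Fin.ext hlt
      · exact absurd hij ((hn k hk).2 i.val i.isLt j.val hlt)
    subst e
    exact Prod.ext rfl (Subtype.ext (mul_left_cancel h'))
  have hc := Nat.card_le_card_of_injective F hF
  rwa [Nat.card_prod, Nat.card_eq_fintype_card (α := Fin _), Fintype.card_fin] at hc

theorem card_tvT_ge : 25920 ≤ Nat.card tvT := by
  have hlen : ((List.range 4).map fun k => (chTree.getD k []).length) = [135, 12, 8, 2] := by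
    decide +kernel
  simp only [List.range_succ, List.range_zero, List.nil_append, List.map_cons, List.map_nil,
    List.cons_append, List.cons.injEq, and_true] at hlen
  obtain ⟨l0, l1, l2, l3⟩ := hlen
  have a := card_chFix_step (k := 0) (by norm_num)
  have b := card_chFix_step (k := 1) (by norm_num)
  have c := card_chFix_step (k := 2) (by norm_num)
  have d := card_chFix_step (k := 3) (by norm_num)
  have h4 : 0 < Nat.card (chFix 4) := Nat.card_pos
  have h0 : Nat.card (chFix 0) ≤ Nat.card tvT :=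
    Subgroup.card_le_of_le fun g hg => hg.1
  rw [l0] at a
  rw [l1] at b
  rw [l2] at c
  rw [l3] at d
  norm_num at a b c d
  omega

/-- The stabiliser of the line is generated by the transvections. -/
theorem stabE_eq {R : Subgroup (Equiv.Perm W)} (hR : RangeOK R) :
    stabE R = Subgroup.closure (Set.range tvP) :=
  (Subgroup.eq_of_le_of_card_ge (tvT_le hR) ((card_stabE_le hR).trans card_tvT_ge)).symm

/-- The order of the stabiliser of the line. -/
theorem card_stabE {R : Subgroup (Equiv.Perm W)} (hR : RangeOK R) :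
    Nat.card (stabE R) = 25920 :=
  le_antisymm (card_stabE_le hR) (card_tvT_ge.trans (Subgroup.card_le_of_le (tvT_le hR)))

theorem tvP_conj {h : Equiv.Perm W} (hh : h ∈ tvT) :
    ∀ i : Fin 45, ∃ j : Fin 45, h * tvP i * h⁻¹ = tvP j := by
  rw [tvT_eq] at hh
  induction hh using Subgroup.closure_induction'' with
  | mem x hx =>
    intro i
    obtain ⟨g, hg, rfl⟩ := hx
    obtain ⟨k, hk, rfl⟩ := List.getElem_of_mem hg
    obtain ⟨hgl, hc, he⟩ := cj_spec hk i.isLt
    rw [List.getD_eq_getElem _ _ hk] at hgl he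
    refine ⟨⟨_, hc⟩, ?_⟩
    rw [inv_eq_of_mul_eq_one_right (tvQ_sq hgl), ← tvQ_of i.isLt, he, tvQ_of hc]
  | inv_mem x hx =>
    intro i
    obtain ⟨g, hg, rfl⟩ := hx
    obtain ⟨k, hk, rfl⟩ := List.getElem_of_mem hg
    obtain ⟨hgl, hc, he⟩ := cj_spec hk i.isLt
    rw [List.getD_eq_getElem _ _ hk] at hgl he
    refine ⟨⟨_, hc⟩, ?_⟩
    rw [inv_inv, inv_eq_of_mul_eq_one_right (tvQ_sq hgl), ← tvQ_of i.isLt, he, tvQ_of hc]
  | one => exact fun i => ⟨i, by rw [one_mul, inv_one, mul_one]⟩
  | mul x y _ _ hx hy =>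
    intro i
    obtain ⟨j, hj⟩ := hy i
    obtain ⟨l, hl⟩ := hx j
    exact ⟨l, by rw [← hl, ← hj]; group⟩

/-- The conjugates of the transvections of the plane group are the 45 transvections. -/
theorem isP_iff {R : Subgroup (Equiv.Perm W)} (hR : RangeOK R) {u : Equiv.Perm W} :
    IsP R u ↔ ∃ i, u = tvP i := by
  constructor
  · rintro ⟨h, hh, hf, ht⟩
    obtain ⟨k, -, hk⟩ := isTv_iff.1 ht
    have hT : h ∈ tvT := by
      have := mem_stabE.2 ⟨hh, hf⟩
      rwa [stabE_eq hR] at this
    obtain ⟨j, hj⟩ := tvP_conj (inv_mem hT) k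
    exact ⟨j, by rw [← hj, ← hk]; group⟩
  · rintro ⟨i, rfl⟩
    have key : ∀ j, j < 45 → ∃ h ∈ stabE R, IsTv (h * tvQ j * h⁻¹) := fun j hj => by
      refine reach_root (P := fun j => ∃ h ∈ stabE R, IsTv (h * tvQ j * h⁻¹))
        (fun j hj => ⟨1, one_mem _, ?_⟩) (fun j hj hP k hk => ?_) hj
      · rw [one_mul, inv_one, mul_one, tvQ_of (by omega)]
        exact isTv_iff.2 ⟨⟨j, by omega⟩, hj, rfl⟩
      · obtain ⟨hg, -, he⟩ := cj_spec hk hj
        obtain ⟨h, hh, ht⟩ := hP
        refine ⟨h * tvQ (cjGen.getD k 0), mul_mem hh (tvT_le hR (tvQ_mem hg)), ?_⟩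
        convert ht using 1
        rw [← he, mul_inv_rev, inv_eq_of_mul_eq_one_right (tvQ_sq hg)]
        simp only [mul_assoc]
        rw [← mul_assoc (tvQ (cjGen.getD k 0)) (tvQ (cjGen.getD k 0)), tvQ_sq hg, one_mul,
          ← mul_assoc (tvQ (cjGen.getD k 0)) (tvQ (cjGen.getD k 0)), tvQ_sq hg, one_mul]
    obtain ⟨h, hh, ht⟩ := key i.val i.isLt
    rw [tvQ_of i.isLt] at ht
    exact ⟨h, (mem_stabE.1 hh).1, (mem_stabE.1 hh).2, ht⟩

theorem c_sylE : (decide (sylE.length = 64) && ((List.range 64).all fun i =>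
    (List.range i).all fun j => !((sylE.getD i (0, 0, [])).1 == (sylE.getD j (0, 0, [])).1)) &&
    sylE.all fun x => decide (x.1 < 512) && flagN.testBit x.1 &&
      appN (elsC x.1) 12 1470 == 1470 &&
      (x.1 == 0 || mulN x.1 x.1 != 0 ||
        (a0J.contains x.2.1 && x.2.2.all (fun g => decide (g < 45)) &&
          (List.range 12).all fun j => wordA x.2.2 (col (elsC x.1) j) ==
            appN (elsC (jN x.2.1)) 12 (wordA x.2.2 (2 ^ j))))) = true := by
  decide +kernel

theorem exists_conj_of_table {R : Subgroup (Equiv.Perm W)} (hR : RangeOK R)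
    {x : ℕ × ℕ × List ℕ} (hx : x ∈ sylE) {h : x.1 < 512} (hsq : elP ⟨x.1, h⟩ * elP ⟨x.1, h⟩ = 1)
    (hne : elP ⟨x.1, h⟩ ≠ 1) :
    ∃ g ∈ stabE R, inA0 (g * elP ⟨x.1, h⟩ * g⁻¹) := by
  have hc := c_sylE
  simp only [Bool.and_eq_true, List.all_eq_true, Bool.or_eq_true, beq_iff_eq,
    bne_iff_ne, decide_eq_true_eq, List.mem_range, List.contains_iff_mem] at hc
  rcases (hc.2 x hx).2 with (h0 | h0) | ⟨⟨ha, hw⟩, hcol⟩
  · exact absurd (by rw [show (⟨x.1, h⟩ : Fin 512) = 0 from Fin.ext h0, elP_zero]) hne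
  · exact absurd (congrArg Fin.val (mulF_eq (hsq.trans elP_zero.symm))) h0
  · obtain ⟨g, hg, hgv⟩ := wordA_mem x.2.2 hw
    have hlt : x.2.1 < 107 := by
      have := c_a0flag
      simp only [List.all_eq_true, Bool.and_eq_true, decide_eq_true_eq] at this
      exact (this _ ha).1.1
    refine ⟨g, tvT_le hR hg, Or.inr ⟨⟨x.2.1, hlt⟩, ha, ?_⟩⟩
    rw [mul_inv_eq_iff_eq_mul]
    have hga : IsAdd g := (hR.le (mem_stabE.1 (tvT_le hR hg)).1).add
    refine Equiv.ext fun n => congrFun (isAdd_ext (f := g ∘ elP ⟨x.1, h⟩)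
      (g := jP ⟨x.2.1, hlt⟩ ∘ g) (isAdd_comp hga (isAdd_app _))
      (isAdd_comp (isAdd_app _) hga) fun j => Fin.ext ?_) n
    show (g (elP ⟨x.1, h⟩ (bas j))).val = (jP ⟨x.2.1, hlt⟩ (g (bas j))).val
    rw [hgv, elP_apply, app_bas, hcol j.val j.isLt, jP, elP_apply]
    show _ = appN _ 12 (g (bas j)).val
    rw [hgv]
    rfl

/-- Every involution of the stabiliser of the line has a conjugate in `A₀`. -/
theorem exists_mover {R : Subgroup (Equiv.Perm W)} (hR : RangeOK R) {u : Equiv.Perm W}
    (hu : u ∈ stabE R) (h2 : u * u = 1) (h1 : u ≠ 1) :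
    ∃ h ∈ stabE R, inA0 (h * u * h⁻¹) := by
  classical
  have : Fact (Nat.Prime 2) := ⟨Nat.prime_two⟩
  have hsq : ∀ g ∈ GL6, g * g ∈ R ⊓ GL6 := fun g hg => ⟨hR.sq g hg, GL6.mul_mem hg hg⟩
  have hc := c_sylE
  simp only [Bool.and_eq_true, List.all_eq_true, decide_eq_true_eq, List.mem_range,
    Bool.not_eq_true', beq_eq_false_iff_ne] at hc
  obtain ⟨⟨hlen, hnd⟩, hall⟩ := hc
  have hget : ∀ i : Fin 64, sylE.getD i.val (0, 0, []) ∈ sylE := fun i => by
    rw [List.getD_eq_getElem _ _ (by omega)]; exact List.getElem_mem _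
  set S : Subgroup (Equiv.Perm W) := PS ⊓ stabE R with hS
  let e : Fin 64 → ↥S := fun i => ⟨elP ⟨_, (hall _ (hget i)).1.1.1⟩, ⟨_, rfl⟩,
    mem_stabE_of (flag_mem hsq _ (hall _ (hget i)).1.1.2) (Fin.ext (by
      rw [elP_apply]; exact beq_iff_eq.1 (hall _ (hget i)).1.2))⟩
  have he : Function.Injective e := fun i j h => by
    have h' : (sylE.getD i.val (0, 0, [])).1 = (sylE.getD j.val (0, 0, [])).1 :=
      congrArg Fin.val (elP_injective (congrArg Subtype.val h))
    rcases lt_trichotomy i.val j.val with hlt | hlt | hlt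
    · exact absurd h'.symm (hnd j.val j.isLt i.val hlt)
    · exact Fin.ext hlt
    · exact absurd h' (hnd i.val i.isLt j.val hlt)
  have h64 : 64 ≤ Nat.card S := by
    have := Nat.card_le_card_of_injective e he
    rwa [Nat.card_eq_fintype_card (α := Fin 64), Fintype.card_fin] at this
  have hSc : Nat.card S = 64 := by
    have d1 : Nat.card S ∣ Nat.card PS := Subgroup.card_dvd_of_le inf_le_left
    have d2 : Nat.card S ∣ Nat.card (stabE R) := Subgroup.card_dvd_of_le inf_le_right
    rw [card_PS] at d1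
    rw [card_stabE hR] at d2
    have h := Nat.le_of_dvd (by norm_num) (Nat.dvd_gcd d1 d2)
    rw [show Nat.gcd 512 25920 = 64 from by decide] at h
    exact le_antisymm h h64
  have hesurj : Function.Surjective e :=
    ((Nat.bijective_iff_injective_and_card _).2
      ⟨he, by rw [hSc, Nat.card_eq_fintype_card, Fintype.card_fin]⟩).2
  have hS' : Nat.card ↥(S.subgroupOf (stabE R)) =
      2 ^ (Nat.card ↥(stabE R)).factorization 2 := by
    rw [Nat.card_congr (Subgroup.subgroupOfEquivOfLe inf_le_right).toEquiv, hSc, card_stabE hR,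
      show (25920 : ℕ) = 2 ^ 6 * 405 by norm_num,
      Nat.factorization_mul (by norm_num) (by norm_num), Nat.factorization_pow]
    simp [Nat.Prime.factorization_self Nat.prime_two,
      Nat.factorization_eq_zero_of_not_dvd (show ¬ 2 ∣ 405 by norm_num)]
  let SS : Sylow 2 ↥(stabE R) := Sylow.ofCard _ hS'
  have hz : IsPGroup 2 ↥(Subgroup.zpowers (⟨u, hu⟩ : ↥(stabE R))) := by
    refine IsPGroup.of_card (n := 1) ?_
    rw [Nat.card_zpowers, pow_one]
    exact orderOf_eq_prime (Subtype.ext (by simpa [pow_two] using h2))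
      fun h => h1 (congrArg Subtype.val h)
  obtain ⟨P, hP⟩ := hz.exists_le_sylow
  obtain ⟨g, hg⟩ := MulAction.exists_smul_eq (↥(stabE R)) P SS
  have hmem : g * ⟨u, hu⟩ * g⁻¹ ∈ (SS : Subgroup ↥(stabE R)) := by
    rw [← hg, Sylow.coe_subgroup_smul]
    exact ⟨⟨u, hu⟩, hP (Subgroup.mem_zpowers _), by simp⟩
  rw [Sylow.coe_ofCard, Subgroup.mem_subgroupOf] at hmem
  obtain ⟨i, hi⟩ := hesurj ⟨_, hmem⟩
  have hi' : elP ⟨_, (hall _ (hget i)).1.1.1⟩ = (g : Equiv.Perm W) * u * (g : Equiv.Perm W)⁻¹ :=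
    congrArg Subtype.val hi
  obtain ⟨k, hk, hk'⟩ := exists_conj_of_table hR (hget i) (h := (hall _ (hget i)).1.1.1)
    (by rw [hi', show ∀ a b : Equiv.Perm W, a * b * a⁻¹ * (a * b * a⁻¹) = a * (b * b) * a⁻¹ from
      fun a b => by group, h2]; group)
    (by rw [hi']; exact fun h => h1 (conj_eq_one_iff.1 h))
  refine ⟨k * g, mul_mem hk g.2, ?_⟩
  rw [hi'] at hk'
  rwa [show k * (g : Equiv.Perm W) * u * (k * (g : Equiv.Perm W))⁻¹ =
    k * ((g : Equiv.Perm W) * u * (g : Equiv.Perm W)⁻¹) * k⁻¹ by group]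

end CfsgLib.LargeFischer58
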