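import Cfsg.Agent.LargeFischer58.Local
import Cfsg.Agent.LargeFischer58.Stab
import Cfsg.Agent.LargeFischer58.Checks

/-!
Large Fischer type: every involution of the centraliser of the image of `z` is conjugate into the image
of the elementary subgroup.
-/

set_option autoImplicit false

namespace CfsgLib.LargeFischer58

open Cfsg CfsgLib.LargeFischer45

namespace Cfg

variable {G : Type*} [Group G] [Finite G] {z : G} {Q : Subgroup ↥(CG z)} [Q.Normal]
  (C : Cfg z Q)

theorem cover {j : G} (hj : j ∈ C.CE) (hjz : j * z = z * j) (hj2 : j * j ∈ C.E) :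
    ∃ g ∈ C.CE, g * z = z * g ∧ g * j * g⁻¹ ∈ C.AG :=
  C.cover_of (fun _u hu h2 h1 => exists_mover C.range hu h2 h1)
    (fun _u hu h1 _v o1 o2 he => fix_of_inE hu h1 _v o1 o2 he)
    (fun _v hs o1 o2 => cover_vec_core (tvP_mem C.range) hs o1 o2)
    (fun _u hu h1 => cover_pair_core (tvP_mem C.range) hu h1) hj hjz hj2

end Cfg

end CfsgLib.LargeFischer58
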