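import Mathlib

/-!
The local data at an involution `z` of the class of the unitary transvections in `PSU(6, 2)`: one
elementary plane group `Ab` through `z`, with its 21 members of the class.
-/

set_option autoImplicit false

namespace CfsgLib.LargeFischer58

variable {X : Type*} [Group X]

/-- The members of the class of `z` in `Ab`. -/
def pts (z : X) (Ab : Subgroup X) : Set X := {x | x ∈ conjugatesOf z ∧ x ∈ Ab}

/-- The members of the class of `z` other than `z` commuting with `z`. -/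
def nbrs (z : X) : Set X := {x | x ∈ conjugatesOf z ∧ x ≠ z ∧ Commute z x}

/-- What is needed to recognise `PSU(6, 2)`. -/
structure PlaneData (z : X) (Ab : Subgroup X) : Prop where
  ne : z ≠ 1
  sq : z * z = 1
  mem : z ∈ Ab
  elem : ∀ a ∈ Ab, a * a = 1
  card_pts : (pts z Ab).ncard = 21
  two_trans : ∀ x ∈ pts z Ab, ∀ y ∈ pts z Ab, x ≠ y → ∀ w ∈ pts z Ab, w ≠ z →
    ∃ g ∈ Subgroup.normalizer (Ab : Set X), g * x * g⁻¹ = z ∧ g * y * g⁻¹ = w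
  other : ∃ j ∈ Ab, j ≠ 1 ∧ j ∉ conjugatesOf z
  cover : ∀ j : X, j * j = 1 → Commute j z → ∃ g, Commute g z ∧ g * j * g⁻¹ ∈ Ab
  meet : ∀ g j : X, j ≠ 1 → j ∈ Ab → g * j * g⁻¹ ∈ Ab →
    ∃ x ∈ pts z Ab, g * x * g⁻¹ ∈ pts z Ab
  three : ∀ d ∈ nbrs z, ∀ e ∈ nbrs z, ¬ Commute d e → (d * e) ^ 3 = 1
  line : ∀ d ∈ nbrs z, d ∉ Ab → {x | x ∈ pts z Ab ∧ Commute d x}.ncard = 5 ∧
    ∃ g : X, g * d * g⁻¹ ∈ Ab ∧ ∀ x ∈ pts z Ab, Commute d x → g * x * g⁻¹ ∈ Ab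
  line_unique : ∀ d ∈ nbrs z, ∀ d' ∈ nbrs z, d ∉ Ab → d' ∉ Ab →
    ∀ y ∈ pts z Ab, y ≠ z → Commute d y → Commute d' y →
      ∀ x ∈ pts z Ab, Commute d x → Commute d' x
  line_exists : ∀ y ∈ pts z Ab, y ≠ z → ∃ d ∈ nbrs z, d ∉ Ab ∧ Commute d y
  core : ∃ K : Subgroup X, IsPGroup 2 K ∧ K ≤ Subgroup.closure (nbrs z) ∧
    (∀ g : X, Commute g z → ∀ k ∈ K, g * k * g⁻¹ ∈ K) ∧
    ∃ k ∈ K, ∃ d ∈ nbrs z, ¬ Commute k d
  central : ∀ u : X, (∀ d ∈ conjugatesOf z, Commute u d) → u = 1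
  gen : Subgroup.centralizer ({z} : Set X) ≤ Subgroup.closure (conjugatesOf z)
  sylow : 2 ^ 15 ∣ Nat.card (Subgroup.centralizer ({z} : Set X))
  two : 2 ^ 15 ∣ Nat.card X ∧ ¬ 2 ^ 16 ∣ Nat.card X

end CfsgLib.LargeFischer58
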