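import Cfsg.Agent.LargeFischer20.ModelClass
import Cfsg.Agent.LargeFischer45.Mathieu
import Cfsg.Agent.LargeFischer58.Plane

/-!
Large Fischer type: the four group `E` in standard position, with the duads of the elementary
subgroup of order `2 ^ 11`, and the group `C(E)/E`.
-/

set_option autoImplicit false
set_option maxRecDepth 100000

namespace CfsgLib.LargeFischer58

open Cfsg CfsgLib.LargeFischer85 CfsgLib.LargeFischer28 CfsgLib.LargeFischer45

/-- The first vector of the distinguished line. -/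
def e1 : W := 1470

/-- The second vector of the distinguished line. -/
def e2 : W := om e1

/-- The distinguished line. -/
def InE (v : W) : Prop := v = 0 ∨ v = e1 ∨ v = e2 ∨ v = vadd e1 e2

instance : DecidablePred InE := fun v =>
  inferInstanceAs (Decidable (v = 0 ∨ v = e1 ∨ v = e2 ∨ v = vadd e1 e2))

/-- Fixing the distinguished line pointwise. -/
def FixE (g : Equiv.Perm W) : Prop := g e1 = e1 ∧ g e2 = e2

/-- A transvection of the plane group. -/
def IsTv (u : Equiv.Perm W) : Prop := inA0 u ∧ u ≠ 1 ∧ ∃ w : W, vadd w (u w) = e1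

/-- A conjugate of a transvection of the plane group. -/
def IsP (R : Subgroup (Equiv.Perm W)) (u : Equiv.Perm W) : Prop :=
  ∃ h ∈ R, FixE h ∧ IsTv (h * u * h⁻¹)

/-- What is known on the image of `H/Q`. -/
structure RangeOK (R : Subgroup (Equiv.Perm W)) : Prop where
  le : R ≤ GX
  card : Nat.card R = 19595520
  sq : ∀ g ∈ GL6, g * g ∈ R
  flag : ∀ i : Fin 512, elP i ∈ R → linN.testBit i.val = true → flagN.testBit i.val = true
  anti : ∃ g ∈ R, g ∉ GL6
  a0 : ∀ g, inA0 g → g ∈ R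

/-- The stabiliser of the distinguished line, pointwise. -/
def stabE (R : Subgroup (Equiv.Perm W)) : Subgroup (Equiv.Perm W) where
  carrier := {g | g ∈ R ∧ FixE g}
  one_mem' := ⟨R.one_mem, rfl, rfl⟩
  mul_mem' := by
    rintro g h ⟨hg, g1, g2⟩ ⟨hh, h1, h2⟩
    exact ⟨R.mul_mem hg hh, by rw [Equiv.Perm.mul_apply, h1, g1],
      by rw [Equiv.Perm.mul_apply, h2, g2]⟩
  inv_mem' := by
    rintro g ⟨hg, g1, g2⟩
    exact ⟨R.inv_mem hg, by rw [Equiv.Perm.inv_eq_iff_eq, g1],
      by rw [Equiv.Perm.inv_eq_iff_eq, g2]⟩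

theorem mem_stabE {R : Subgroup (Equiv.Perm W)} {g : Equiv.Perm W} :
    g ∈ stabE R ↔ g ∈ R ∧ FixE g := Iff.rfl

/-- The duads of the elementary subgroup. -/
structure Duads {G : Type*} [Group G] (z : G) (A : Subgroup G) (d : GolayPt → GolayPt → G) :
    Prop where
  mem : ∀ p q, p ≠ q → d p q ∈ A
  other : ∀ p q, p ≠ q → Other z (d p q)
  surj : ∀ a ∈ A, Other z a → ∃ p q, p ≠ q ∧ d p q = a
  inj : ∀ p q r s, p ≠ q → d p q = d r s → ({p, q} : Finset GolayPt) = {r, s}
  symm : ∀ p q, d p q = d q p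
  tri : ∀ p q r, p ≠ q → q ≠ r → p ≠ r → d p q * d q r = d p r
  disj : ∀ p q r s, p ≠ q → r ≠ s → p ≠ r → p ≠ s → q ≠ r → q ≠ s →
    IsConj z (d p q * d r s)
  lift : ∀ σ ∈ Cfsg.M24, ∃ m ∈ Subgroup.normalizer (A : Set G), ∀ p q, p ≠ q →
    m * d p q * m⁻¹ = d (σ p) (σ q)
  perm : ∀ m ∈ Subgroup.normalizer (A : Set G), ∃ σ ∈ Cfsg.M24, ∀ p q, p ≠ q →
    m * d p q * m⁻¹ = d (σ p) (σ q)

/-- The configuration: `E` is generated by the duads `ab`, `bc`, and `z = ab * ce`. -/
structure Cfg {G : Type*} [Group G] [Finite G] (z : G) (Q : Subgroup ↥(CG z)) [Q.Normal] where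
  pr : ↥Q → W
  act : (↥(CG z) ⧸ Q) →* Equiv.Perm W
  T : Sylow 2 ↥(CG z)
  A : Subgroup ↥(CG z)
  d : GolayPt → GolayPt → G
  a : GolayPt
  b : GolayPt
  c : GolayPt
  e : GolayPt
  large : IsOfLargeFischerTypeAt z Q
  std : Std z Q pr act T A
  range : RangeOK (fhom act).range
  facts : Facts z Q (A.map (CG z).subtype)
  duads : Duads z (A.map (CG z).subtype) d
  hab : a ≠ b
  hac : a ≠ c
  hae : a ≠ e
  hbc : b ≠ c
  hbe : b ≠ e
  hce : c ≠ e
  q1 : ∃ q : ↥Q, pr q = e1 ∧ ((q : ↥(CG z)) : G) = d a b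
  q2 : ∃ q : ↥Q, pr q = e2 ∧ ((q : ↥(CG z)) : G) = d b c
  zeq : d a b * d c e = z

namespace Cfg

variable {G : Type*} [Group G] [Finite G] {z : G} {Q : Subgroup ↥(CG z)} [Q.Normal]
  (C : Cfg z Q)

/-- The elementary subgroup in `G`. -/
abbrev AG : Subgroup G := C.A.map (CG z).subtype

/-- The extraspecial subgroup in `G`. -/
abbrev QG (_C : Cfg z Q) : Subgroup G := Q.map (CG z).subtype

/-- The four group. -/
def E : Subgroup G := Subgroup.closure {C.d C.a C.b, C.d C.b C.c}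

/-- The centraliser of the four group. -/
def CE : Subgroup G := Subgroup.centralizer (C.E : Set G)

/-- The conjugate of `z` over a point other than `a`, `b`, `c`. -/
def zp (x : GolayPt) : G := C.d C.a C.b * C.d C.c x

theorem AG_comm {x y : G} (hx : x ∈ C.AG) (hy : y ∈ C.AG) : x * y = y * x := by
  obtain ⟨x, hx, rfl⟩ := hx
  obtain ⟨y, hy, rfl⟩ := hy
  exact congrArg Subtype.val (C.std.comm hx hy)

theorem E_le_AG : C.E ≤ C.AG := by
  rw [E, Subgroup.closure_le]
  rintro x (rfl | rfl)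
  · exact C.duads.mem _ _ C.hab
  · exact C.duads.mem _ _ C.hbc

theorem AG_le_CE : C.AG ≤ C.CE := fun x hx =>
  Subgroup.mem_centralizer_iff.2 fun e he => C.AG_comm (C.E_le_AG he) hx

theorem E_le_CE : C.E ≤ C.CE := C.E_le_AG.trans C.AG_le_CE

instance normal_E : (C.E.subgroupOf C.CE).Normal where
  conj_mem n hn g := by
    rw [Subgroup.mem_subgroupOf] at hn ⊢
    have h : (n : G) * (g : G) = (g : G) * (n : G) :=
      Subgroup.mem_centralizer_iff.1 g.2 _ hn
    simp only [Subgroup.coe_mul, InvMemClass.coe_inv]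
    rw [← h, mul_inv_cancel_right]
    exact hn

/-- The group `C(E)/E`. -/
abbrev X : Type _ := ↥C.CE ⧸ C.E.subgroupOf C.CE

/-- The projection. -/
def proj : ↥C.CE →* C.X := QuotientGroup.mk' _

theorem z_mem_AG : z ∈ C.AG := by
  have h : C.d C.a C.b * C.d C.c C.e ∈ C.AG :=
    mul_mem (C.duads.mem _ _ C.hab) (C.duads.mem _ _ C.hce)
  exact (congrArg (fun x => x ∈ C.AG) C.zeq).mp h

/-- The image of `z`. -/
def base : C.X := C.proj ⟨z, C.AG_le_CE C.z_mem_AG⟩

/-- The image of the elementary subgroup. -/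
def Ab : Subgroup C.X := (C.AG.subgroupOf C.CE).map C.proj

end Cfg

end CfsgLib.LargeFischer58
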