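import Cfsg.Agent.LargeFischer58.Checks
import Cfsg.Agent.LargeFischer58.Stab

/-!
Large Fischer type, the configuration: the space orthogonal to the distinguished line in the model,
as a module for the stabiliser of the line.
-/

set_option autoImplicit false
set_option maxRecDepth 100000

namespace CfsgLib.LargeFischer58

open CfsgLib.LargeFischer85 CfsgLib.LargeFischer28

/-- The packed functional of the first vector of the line. -/
def genF1 : ℕ := 5444518195253569078564240187982276984833

/-- The packed functional of the second vector of the line. -/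
def genF2 : ℕ := 1329228075032425923801383163591135233

/-- A basis of the space orthogonal to the line. -/
def lpBasis : List W := [9, 20, 33, 65, 130, 258, 516, 1026, 2052, 7]

/-- Transvections and vectors whose differences span the orthogonal space with the line. -/
def genPairs : List (ℕ × ℕ) :=
  [(0, 9), (0, 258), (1, 9), (1, 20), (5, 9), (5, 65), (6, 9), (6, 33)]

/-- The line and the differences. -/
def genVecs : List ℕ :=
  e1.val :: e2.val :: genPairs.map fun p => p.2 ^^^ appN (tvC.getD p.1 0) 12 p.2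

theorem genB_c_fun : chk (liftP fun v => decide (orth v e1 ↔ appN genF1 12 v.val = 0) &&
    decide (orth v e2 ↔ appN genF2 12 v.val = 0)) 12 0 = true := by
  decide +kernel

theorem genB_c_dual : chk (liftP fun v => !(lpBasis.all fun b => decide (orth v b)) ||
    decide (InE v)) 12 0 = true := by
  decide +kernel

theorem genB_c_basis : ((lpBasis.all fun b => decide (orth b e1) && decide (orth b e2)) &&
    a0J.all fun a => lpBasis.any fun b =>
      !decide (InE (vadd b (app (elsC (jN a)) b)))) = true := by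
  decide +kernel

theorem genB_c_span : ((spanN genVecs).foldr (fun n m => m ||| 2 ^ n) 0 == perpN &&
    genPairs.all fun p => decide (p.1 < 45) && decide (p.2 < 4096) && perpN.testBit p.2) =
      true := by
  decide +kernel

theorem genB_c_count : cntB (fun n => perpN.testBit n) 12 0 = 1024 := by
  decide +kernel

theorem genB_c_pair : orth (9 : W) e1 ∧ orth (9 : W) e2 ∧ orth (20 : W) e1 ∧ orth (20 : W) e2 ∧
    ¬ orth (9 : W) 20 := by
  decide +kernel

theorem genB_c_reach : ((List.range 5).all fun i => (List.range 45).all fun j =>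
    (cjReach 9 [i]).contains j) = true := by
  decide +kernel

/-- Orthogonal to the line. -/
def OrthE (v : W) : Prop := orth v e1 ∧ orth v e2

instance : DecidablePred OrthE := fun v =>
  inferInstanceAs (Decidable (orth v e1 ∧ orth v e2))

theorem orthE_iff_mask (v : W) : OrthE v ↔ perpN.testBit v.val = true := by
  rw [(mask_spec v).1, decide_eq_true_eq]
  rfl

theorem genB_testBit_foldr : ∀ (l : List ℕ) (i : ℕ),
    (l.foldr (fun n m => m ||| 2 ^ n) 0).testBit i = true → i ∈ l
  | [], i, h => by simp at h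
  | n :: l, i, h => by
    simp only [List.foldr_cons, Nat.testBit_or, Bool.or_eq_true, Nat.testBit_two_pow,
      decide_eq_true_eq] at h
    rcases h with h | h
    · exact List.mem_cons_of_mem _ (genB_testBit_foldr l i h)
    · exact h ▸ List.mem_cons_self

theorem genB_spanN_ind {P : ℕ → Prop} (h0 : P 0) (hadd : ∀ x y, P x → P y → P (x ^^^ y)) :
    ∀ l : List ℕ, (∀ e ∈ l, P e) → ∀ x ∈ spanN l, P x
  | [], _, x, hx => by
    rw [spanN, List.mem_singleton] at hx
    exact hx ▸ h0
  | e :: l, hl, x, hx => by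
    have ih := genB_spanN_ind h0 hadd l fun y hy => hl y (List.mem_cons_of_mem _ hy)
    rw [spanN, List.mem_append, List.mem_map] at hx
    rcases hx with hx | ⟨y, hy, rfl⟩
    · exact ih x hx
    · exact hadd y e (ih y hy) (hl e List.mem_cons_self)

/-- The orthogonal space is spanned by the line and the differences under the transvections. -/
theorem orthE_induction {P : W → Prop} (h0 : P 0) (h1 : P e1) (h2 : P e2)
    (hadd : ∀ a b, P a → P b → P (vadd a b))
    (hdiff : ∀ (i : Fin 45) (v : W), OrthE v → P (vadd v (tvP i v))) {v : W} (hv : OrthE v) :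
    P v := by
  have hc := genB_c_span
  simp only [Bool.and_eq_true, beq_iff_eq, List.all_eq_true, decide_eq_true_eq] at hc
  obtain ⟨hs, hp⟩ := hc
  have hm : v.val ∈ spanN genVecs :=
    genB_testBit_foldr _ _ (by rw [hs]; exact (orthE_iff_mask v).1 hv)
  obtain ⟨w, hw, hP⟩ := genB_spanN_ind (P := fun n => ∃ w : W, w.val = n ∧ P w) ⟨0, rfl, h0⟩
    (by
      rintro _ _ ⟨a, rfl, ha⟩ ⟨b, rfl, hb⟩
      exact ⟨_, vadd_val a b, hadd a b ha hb⟩)
    genVecs (fun n hn => by
      simp only [genVecs, List.mem_cons, List.mem_map] at hn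
      rcases hn with rfl | rfl | ⟨⟨i, b⟩, hb, rfl⟩
      · exact ⟨e1, rfl, h1⟩
      · exact ⟨e2, rfl, h2⟩
      · obtain ⟨⟨hi, hb4⟩, hbit⟩ := hp _ hb
        refine ⟨_, ?_, hdiff ⟨i, hi⟩ ⟨b, hb4⟩ ((orthE_iff_mask _).2 hbit)⟩
        rw [vadd_val, tvP_apply]
        rfl) v.val hm
  exact Fin.ext hw ▸ hP

theorem orthE_iff (v : W) : OrthE v ↔ appN genF1 12 v.val = 0 ∧ appN genF2 12 v.val = 0 := by
  have h := forall_of_chk _ genB_c_fun v
  simp only [Bool.and_eq_true, decide_eq_true_eq] at h
  exact and_congr h.1 h.2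

theorem orth_e_iff_vadd {a b : W} (h1 : orth a e1 ↔ orth b e1) (h2 : orth a e2 ↔ orth b e2) :
    OrthE (vadd a b) := by
  have hf : ∀ v : W, (orth v e1 ↔ appN genF1 12 v.val = 0) ∧ (orth v e2 ↔ appN genF2 12 v.val = 0) :=
    fun v => by
      have h := forall_of_chk _ genB_c_fun v
      simpa only [Bool.and_eq_true, decide_eq_true_eq] using h
  have hle : ∀ c n : ℕ, (∀ j < 12, col c j ≤ 1) → appN c 12 n ≤ 1 := by
    intro c n hc
    suffices ∀ k, k ≤ 12 → appN c k n < 2 ^ 1 by have := this 12 le_rfl; omega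
    intro k
    induction k with
    | zero => intro _; simp [appN]
    | succ k ih =>
      intro hk
      simp only [appN]
      refine Nat.xor_lt_two_pow (ih (by omega)) ?_
      split
      · have := hc k (by omega); omega
      · norm_num
  have key : ∀ c, (∀ j < 12, col c j ≤ 1) → (appN c 12 a.val = 0 ↔ appN c 12 b.val = 0) →
      appN c 12 (vadd a b).val = 0 := by
    intro c hc h
    rw [vadd_val, appN_xor]
    have ha := hle c a.val hc
    have hb := hle c b.val hc
    rcases Nat.le_one_iff_eq_zero_or_eq_one.1 ha with e | e <;>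
      rcases Nat.le_one_iff_eq_zero_or_eq_one.1 hb with e' | e' <;> simp [e, e'] at h ⊢
  have c1 : ∀ j < 12, col genF1 j ≤ 1 := by decide +kernel
  have c2 : ∀ j < 12, col genF2 j ≤ 1 := by decide +kernel
  refine (orthE_iff _).2 ⟨key _ c1 ?_, key _ c2 ?_⟩
  · rw [← (hf a).1, ← (hf b).1]; exact h1
  · rw [← (hf a).2, ← (hf b).2]; exact h2

theorem inE_of_orth {v : W} (h : ∀ u, OrthE u → orth v u) : InE v := by
  have hv := forall_of_chk _ genB_c_dual v
  have hb := genB_c_basis
  simp only [Bool.and_eq_true, List.all_eq_true, decide_eq_true_eq] at hb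
  simp only [Bool.or_eq_true, Bool.not_eq_true', decide_eq_true_eq, List.all_eq_false] at hv
  rcases hv with ⟨b, hb', hne⟩ | hv
  · exact absurd (h b (hb.1 b hb')) (by simpa using hne)
  · exact hv

theorem card_orthE : Nat.card {v : W // OrthE v} = 1024 := by
  classical
  rw [Nat.card_eq_fintype_card, Fintype.card_subtype, ← genB_c_count, ← cntB_spec]
  refine Finset.card_bij (fun v _ => v.val) (fun v hv => ?_) (fun a _ b _ h => Fin.ext h)
    fun n hn => ?_
  · rw [Finset.mem_filter] at hv
    exact Finset.mem_filter.2 ⟨Finset.mem_Ico.2 ⟨Nat.zero_le _, by simpa using v.isLt⟩,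
      (orthE_iff_mask v).1 hv.2⟩
  · rw [Finset.mem_filter, Finset.mem_Ico] at hn
    have hn4 : n < 4096 := by simpa using hn.1.2
    exact ⟨⟨n, hn4⟩, Finset.mem_filter.2 ⟨Finset.mem_univ _, (orthE_iff_mask _).2 hn.2⟩, rfl⟩

theorem genB_orth_good {g : Equiv.Perm W} (hg : IsGood g) (a b : W) :
    orth (g a) (g b) ↔ orth a b := by
  have key : ∀ x y : W, orth x y ↔ (sing (vadd x y) ↔ (sing x ↔ sing y)) := fun x y => by
    simp only [orth, sing]; omega
  rw [key, key, ← hg.add, hg.sing_iff, hg.sing_iff, hg.sing_iff]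

theorem InE.fix {v : W} (hv : InE v) {g : Equiv.Perm W} (hg : IsAdd g) (hf : FixE g) : g v = v := by
  rcases hv with rfl | rfl | rfl | rfl
  · exact hg.map_zero
  · exact hf.1
  · exact hf.2
  · rw [hg, hf.1, hf.2]

theorem InE.orthE : ∀ v, InE v → OrthE v := by
  rintro v (rfl | rfl | rfl | rfl) <;> decide +kernel

section stab

variable {R : Subgroup (Equiv.Perm W)} (hR : R ≤ GX)
include hR

theorem genB_good {u : Equiv.Perm W} (hu : u ∈ stabE R) : IsGood u := hR (mem_stabE.1 hu).1

theorem orthE_apply {u : Equiv.Perm W} (hu : u ∈ stabE R) {v : W} (hv : OrthE v) : OrthE (u v) := by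
  have hg := genB_good hR hu
  obtain ⟨-, h1, h2⟩ := mem_stabE.1 hu
  refine ⟨?_, ?_⟩
  · rw [← h1, genB_orth_good hg]; exact hv.1
  · rw [← h2, genB_orth_good hg]; exact hv.2

theorem orthE_diff {u : Equiv.Perm W} (hu : u ∈ stabE R) (x : W) : OrthE (vadd x (u x)) := by
  have hg := genB_good hR hu
  obtain ⟨-, h1, h2⟩ := mem_stabE.1 hu
  refine orth_e_iff_vadd ?_ ?_
  · conv_rhs => rw [← h1, genB_orth_good hg]
  · conv_rhs => rw [← h2, genB_orth_good hg]

/-- Only the identity of the stabiliser moves the orthogonal space within the line. -/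
theorem eq_one_of_mod_inE
    (hmove : ∀ u : Equiv.Perm W, u ∈ stabE R → u * u = 1 → u ≠ 1 →
      ∃ h ∈ stabE R, inA0 (h * u * h⁻¹))
    {u : Equiv.Perm W} (hu : u ∈ stabE R) (hE : ∀ v, OrthE v → InE (vadd v (u v))) : u = 1 := by
  -- involutions
  have inv : ∀ w, w ∈ stabE R → (∀ v, OrthE v → InE (vadd v (w v))) → w * w = 1 → w = 1 := by
    intro w hw hE h2
    by_contra h1
    obtain ⟨h, hh, hA⟩ := hmove w hw h2 h1
    rcases hA with e | ⟨a, ha, e⟩
    · exact h1 (by simpa using e)
    have hb := genB_c_basis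
    simp only [Bool.and_eq_true, List.all_eq_true, List.any_eq_true, decide_eq_true_eq,
      Bool.not_eq_true', decide_eq_false_iff_not] at hb
    obtain ⟨b, hbm, hb'⟩ := hb.2 a.val ha
    apply hb'
    show InE (vadd b (jP a b))
    rw [← e]
    have hg := genB_good hR hh
    have h3 := hE _ (orthE_apply hR (inv_mem hh) (hb.1 b hbm))
    have h4 := (hg.add _ _).symm.trans (InE.fix h3 hg.add (mem_stabE.1 hh).2)
    rw [show h (h⁻¹ b) = b from Equiv.apply_symm_apply h b] at h4
    simp only [Equiv.Perm.mul_apply]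
    rw [h4]
    exact h3
  -- the general case
  have hg := genB_good hR hu
  have hf := (mem_stabE.1 hu).2
  have hfixv : ∀ v, OrthE v → u (u v) = v := by
    intro v hv
    have h1 := InE.fix (hE v hv) hg.add hf
    rw [hg.add] at h1
    refine Fin.ext ?_
    have h2 := congrArg Fin.val h1
    rw [vadd_val, vadd_val, Nat.xor_comm v.val] at h2
    exact Nat.xor_right_injective h2
  have hu2 := mul_mem hu hu
  have h4 : (u * u) * (u * u) = 1 := by
    refine Equiv.ext fun x => ?_
    have hd := hfixv _ (orthE_diff hR hu2 x)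
    simp only [Equiv.Perm.mul_apply] at hd ⊢
    rw [hg.add, hg.add] at hd
    refine Fin.ext ?_
    have h2 := congrArg Fin.val hd
    rw [vadd_val, vadd_val, Nat.xor_comm x.val] at h2
    exact Nat.xor_right_injective h2
  refine inv u hu hE (inv _ hu2 (fun v hv => ?_) h4)
  rw [Equiv.Perm.mul_apply, hfixv v hv, vadd_self]
  exact Or.inl rfl

end stab

end CfsgLib.LargeFischer58
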