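import Cfsg.Agent.LargeFischer58.Basic
import Cfsg.Agent.M24Module.Basic

/-!
Large Fischer type: the points of the plane group `A/E`.

The conjugates of the image of `z` in the image of `A` are the images of `ab * cx` for the 21 points
`x` other than `a`, `b`, `c`; they are permuted two-transitively; the duads with a given end in the
tetrad `abce` lie in `Q` exactly when the other end is in the tetrad.
-/

set_option autoImplicit false
set_option linter.unusedSimpArgs false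
set_option maxRecDepth 100000

namespace CfsgLib.LargeFischer58

open Cfsg CfsgLib.LargeFischer85 CfsgLib.LargeFischer28 CfsgLib.LargeFischer45

variable {G : Type*} [Group G] [Finite G] {z : G} {Q : Subgroup ↥(CG z)} [Q.Normal]

namespace Cfg

variable (C : Cfg z Q)

/-- The value of a duad on different pairs. -/
theorem d_ne {p q r s : GolayPt} (hpq : p ≠ q) (h : ¬ (r = p ∧ s = q) ∧ ¬ (r = q ∧ s = p)) :
    C.d p q ≠ C.d r s := fun e => by
  have he := C.duads.inj p q r s hpq e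
  have hp : p = r ∨ p = s := by
    have : p ∈ ({r, s} : Finset GolayPt) := he ▸ Finset.mem_insert_self p {q}
    simpa using this
  have hq : q = r ∨ q = s := by
    have : q ∈ ({r, s} : Finset GolayPt) := he ▸ Finset.mem_insert_of_mem (Finset.mem_singleton_self q)
    simpa using this
  rcases hp with hp | hp <;> rcases hq with hq | hq
  · exact hpq (hp.trans hq.symm)
  · exact h.1 ⟨hp.symm, hq.symm⟩
  · exact h.2 ⟨hq.symm, hp.symm⟩
  · exact hpq (hp.trans hq.symm)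

/-- A member of `N(A) ∩ C(E)` inducing a given permutation fixing `a`, `b`, `c`. -/
theorem lift_fix {σ : Equiv.Perm GolayPt} (hσ : σ ∈ Cfsg.M24) (ha : σ C.a = C.a) (hb : σ C.b = C.b)
    (hc : σ C.c = C.c) :
    ∃ m : G, m ∈ Subgroup.normalizer (C.AG : Set G) ∧ m ∈ C.CE ∧
      (∀ p q, p ≠ q → m * C.d p q * m⁻¹ = C.d (σ p) (σ q)) ∧
      ∀ x, x ≠ C.c → m * C.zp x * m⁻¹ = C.zp (σ x) := by
  obtain ⟨m, hm, hd⟩ := C.duads.lift σ hσ
  refine ⟨m, hm, Subgroup.mem_centralizer_iff.2 ?_, hd, fun x hx => ?_⟩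
  · intro t ht
    have hfix : m * t * m⁻¹ = t := by
      rcases C.mem_E_iff.1 ht with rfl | rfl | rfl | rfl
      · simp
      · rw [hd _ _ C.hab, ha, hb]
      · rw [hd _ _ C.hbc, hb, hc]
      · rw [hd _ _ C.hac, ha, hc]
    exact (mul_inv_eq_iff_eq_mul.1 hfix).symm
  · rw [zp, zp, ← conj_mul, hd _ _ C.hab, hd _ _ (Ne.symm hx), ha, hb, hc]

/-- The member of the image of `A` over a point. -/
def pt (x : GolayPt) (hx : x ≠ C.c) : C.X := C.proj ⟨C.zp x, C.AG_le_CE (C.zp_mem hx)⟩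

theorem pt_conj {x : GolayPt} (hc : x ≠ C.c) {σ : Equiv.Perm GolayPt}
    {m : G} (hmC : m ∈ C.CE) (hm : ∀ x, x ≠ C.c → m * C.zp x * m⁻¹ = C.zp (σ x))
    (hσc : σ x ≠ C.c) : C.proj ⟨m, hmC⟩ * C.pt x hc * (C.proj ⟨m, hmC⟩)⁻¹ = C.pt (σ x) hσc := by
  rw [pt, pt, ← map_inv, ← map_mul, ← map_mul]
  exact congrArg C.proj (Subtype.ext (hm x hc))

theorem pt_mem_pts {x : GolayPt} (ha : x ≠ C.a) (hb : x ≠ C.b) (hc : x ≠ C.c) :
    C.pt x hc ∈ pts C.base C.Ab := by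
  have hinj : ∀ y, y ≠ C.a → y ≠ C.b → y ≠ C.c → Function.Injective ![C.a, C.b, C.c, y] := by
    intro y h1 h2 h3
    intro i j hij
    fin_cases i <;> fin_cases j <;>
      simp_all [C.hab, C.hab.symm, C.hac, C.hac.symm, C.hbc, C.hbc.symm, eq_comm]
  obtain ⟨σ, hσ, hf⟩ := M24Module.exists_perm (k := 4) (by norm_num) ![C.a, C.b, C.c, C.e]
    ![C.a, C.b, C.c, x] (hinj C.e C.hae.symm C.hbe.symm C.hce.symm) (hinj x ha hb hc)
  obtain ⟨m, -, hmC, -, hmz⟩ := C.lift_fix hσ (hf 0) (hf 1) (hf 2)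
  refine ⟨isConj_iff.2 ⟨C.proj ⟨m, hmC⟩, ?_⟩,
    ⟨⟨C.zp x, C.AG_le_CE (C.zp_mem hc)⟩, C.zp_mem hc, rfl⟩⟩
  have he : σ C.e = x := hf 3
  have h := C.pt_conj C.hce.symm hmC hmz (he.symm ▸ hc)
  simp only [pt] at h ⊢
  convert h using 3
  · rw [base]; congr 2; exact C.zp_e.symm
  · exact congrArg C.zp he.symm

/-- The translates of a conjugate of `z` by `E`. -/
theorem eq_zp {s : G} (hs : s ∈ C.AG) (hz : IsConj z s) (h1 : Other z (s * C.d C.a C.b))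
    (h2 : Other z (s * C.d C.b C.c)) :
    ∃ x, x ≠ C.a ∧ x ≠ C.b ∧ x ≠ C.c ∧ C.zp x = s := by
  have hab := C.duads.mem _ _ C.hab
  obtain ⟨p, q, hpq, hd⟩ := C.duads.surj _ (mul_mem hs hab) h1
  have hsd : s = C.d C.a C.b * C.d p q := by
    rw [hd, C.AG_comm hs hab, ← mul_assoc, C.AG_sq hab, one_mul]
  have hnO : ¬ Other z s := fun h => h.2 hz
  have hne1 : s ≠ 1 := fun h => C.facts.loc.one_ne (h ▸ hz)
  have disj : p ≠ C.a ∧ p ≠ C.b ∧ q ≠ C.a ∧ q ≠ C.b := by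
    have aux : ∀ u v, u ≠ v → C.d C.a C.b * C.d u v = s → u ≠ C.a ∧ u ≠ C.b := by
      intro u v huv he
      constructor
      · rintro rfl
        by_cases hvb : v = C.b
        · subst hvb; exact hne1 (he.symm.trans (C.AG_sq hab))
        · refine hnO ?_
          rw [← he, C.duads.symm C.a C.b, C.duads.tri _ _ _ C.hab.symm huv (Ne.symm hvb)]
          exact C.duads.other _ _ (Ne.symm hvb)
      · rintro rfl
        by_cases hva : v = C.a
        · subst hva; exact hne1 (he.symm.trans (by rw [C.duads.symm C.b C.a]; exact C.AG_sq hab))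
        · refine hnO ?_
          rw [← he, C.duads.tri _ _ _ C.hab huv (Ne.symm hva)]
          exact C.duads.other _ _ (Ne.symm hva)
    exact ⟨(aux p q hpq hsd.symm).1, (aux p q hpq hsd.symm).2,
      (aux q p hpq.symm (C.duads.symm q p ▸ hsd.symm)).1,
      (aux q p hpq.symm (C.duads.symm q p ▸ hsd.symm)).2⟩
  obtain ⟨hpa, hpb, hqa, hqb⟩ := disj
  have e : s * C.d C.b C.c = C.d C.a C.c * C.d p q := by
    rw [hsd, mul_assoc, C.AG_comm (C.duads.mem _ _ hpq) (C.duads.mem _ _ C.hbc), ← mul_assoc,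
      C.ab_bc]
  have hc : p = C.c ∨ q = C.c := by
    by_contra hn
    push Not at hn
    rw [e] at h2
    exact h2.2 (C.duads.disj _ _ _ _ C.hac hpq (Ne.symm hpa) (Ne.symm hqa) (Ne.symm hn.1)
      (Ne.symm hn.2))
  rcases hc with rfl | rfl
  · exact ⟨q, hqa, hqb, hpq.symm, hsd.symm⟩
  · exact ⟨p, hpa, hpb, hpq, by rw [zp, C.duads.symm C.c p, hsd]⟩

theorem zp_mul_ab {x : GolayPt} (hc : x ≠ C.c) : C.zp x * C.d C.a C.b = C.d C.c x := by
  rw [C.AG_comm (C.zp_mem hc) (C.duads.mem _ _ C.hab), C.ab_mul_zp]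

theorem zp_mul_bc {x : GolayPt} (ha : x ≠ C.a) (hc : x ≠ C.c) :
    C.zp x * C.d C.b C.c = C.d C.a x := by
  rw [C.AG_comm (C.zp_mem hc) (C.duads.mem _ _ C.hbc), C.bc_mul_zp ha hc]

theorem zp_mul_ac {x : GolayPt} (hb : x ≠ C.b) (hc : x ≠ C.c) :
    C.zp x * C.d C.a C.c = C.d C.b x := by
  rw [C.AG_comm (C.zp_mem hc) (C.duads.mem _ _ C.hac), C.ac_mul_zp hb hc]

/-- The conjugates of `z` under `C(E)` that lie in `A`. -/
theorem conj_mem_pts {g : G} (hgC : g ∈ C.CE) (hA : g * z * g⁻¹ ∈ C.AG) :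
    ∃ x, x ≠ C.a ∧ x ≠ C.b ∧ x ≠ C.c ∧ g * z * g⁻¹ = C.zp x := by
  have hmv : ∀ t ∈ C.E, Other z (z * t) → Other z (g * z * g⁻¹ * t) := by
    intro t ht ho
    have hc : g * t = t * g := (Subgroup.mem_centralizer_iff.1 hgC t ht).symm
    have : g * z * g⁻¹ * t = g * (z * t) * g⁻¹ := by
      rw [← conj_mul, hc, mul_inv_cancel_right]
    rw [this]
    exact (other_conj g).2 ho
  have h1 : Other z (z * C.d C.a C.b) := by
    have e := C.zp_mul_ab C.hce.symm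
    rw [C.zp_e] at e
    exact e ▸ C.duads.other _ _ C.hce
  have h2 : Other z (z * C.d C.b C.c) := by
    have e := C.zp_mul_bc C.hae.symm C.hce.symm
    rw [C.zp_e] at e
    exact e ▸ C.duads.other _ _ C.hae
  obtain ⟨x, ha, hb, hc, hx⟩ := C.eq_zp hA (isConj_iff.2 ⟨g, rfl⟩)
    (hmv _ C.ab_mem_E h1) (hmv _ C.bc_mem_E h2)
  exact ⟨x, ha, hb, hc, hx.symm⟩

theorem pts_eq : pts C.base C.Ab =
    {y | ∃ (x : GolayPt) (hc : x ≠ C.c), x ≠ C.a ∧ x ≠ C.b ∧ y = C.pt x hc} := by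
  refine Set.ext fun y => ⟨?_, ?_⟩
  · rintro ⟨hy, s, hs, rfl⟩
    obtain ⟨g, hg⟩ := isConj_iff.1 (show IsConj C.base (C.proj s) from hy)
    obtain ⟨⟨g, hgC⟩, rfl⟩ := QuotientGroup.mk'_surjective (C.E.subgroupOf C.CE) g
    set s' : G := g * z * g⁻¹ with hs'
    have hgs : C.proj ⟨s', mul_mem (mul_mem hgC (C.AG_le_CE C.z_mem_AG)) (inv_mem hgC)⟩ =
        C.proj s := by
      rw [← hg, base, proj, ← map_inv, ← map_mul, ← map_mul]; rfl
    have hE := C.proj_eq_iff.1 hgs.symm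
    have hsA : (s : G) ∈ C.AG := hs
    have hs'A : s' ∈ C.AG := by
      have := mul_mem hsA (C.E_le_AG hE)
      simpa using this
    obtain ⟨x, ha, hb, hc, hx⟩ := C.conj_mem_pts hgC hs'A
    refine ⟨x, hc, ha, hb, ?_⟩
    rw [← hgs, pt]
    exact congrArg C.proj (Subtype.ext hx)
  · rintro ⟨x, hc, ha, hb, rfl⟩
    exact C.pt_mem_pts ha hb hc

theorem pt_inj {x y : GolayPt} (hx : x ≠ C.a ∧ x ≠ C.b) (hxc : x ≠ C.c) (hy : y ≠ C.a ∧ y ≠ C.b)
    (hyc : y ≠ C.c) (h : C.pt x hxc = C.pt y hyc) : x = y := by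
  have hA := C.zp_mem hxc
  have hE := C.proj_eq_iff.1 h
  simp only at hE
  set t := (C.zp x)⁻¹ * C.zp y with ht
  have hyx : C.zp y = C.zp x * t := by rw [ht, mul_inv_cancel_left]
  have hno : ∀ p q, p ≠ q → C.zp y ≠ C.d p q := fun p q hpq e =>
    (C.duads.other p q hpq).2 (e ▸ C.isConj_zp hy.1 hy.2 hyc)
  rcases C.mem_E_iff.1 hE with e | e | e | e <;> rw [e] at hyx
  · rw [mul_one, zp, zp] at hyx
    have := C.duads.inj _ _ _ _ (Ne.symm hyc) (mul_left_cancel hyx)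
    have hy' : y ∈ ({C.c, x} : Finset GolayPt) :=
      this ▸ Finset.mem_insert_of_mem (Finset.mem_singleton_self y)
    simp only [Finset.mem_insert, Finset.mem_singleton] at hy'
    exact (hy'.resolve_left hyc).symm
  · exact absurd (hyx.trans (C.zp_mul_ab hxc)) (hno _ _ (Ne.symm hxc))
  · exact absurd (hyx.trans (C.zp_mul_bc hx.1 hxc)) (hno _ _ (Ne.symm hx.1))
  · exact absurd (hyx.trans (C.zp_mul_ac hx.2 hxc)) (hno _ _ (Ne.symm hx.2))

theorem card_pts : (pts C.base C.Ab).ncard = 21 := by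
  classical
  let S : Finset GolayPt := ({C.a, C.b, C.c} : Finset GolayPt)ᶜ
  have hS : S.card = 21 := by
    rw [Finset.card_compl, show Fintype.card GolayPt = 24 from rfl,
      Finset.card_eq_three.2 ⟨C.a, C.b, C.c, C.hab, C.hac, C.hbc, rfl⟩]
  rw [← hS, C.pts_eq, ← Set.ncard_coe_finset]
  have hmem : ∀ {x}, x ∈ S → x ≠ C.a ∧ x ≠ C.b ∧ x ≠ C.c := fun {x} hx => by
    simpa [S] using hx
  refine Set.ncard_congr' (Equiv.ofBijective
    (fun x : ↥(S : Set GolayPt) => (⟨C.pt x.1 (hmem x.2).2.2,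
      ⟨x.1, (hmem x.2).2.2, (hmem x.2).1, (hmem x.2).2.1, rfl⟩⟩ :
      ↥{y | ∃ (x : GolayPt) (hc : x ≠ C.c), x ≠ C.a ∧ x ≠ C.b ∧ y = C.pt x hc})) ⟨?_, ?_⟩).symm
  · rintro ⟨x, hx⟩ ⟨y, hy⟩ e
    exact Subtype.ext (C.pt_inj ⟨(hmem hx).1, (hmem hx).2.1⟩ (hmem hx).2.2
      ⟨(hmem hy).1, (hmem hy).2.1⟩ (hmem hy).2.2
      (congrArg Subtype.val e))
  · rintro ⟨_, x, hc, ha, hb, rfl⟩
    exact ⟨⟨x, by simp [S, ha, hb, hc]⟩, rfl⟩

theorem two_trans : ∀ x ∈ pts C.base C.Ab, ∀ y ∈ pts C.base C.Ab, x ≠ y →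
    ∀ w ∈ pts C.base C.Ab, w ≠ C.base →
      ∃ g ∈ Subgroup.normalizer (C.Ab : Set C.X), g * x * g⁻¹ = C.base ∧ g * y * g⁻¹ = w := by
  intro x hx y hy hxy w hw hwz
  rw [C.pts_eq] at hx hy hw
  obtain ⟨p, hpc, hpa, hpb, rfl⟩ := hx
  obtain ⟨q, hqc, hqa, hqb, rfl⟩ := hy
  obtain ⟨r, hrc, hra, hrb, rfl⟩ := hw
  have hpq : p ≠ q := fun e => hxy (by subst e; rfl)
  have hbase : C.base = C.pt C.e C.hce.symm :=
    congrArg C.proj (Subtype.ext C.zp_e.symm)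
  have hre : r ≠ C.e := fun e => hwz (by subst e; exact hbase.symm)
  have hinj : ∀ u v, u ≠ C.a → u ≠ C.b → u ≠ C.c → v ≠ C.a → v ≠ C.b → v ≠ C.c → u ≠ v →
      Function.Injective ![C.a, C.b, C.c, u, v] := by
    intro u v h1 h2 h3 h4 h5 h6 h7 i j hij
    fin_cases i <;> fin_cases j <;>
      simp_all [C.hab, C.hab.symm, C.hac, C.hac.symm, C.hbc, C.hbc.symm, eq_comm]
  obtain ⟨σ, hσ, hf⟩ := M24Module.exists_perm (k := 5) le_rfl ![C.a, C.b, C.c, p, q]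
    ![C.a, C.b, C.c, C.e, r] (hinj p q hpa hpb hpc hqa hqb hqc hpq)
    (hinj C.e r C.hae.symm C.hbe.symm C.hce.symm hra hrb hrc (Ne.symm hre))
  obtain ⟨m, hmN, hmC, -, hmz⟩ := C.lift_fix hσ (hf 0) (hf 1) (hf 2)
  have hp : σ p = C.e := hf 3
  have hq : σ q = r := hf 4
  have hconj : ∀ u : ↥C.CE, u.1 ∈ C.AG ↔ m * u.1 * m⁻¹ ∈ C.AG :=
    fun u => Subgroup.mem_normalizer_iff.1 hmN u
  refine ⟨C.proj ⟨m, hmC⟩, Subgroup.mem_normalizer_iff.2 fun v => ⟨?_, ?_⟩, ?_, ?_⟩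
  · rintro ⟨u, hu, rfl⟩
    refine ⟨⟨m, hmC⟩ * u * ⟨m, hmC⟩⁻¹, (hconj u).1 hu, ?_⟩
    simp only [map_mul, map_inv]
  · rintro ⟨u, hu, hu'⟩
    set w : ↥C.CE := (⟨m, hmC⟩ : ↥C.CE)⁻¹ * u * ⟨m, hmC⟩ with hw
    refine ⟨w, Subgroup.mem_subgroupOf.2 ((hconj w).2 ?_), ?_⟩
    · simpa [hw, mul_assoc] using (show (u : G) ∈ C.AG from hu)
    · simp only [hw, map_mul, map_inv, hu']
      group
  · rw [C.pt_conj hpc hmC hmz (hp.symm ▸ C.hce.symm), hbase]
    simp only [hp]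
  · rw [C.pt_conj hqc hmC hmz (hq.symm ▸ hrc)]
    simp only [hq]

theorem dQ_trans {p q r : GolayPt} (hpq : p ≠ q) (hqr : q ≠ r) (hpr : p ≠ r)
    (h1 : C.d p q ∈ C.QG) (h2 : C.d q r ∈ C.QG) : C.d p r ∈ C.QG :=
  C.duads.tri p q r hpq hqr hpr ▸ mul_mem h1 h2

theorem dce_mem_QG : C.d C.c C.e ∈ C.QG := by
  have h : C.d C.a C.b * z = C.d C.c C.e := by
    refine (congrArg (C.d C.a C.b * ·) C.zeq.symm).trans ?_
    rw [← mul_assoc, C.AG_sq (C.duads.mem _ _ C.hab), one_mul]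
  exact h ▸ mul_mem C.ab_mem_QG C.facts.loc.setting.z_mem

/-- The tetrad. -/
def tet : Finset GolayPt := {C.a, C.b, C.c, C.e}

theorem mem_tet {x : GolayPt} : x ∈ C.tet ↔ x = C.a ∨ x = C.b ∨ x = C.c ∨ x = C.e := by
  simp [tet]

theorem tet_mem_QG {p q : GolayPt} (hp : p ∈ C.tet) (hq : q ∈ C.tet) (hpq : p ≠ q) :
    C.d p q ∈ C.QG := by
  have h1 := C.ab_mem_QG
  have h2 := C.bc_mem_QG
  have h3 := C.dce_mem_QG
  have h4 := C.dQ_trans C.hab C.hbc C.hac h1 h2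
  have h5 := C.dQ_trans C.hbc C.hce C.hbe h2 h3
  have h6 := C.dQ_trans C.hac C.hce C.hae h4 h3
  rw [mem_tet] at hp hq
  rcases hp with rfl | rfl | rfl | rfl <;> rcases hq with rfl | rfl | rfl | rfl <;>
    first | exact absurd rfl hpq | assumption | (rw [C.duads.symm]; assumption)

theorem tetrad_iff {p q : GolayPt} (hp : p ∈ C.tet) (hpq : p ≠ q) :
    C.d p q ∈ C.QG ↔ q ∈ C.tet := by
  classical
  refine ⟨fun h => ?_, fun hq => C.tet_mem_QG hp hq hpq⟩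
  by_contra hq
  obtain ⟨hqa, hqb, hqc, hqe⟩ : q ≠ C.a ∧ q ≠ C.b ∧ q ≠ C.c ∧ q ≠ C.e := by
    simpa [mem_tet, not_or] using hq
  have haq : C.d C.a q ∈ C.QG := by
    by_cases hpa : p = C.a
    · exact hpa ▸ h
    · exact C.dQ_trans (Ne.symm hpa) hpq (Ne.symm hqa)
        (C.tet_mem_QG (by simp [mem_tet]) hp (Ne.symm hpa)) h
  have hbq : C.d C.b q ∈ C.QG := C.dQ_trans C.hab.symm (Ne.symm hqa) (Ne.symm hqb)
    (C.duads.symm C.a C.b ▸ C.ab_mem_QG) haq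
  have hw : {x | x ∈ C.AG ∧ x ∈ C.QG ∧ Other z x ∧ Other z (x * C.d C.a C.b)}.ncard = 4 :=
    C.facts.loc.partners _ (C.duads.mem _ _ C.hab) C.ab_mem_QG (C.duads.other _ _ C.hab)
  let l : List G := [C.d C.a C.c, C.d C.b C.c, C.d C.a C.e, C.d C.b C.e, C.d C.a q]
  have hsub : ∀ u v, (u = C.a ∨ u = C.b) → v ≠ C.a → v ≠ C.b → C.d u v ∈ C.QG →
      C.d u v ∈ {x | x ∈ C.AG ∧ x ∈ C.QG ∧ Other z x ∧ Other z (x * C.d C.a C.b)} := by
    intro u v hu hva hvb huv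
    have hne : u ≠ v := by rcases hu with rfl | rfl <;> exact Ne.symm ‹_›
    refine ⟨C.duads.mem _ _ hne, huv, C.duads.other _ _ hne, ?_⟩
    rcases hu with rfl | rfl
    · rw [C.duads.symm C.a v, C.duads.tri _ _ _ hva C.hab hvb]
      exact C.duads.other _ _ hvb
    · rw [C.duads.symm C.b v, C.duads.symm C.a C.b, C.duads.tri _ _ _ hvb C.hab.symm hva]
      exact C.duads.other _ _ hva
  have hnd : l.Nodup := by
    simp only [l, List.nodup_cons, List.mem_cons, List.not_mem_nil, not_or, or_false,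
      List.nodup_nil, and_true, not_false_iff]
    refine ⟨⟨?_, ?_, ?_, ?_⟩, ⟨?_, ?_, ?_⟩, ⟨?_, ?_⟩, ?_⟩ <;>
      refine C.d_ne ?_ ⟨?_, ?_⟩ <;>
      simp [C.hab, C.hab.symm, C.hac, C.hac.symm, C.hbc, C.hbc.symm, C.hae, C.hae.symm, C.hbe,
        C.hbe.symm, C.hce, C.hce.symm, hqa, hqb, hqc, hqe, Ne.symm hqa, Ne.symm hqb, Ne.symm hqc,
        Ne.symm hqe]
  have hle : (l.toFinset : Set G) ⊆
      {x | x ∈ C.AG ∧ x ∈ C.QG ∧ Other z x ∧ Other z (x * C.d C.a C.b)} := by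
    intro x hx
    simp only [l, List.coe_toFinset, List.mem_cons, List.not_mem_nil, or_false,
      Set.mem_ofPred_eq] at hx
    rcases hx with rfl | rfl | rfl | rfl | rfl
    · exact hsub _ _ (Or.inl rfl) C.hac.symm C.hbc.symm (C.tet_mem_QG (by simp [mem_tet]) (by simp [mem_tet]) C.hac)
    · exact hsub _ _ (Or.inr rfl) C.hac.symm C.hbc.symm C.bc_mem_QG
    · exact hsub _ _ (Or.inl rfl) C.hae.symm C.hbe.symm (C.tet_mem_QG (by simp [mem_tet]) (by simp [mem_tet]) C.hae)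
    · exact hsub _ _ (Or.inr rfl) C.hae.symm C.hbe.symm (C.tet_mem_QG (by simp [mem_tet]) (by simp [mem_tet]) C.hbe)
    · exact hsub _ _ (Or.inl rfl) hqa hqb haq
  have := Set.ncard_le_ncard hle (Set.toFinite _)
  rw [Set.ncard_coe_finset, List.toFinset_card_of_nodup hnd] at this
  simp only [l, List.length_cons, List.length_nil] at this
  omega

theorem zp_mem_QG_iff {x : GolayPt} (ha : x ≠ C.a) (hb : x ≠ C.b) (hc : x ≠ C.c) :
    C.zp x ∈ C.QG ↔ x = C.e := by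
  rw [zp, Subgroup.mul_mem_cancel_left _ C.ab_mem_QG,
    C.tetrad_iff (by simp [mem_tet]) (Ne.symm hc)]
  simp [mem_tet, ha, hb, hc]

theorem other : ∃ j ∈ C.Ab, j ≠ 1 ∧ j ∉ conjugatesOf C.base := by
  classical
  obtain ⟨x, hx⟩ : ∃ x, x ∉ C.tet := by
    by_contra hn
    push Not at hn
    have := Finset.card_le_card (fun x _ => hn x : (Finset.univ : Finset GolayPt) ⊆ C.tet)
    have h4 : C.tet.card ≤ 4 := by
      refine (Finset.card_insert_le _ _).trans ?_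
      have := (Finset.card_insert_le C.b ({C.c, C.e} : Finset GolayPt))
      have := Finset.card_le_two (a := C.c) (b := C.e)
      omega
    rw [Finset.card_univ, show Fintype.card GolayPt = 24 from rfl] at this
    omega
  obtain ⟨hxa, hxb, hxc, hxe⟩ : x ≠ C.a ∧ x ≠ C.b ∧ x ≠ C.c ∧ x ≠ C.e := by
    simpa [mem_tet, not_or] using hx
  have hj : C.d C.e x ∈ C.AG := C.duads.mem _ _ (Ne.symm hxe)
  have hm : C.proj ⟨_, C.AG_le_CE hj⟩ ∈ C.Ab := ⟨⟨_, C.AG_le_CE hj⟩, hj, rfl⟩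
  refine ⟨_, hm, fun h1 => ?_, fun hc => ?_⟩
  · rw [proj, QuotientGroup.mk'_apply, QuotientGroup.eq_one_iff, Subgroup.mem_subgroupOf] at h1
    rcases C.mem_E_iff.1 h1 with e | e | e | e
    · exact (C.duads.other _ _ (Ne.symm hxe)).1 e
    all_goals
      refine C.d_ne (Ne.symm hxe) ⟨?_, ?_⟩ e <;>
        simp [C.hae, C.hae.symm, C.hbe, C.hbe.symm, C.hce, C.hce.symm, Ne.symm hxa, Ne.symm hxb,
          Ne.symm hxc]
  · have hp : C.proj ⟨_, C.AG_le_CE hj⟩ ∈ pts C.base C.Ab := ⟨hc, hm⟩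
    rw [C.pts_eq] at hp
    obtain ⟨u, huc, hua, hub, hu⟩ := hp
    have hE := C.proj_eq_iff.1 hu.symm
    set t := (C.zp u)⁻¹ * C.d C.e x with ht
    have hyx : C.d C.e x = C.zp u * t := by rw [ht, mul_inv_cancel_left]
    rcases C.mem_E_iff.1 hE with e | e | e | e <;> rw [e] at hyx
    · rw [mul_one] at hyx
      exact (C.duads.other _ _ (Ne.symm hxe)).2 (hyx ▸ C.isConj_zp hua hub huc)
    · rw [C.zp_mul_ab huc] at hyx
      refine C.d_ne (Ne.symm hxe) ⟨?_, ?_⟩ hyx <;> simp [C.hce, Ne.symm hxc]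
    · rw [C.zp_mul_bc hua huc] at hyx
      refine C.d_ne (Ne.symm hxe) ⟨?_, ?_⟩ hyx <;> simp [C.hae, Ne.symm hxa]
    · rw [C.zp_mul_ac hub huc] at hyx
      refine C.d_ne (Ne.symm hxe) ⟨?_, ?_⟩ hyx <;> simp [C.hbe, Ne.symm hxb]

/-- `mem_pts_iff` with explicit representatives. -/
theorem mem_pts_iff {y : C.X} : y ∈ pts C.base C.Ab ↔
    ∃ x, ∃ h : C.zp x ∈ C.CE, x ≠ C.a ∧ x ≠ C.b ∧ x ≠ C.c ∧ y = C.proj ⟨C.zp x, h⟩ := by
  rw [C.pts_eq]
  exact ⟨fun ⟨x, hc, ha, hb, e⟩ => ⟨x, C.AG_le_CE (C.zp_mem hc), ha, hb, hc, e⟩,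
    fun ⟨x, _, ha, hb, hc, e⟩ => ⟨x, hc, ha, hb, e⟩⟩

theorem adj_trans {p q r : GolayPt} (hpq : p ≠ q) (hqr : q ≠ r) (hpr : p ≠ r)
    (h1 : C.d p q ∈ C.QG) (h2 : C.d q r ∈ C.QG) : C.d p r ∈ C.QG :=
  C.dQ_trans hpq hqr hpr h1 h2

theorem adj_c {y : GolayPt} (hy : y ≠ C.c) :
    C.d C.c y ∈ C.QG ↔ y = C.a ∨ y = C.b ∨ y = C.e := by
  rw [C.tetrad_iff (by simp [mem_tet]) hy.symm, mem_tet]
  simp [hy]

/-- The points joined to `x`. -/
noncomputable def adj (x : GolayPt) : Finset GolayPt :=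
  (Set.toFinite {y | y ≠ x ∧ C.d x y ∈ C.QG}).toFinset

theorem mem_adj {x y : GolayPt} : y ∈ C.adj x ↔ y ≠ x ∧ C.d x y ∈ C.QG := by simp [adj]

theorem adj_card_cases (x : GolayPt) : (C.adj x).card = 0 ∨ (C.adj x).card = 3 := by
  classical
  rcases (C.adj x).eq_empty_or_nonempty with h | ⟨y, hy⟩
  · exact Or.inl (by rw [h]; rfl)
  refine Or.inr ?_
  obtain ⟨hyx, hQ⟩ := C.mem_adj.1 hy
  have hw : {u | u ∈ C.AG ∧ u ∈ C.QG ∧ Other z u ∧ Other z (u * C.d x y)}.ncard = 4 :=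
    C.facts.loc.partners _ (C.duads.mem _ _ hyx.symm) hQ (C.duads.other _ _ hyx.symm)
  have hset : {u | u ∈ C.AG ∧ u ∈ C.QG ∧ Other z u ∧ Other z (u * C.d x y)} =
      (((C.adj x).erase y).image (C.d x) ∪ ((C.adj x).erase y).image (C.d y) : Finset G) := by
    ext u
    simp only [Finset.coe_union, Finset.coe_image, Finset.coe_erase, Set.mem_union, Set.mem_image,
      Set.mem_diff, Finset.mem_coe, Set.mem_singleton_iff, C.mem_adj, Set.mem_ofPred_eq]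
    constructor
    · rintro ⟨huA, huQ, huo, huw⟩
      obtain ⟨p, q, hpq, rfl⟩ := C.duads.surj u huA huo
      have hmeet : p = x ∨ p = y ∨ q = x ∨ q = y := by
        by_contra hn
        push Not at hn
        exact huw.2 (C.duads.disj _ _ _ _ hpq hyx.symm hn.1 hn.2.1 hn.2.2.1 hn.2.2.2)
      have hne1 : C.d p q ≠ C.d x y := fun e => huw.1 (by
        rw [e]; exact C.AG_sq (C.duads.mem _ _ hyx.symm))
      have hox : ∀ r, r ≠ x → C.d x r ≠ C.d x y → C.d x r ∈ C.QG →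
          ∃ r', ((r' ≠ x ∧ C.d x r' ∈ C.QG) ∧ ¬r' = y) ∧ C.d x r' = C.d x r := fun r h1 h2 h3 =>
        ⟨r, ⟨⟨h1, h3⟩, fun e => h2 (e ▸ rfl)⟩, rfl⟩
      have hoy : ∀ r, r ≠ y → C.d y r ≠ C.d x y → C.d y r ∈ C.QG →
          ∃ r', ((r' ≠ x ∧ C.d x r' ∈ C.QG) ∧ ¬r' = y) ∧ C.d y r' = C.d y r := fun r h1 h2 h3 => by
        have hrx : r ≠ x := fun e => h2 (by rw [e, C.duads.symm y x])
        exact ⟨r, ⟨⟨hrx, C.dQ_trans hyx.symm h1.symm hrx.symm hQ h3⟩, h1⟩, rfl⟩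
      rcases hmeet with rfl | rfl | rfl | rfl
      · exact Or.inl (hox q hpq.symm hne1 huQ)
      · exact Or.inr (hoy q hpq.symm hne1 huQ)
      · rw [C.duads.symm p] at hne1 huQ ⊢; exact Or.inl (hox p hpq hne1 huQ)
      · rw [C.duads.symm p] at hne1 huQ ⊢; exact Or.inr (hoy p hpq hne1 huQ)
    · rintro (⟨r, ⟨⟨hrx, hr⟩, hry⟩, rfl⟩ | ⟨r, ⟨⟨hrx, hr⟩, hry⟩, rfl⟩)
      · refine ⟨C.duads.mem _ _ (Ne.symm hrx), hr, C.duads.other _ _ (Ne.symm hrx), ?_⟩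
        rw [C.duads.symm x r, C.duads.tri _ _ _ hrx hyx.symm hry]
        exact C.duads.other _ _ hry
      · have h2 : C.d y r ∈ C.QG := C.dQ_trans hyx (Ne.symm hrx) (Ne.symm hry)
          (C.duads.symm x y ▸ hQ) hr
        refine ⟨C.duads.mem _ _ (Ne.symm hry), h2, C.duads.other _ _ (Ne.symm hry), ?_⟩
        rw [C.duads.symm y r, C.duads.symm x y, C.duads.tri _ _ _ hry hyx hrx]
        exact C.duads.other _ _ hrx
  have hmem : ∀ {r}, r ∈ (C.adj x).erase y → r ≠ x ∧ r ≠ y := fun {r} hr =>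
    ⟨(C.mem_adj.1 (Finset.mem_of_mem_erase hr)).1, Finset.ne_of_mem_erase hr⟩
  rw [hset, Set.ncard_coe_finset, Finset.card_union_of_disjoint, Finset.card_image_of_injOn,
    Finset.card_image_of_injOn, Finset.card_erase_of_mem hy] at hw
  · omega
  · intro r hr r' hr' e
    by_contra hne
    exact C.d_ne (hmem hr).2.symm
      ⟨fun h => hne h.2.symm, fun h => (hmem hr').2 h.2⟩ e
  · intro r hr r' hr' e
    by_contra hne
    exact C.d_ne (hmem hr).1.symm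
      ⟨fun h => hne h.2.symm, fun h => (hmem hr').1 h.2⟩ e
  · rw [Finset.disjoint_left]
    simp only [Finset.mem_image]
    rintro u ⟨r, hr, rfl⟩ ⟨r', hr', e⟩
    exact C.d_ne (hmem hr).1.symm ⟨fun h => hyx h.1, fun h => (hmem hr).2 h.1.symm⟩ e.symm

theorem adj_card (x : GolayPt) : {y | y ≠ x ∧ C.d x y ∈ C.QG}.ncard = 3 := by
  classical
  have h24 : Fintype.card GolayPt = 24 := rfl
  let P : Finset (GolayPt × GolayPt) :=
    Finset.univ.filter fun pq => pq.2 ∈ C.adj pq.1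
  let D : Finset G := sel C.AG fun u => u ∈ C.QG ∧ Other z u
  have hD : D.card = 36 := by rw [card_sel]; exact C.facts.loc.count
  have hmaps : (P : Set (GolayPt × GolayPt)).MapsTo (fun pq => C.d pq.1 pq.2) D := by
    rintro ⟨p, q⟩ hpq
    obtain ⟨hne, hQ⟩ := C.mem_adj.1 (Finset.mem_filter.1 hpq).2
    exact mem_sel.2 ⟨C.duads.mem _ _ hne.symm, hQ, C.duads.other _ _ hne.symm⟩
  have hP : P.card = 72 := by
    rw [Finset.card_eq_sum_card_fiberwise hmaps, Finset.sum_congr rfl (g := fun _ => 2) fun u hu => ?_,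
      Finset.sum_const, hD, smul_eq_mul]
    obtain ⟨huA, huQ, huo⟩ := mem_sel.1 hu
    obtain ⟨p, q, hpq, rfl⟩ := C.duads.surj u huA huo
    refine Finset.card_eq_two.2 ⟨(p, q), (q, p), fun e => hpq (congrArg Prod.fst e), ?_⟩
    ext ⟨r, s⟩
    simp only [P, Finset.mem_filter, Finset.mem_univ, true_and, C.mem_adj, Finset.mem_insert,
      Finset.mem_singleton, Prod.mk.injEq]
    constructor
    · rintro ⟨⟨hsr, -⟩, e⟩
      by_contra hn
      push Not at hn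
      refine C.d_ne hpq ⟨fun h => hn.1 h.1 h.2, fun h => hn.2 h.1 h.2⟩ e.symm
    · rintro (⟨rfl, rfl⟩ | ⟨rfl, rfl⟩)
      · exact ⟨⟨hpq.symm, huQ⟩, rfl⟩
      · exact ⟨⟨hpq, by rwa [C.duads.symm]⟩, C.duads.symm _ _⟩
  have hsum : ∑ p : GolayPt, (C.adj p).card = P.card := by
    have hmaps' : (P : Set (GolayPt × GolayPt)).MapsTo Prod.fst
        (Finset.univ : Finset GolayPt) := fun pq _ => Finset.mem_coe.2 (Finset.mem_univ _)
    rw [Finset.card_eq_sum_card_fiberwise hmaps']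
    refine Finset.sum_congr rfl fun p _ => ?_
    refine Finset.card_bij' (fun q _ => (p, q)) (fun pq _ => pq.2) ?_ ?_ ?_ ?_
    · intro q hq; simp [P, hq]
    · rintro ⟨r, q⟩ hq
      simp only [P, Finset.mem_filter, Finset.mem_univ, true_and] at hq
      exact hq.2 ▸ hq.1
    · intro q _; rfl
    · rintro ⟨r, q⟩ hq
      simp only [Finset.mem_filter] at hq
      exact Prod.ext hq.2.symm rfl
  have hset : {y | y ≠ x ∧ C.d x y ∈ C.QG}.ncard = (C.adj x).card :=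
    Set.ncard_eq_toFinset_card _ _
  rw [hset]
  refine (C.adj_card_cases x).resolve_left fun h0 => ?_
  have hlt : ∑ p : GolayPt, (C.adj p).card < ∑ _p : GolayPt, 3 :=
    Finset.sum_lt_sum (fun p _ => by rcases C.adj_card_cases p with h | h <;> omega)
      ⟨x, Finset.mem_univ _, by omega⟩
  rw [Finset.sum_const, Finset.card_univ, h24, hsum, hP] at hlt
  norm_num at hlt

end Cfg

end CfsgLib.LargeFischer58
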