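import Cfsg.Agent.LargeFischer58.Four
import Cfsg.Agent.LargeFischer58.GenBase
import Cfsg.Agent.LargeFischer58.Local
import Cfsg.Agent.LargeFischer58.Points

/-!
Large Fischer type, the configuration: the centraliser of the image of `z` in `C(E)/E`. It has order
`2 ^ 15 * 405`, contains a Sylow subgroup for the prime two, and lies in the group generated by the
class.
-/

set_option autoImplicit false
set_option maxRecDepth 100000

namespace CfsgLib.LargeFischer58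

open Cfsg CfsgLib.LargeFischer85 CfsgLib.LargeFischer28 CfsgLib.LargeFischer45

namespace Cfg

variable {G : Type*} [Group G] [Finite G] {z : G} {Q : Subgroup ↥(CG z)} [Q.Normal]
  (C : Cfg z Q)

/-- The centraliser of `z` in `C(E)`, inside `C(z)`. -/
abbrev genH : Subgroup ↥(CG z) := C.CE.subgroupOf (CG z)

/-- The map of the centraliser of `z` into `C(E)/E`. -/
def genHom : ↥C.genH →* C.X :=
  C.proj.comp
    { toFun := fun h => ⟨((h : ↥(CG z)) : G), h.2⟩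
      map_one' := rfl
      map_mul' := fun _ _ => rfl }

/-- The action of the centraliser of `z` on the frame. -/
def genAct : ↥C.genH →* Equiv.Perm W := (fhom C.act).comp C.genH.subtype

/-- The image of the centraliser of `E` in `Q`. -/
def genQb : Subgroup C.X := (Q.subgroupOf C.genH).map C.genHom

theorem genB_zz (C : Cfg z Q) : z * z = 1 := by
  rw [← pow_two, ← C.std.model.ord]; exact pow_orderOf_eq_one z

theorem genB_pr_inv (q : ↥Q) : C.pr q⁻¹ = C.pr q := by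
  have h3 : vadd (C.pr q) (C.pr q⁻¹) = 0 := by
    rw [← C.std.model.pr_mul, mul_inv_cancel]
    exact (C.std.model.pr_zero 1).2 (Or.inl rfl)
  refine Fin.ext ?_
  have h4 := congrArg Fin.val h3
  rw [vadd_val] at h4
  exact (Nat.xor_eq_zero_iff.1 h4).symm

theorem genB_zC_mem (C : Cfg z Q) : zC z ∈ Q := by
  have h : C.d C.a C.b * C.d C.c C.e ∈ C.QG := mul_mem C.ab_mem_QG C.dce_mem_QG
  obtain ⟨q, hq, e⟩ := h
  rw [show zC z = q from Subtype.ext (C.zeq.symm.trans e.symm)]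
  exact hq

theorem genB_z_mem_genH : zC z ∈ C.genH := C.AG_le_CE C.z_mem_AG

theorem genHom_eq_one_iff {h : ↥C.genH} : C.genHom h = 1 ↔ ((h : ↥(CG z)) : G) ∈ C.E :=
  C.proj_eq_one_iff

theorem genHom_z : C.genHom ⟨zC z, C.genB_z_mem_genH⟩ = C.base := rfl

theorem genHom_range : C.genHom.range = Subgroup.centralizer ({C.base} : Set C.X) := by
  ext y
  obtain ⟨g, rfl⟩ := C.proj_surj y
  rw [Subgroup.mem_centralizer_singleton_iff]
  constructor
  · rintro ⟨h, e⟩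
    rw [← e]
    show C.proj _ * C.proj _ = C.proj _ * C.proj _
    rw [← map_mul, ← map_mul]
    exact congrArg C.proj (Subtype.ext (Subgroup.mem_centralizer_singleton_iff.1 h.1.2))
  · intro h
    have h1 := C.comm_z g.2 ((C.proj_commute_iff (h := ⟨z, C.AG_le_CE C.z_mem_AG⟩)).1 h)
    exact ⟨⟨⟨g, Subgroup.mem_centralizer_singleton_iff.2 h1⟩, g.2⟩, rfl⟩

theorem genAct_range : C.genAct.range = stabE (fhom C.act).range := by
  ext u
  constructor
  · rintro ⟨h, rfl⟩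
    exact C.image_CE h.2
  · intro hu
    obtain ⟨h, e, hh⟩ := C.lift_stabE hu
    exact ⟨⟨h, hh⟩, e⟩

theorem card_genH : Nat.card ↥C.genH = 2048 * 25920 := by
  have hk : Nat.card ↥C.genAct.ker = 2048 := by
    let e : ↥C.genAct.ker ≃ {q : ↥Q // OrthE (C.pr q)} :=
      { toFun := fun h => ⟨⟨(h.1 : ↥(CG z)), (fhom_ker C.std.model _).1 h.2⟩,
          C.mem_CE_Q.1 h.1.2⟩
        invFun := fun q => ⟨⟨(q.1 : ↥(CG z)), C.mem_CE_Q.2 q.2⟩,
          (fhom_ker C.std.model _).2 q.1.2⟩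
        left_inv := fun _ => rfl
        right_inv := fun _ => rfl }
    rw [Nat.card_congr e, card_subset C.std.model, card_orthE]
  rw [Subgroup.card_eq_card_quotient_mul_card_subgroup C.genAct.ker, hk,
    Nat.card_congr (QuotientGroup.quotientKerEquivRange C.genAct).toEquiv, C.genAct_range,
    card_stabE C.range]

theorem card_cent_base :
    Nat.card (Subgroup.centralizer ({C.base} : Set C.X)) = 2 ^ 15 * 405 := by
  have hk : Nat.card ↥C.genHom.ker = 4 := by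
    let e : ↥C.genHom.ker ≃ ↥C.E :=
      { toFun := fun h => ⟨((h.1 : ↥(CG z)) : G), C.genHom_eq_one_iff.1 h.2⟩
        invFun := fun t => ⟨⟨⟨(t : G), C.QG_le_CG (C.E_le_QG t.2)⟩, C.E_le_CE t.2⟩,
          C.genHom_eq_one_iff.2 t.2⟩
        left_inv := fun _ => rfl
        right_inv := fun _ => rfl }
    rw [Nat.card_congr e, C.E_card]
  have h := C.card_genH
  rw [Subgroup.card_eq_card_quotient_mul_card_subgroup C.genHom.ker, hk,
    Nat.card_congr (QuotientGroup.quotientKerEquivRange C.genHom).toEquiv, C.genHom_range] at h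
  omega

theorem sylow : 2 ^ 15 ∣ Nat.card (Subgroup.centralizer ({C.base} : Set C.X)) := by
  rw [C.card_cent_base]
  exact dvd_mul_right _ _

theorem genQb_le : C.genQb ≤ Subgroup.centralizer ({C.base} : Set C.X) :=
  C.genHom_range ▸ Subgroup.map_le_range _ _

theorem base_mem_genQb : C.base ∈ C.genQb :=
  ⟨⟨zC z, C.genB_z_mem_genH⟩, C.genB_zC_mem, rfl⟩

theorem genB_mem_E_or {q : ↥Q} (h : InE (C.pr q)) :
    ((q : ↥(CG z)) : G) ∈ C.E ∨ ((q : ↥(CG z)) : G) * z ∈ C.E := by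
  obtain ⟨q1, p1, c1⟩ := C.q1
  obtain ⟨q2, p2, c2⟩ := C.q2
  have key : ∀ r : ↥Q, ((r : ↥(CG z)) : G) ∈ C.E → C.pr q = C.pr r →
      ((q : ↥(CG z)) : G) ∈ C.E ∨ ((q : ↥(CG z)) : G) * z ∈ C.E := by
    intro r hr hp
    rcases eq_or_of_pr C.std.model hp with e | e
    · exact Or.inl ((congrArg Subtype.val e).symm ▸ hr)
    · right
      have e' : ((q : ↥(CG z)) : G) = ((r : ↥(CG z)) : G) * z := congrArg Subtype.val e
      rw [e', mul_assoc, C.genB_zz, mul_one]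
      exact hr
  rcases h with h | h | h | h
  · exact key 1 (one_mem _) (h.trans ((C.std.model.pr_zero 1).2 (Or.inl rfl)).symm)
  · exact key q1 (c1.symm ▸ C.ab_mem_E) (h.trans p1.symm)
  · exact key q2 (c2.symm ▸ C.bc_mem_E) (h.trans p2.symm)
  · refine key (q1 * q2) ?_ (h.trans (by rw [C.std.model.pr_mul, p1, p2]))
    show ((q1 : ↥(CG z)) : G) * ((q2 : ↥(CG z)) : G) ∈ C.E
    rw [c1, c2, C.ab_bc]
    exact C.ac_mem_E

/-- An element of `C(E) ∩ C(z)` acting trivially on `C_Q(E)` modulo `E` lies in `E` or `Ez`. -/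
theorem genB_cent {h : ↥(CG z)} (hh : (h : G) ∈ C.CE)
    (hc : ∀ q : ↥Q, ((q : ↥(CG z)) : G) ∈ C.CE →
      (h : G) * ((q : ↥(CG z)) : G) * (h : G)⁻¹ * ((q : ↥(CG z)) : G)⁻¹ ∈ C.E) :
    (h : G) ∈ C.E ∨ (h : G) * z ∈ C.E := by
  have hM := C.std.model
  have h1 : fhom C.act h = 1 := by
    refine eq_one_of_mod_inE C.range.le (fun u hu h2 h1 => exists_mover C.range hu h2 h1)
      (C.image_CE hh) fun v hv => ?_
    obtain ⟨q, rfl⟩ := hM.pr_surj v
    obtain ⟨r, hr, hpr⟩ := act_pr' hM h q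
    have e : ((r * q⁻¹ : ↥Q) : ↥(CG z)) = h * q * h⁻¹ * (q : ↥(CG z))⁻¹ := by
      rw [Subgroup.coe_mul, InvMemClass.coe_inv, hr]
    obtain ⟨t, ht, hE, -⟩ := C.E_cases (hc q (C.mem_CE_Q.2 hv))
    rw [show t = r * q⁻¹ from Subtype.ext (Subtype.ext (by rw [ht, e]; rfl)), hM.pr_mul, hpr,
      C.genB_pr_inv, vadd_comm'] at hE
    exact hE
  have hQ : h ∈ Q := (fhom_ker hM h).1 h1
  refine C.genB_mem_E_or (q := ⟨h, hQ⟩) (inE_of_orth fun u hu => ?_)
  obtain ⟨q, rfl⟩ := hM.pr_surj u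
  rw [← comm_iff_orth hM]
  have h2 := hc q (C.mem_CE_Q.2 hu)
  have h3 : C.pr (⟨h, hQ⟩ * q * ⟨h, hQ⟩⁻¹ * q⁻¹) = 0 := by
    refine Fin.ext ?_
    rw [hM.pr_mul, hM.pr_mul, hM.pr_mul, C.genB_pr_inv, C.genB_pr_inv, vadd_val, vadd_val,
      vadd_val]
    simp [Nat.xor_comm]
  rcases (hM.pr_zero _).1 h3 with e | e
  · have e' : (h : G) * ((q : ↥(CG z)) : G) * (h : G)⁻¹ * ((q : ↥(CG z)) : G)⁻¹ = 1 := e
    rw [mul_inv_eq_one, mul_inv_eq_iff_eq_mul] at e'
    exact Subtype.ext e'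
  · refine absurd ?_ C.z_not_mem_E
    have e' : (h : G) * ((q : ↥(CG z)) : G) * (h : G)⁻¹ * ((q : ↥(CG z)) : G)⁻¹ = z := e
    rwa [e'] at h2

/-- Only the identity and the image of `z` centralise it and the image of `C_Q(E)`. -/
theorem eq_one_or_base {y : C.X} (hy : Commute y C.base) (hc : ∀ w ∈ C.genQb, Commute y w) :
    y = 1 ∨ y = C.base := by
  have hy' : y ∈ C.genHom.range := by
    rw [C.genHom_range, Subgroup.mem_centralizer_singleton_iff]
    exact hy.eq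
  obtain ⟨h, rfl⟩ := hy'
  rcases C.genB_cent (h := h.1) h.2 (fun q hq => C.proj_commute_iff.1
      (hc (C.genHom ⟨q, hq⟩) ⟨⟨q, hq⟩, q.2, rfl⟩)) with e | e
  · exact Or.inl (C.genHom_eq_one_iff.2 e)
  · right
    refine C.proj_eq_iff.2 ?_
    show ((h.1 : ↥(CG z)) : G)⁻¹ * z ∈ C.E
    have hz : ((h.1 : ↥(CG z)) : G) * z = z * ((h.1 : ↥(CG z)) : G) :=
      Subgroup.mem_centralizer_singleton_iff.1 h.1.2
    have := inv_mem e
    rwa [hz, mul_inv_rev, inv_eq_of_mul_eq_one_right C.genB_zz] at this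

theorem two : 2 ^ 15 ∣ Nat.card C.X ∧ ¬ 2 ^ 16 ∣ Nat.card C.X := by
  classical
  have : Fact (Nat.Prime 2) := ⟨Nat.prime_two⟩
  set Cz : Subgroup C.X := Subgroup.centralizer ({C.base} : Set C.X) with hCz
  refine ⟨C.sylow.trans (Subgroup.card_subgroup_dvd_card _), fun h16 => ?_⟩
  have hQb : IsPGroup 2 ↥(C.genQb.subgroupOf Cz) :=
    (((IsPGroup.of_card C.card_Q).comap_of_injective C.genH.subtype
      C.genH.subtype_injective).map C.genHom).comap_of_injective Cz.subtype Cz.subtype_injective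
  obtain ⟨n, hn⟩ := IsPGroup.iff_card.1 hQb
  have hn15 : n ≤ 15 := by
    have hd := (Subgroup.card_subgroup_dvd_card (C.genQb.subgroupOf Cz))
    rw [hn, C.card_cent_base] at hd
    exact (Nat.pow_dvd_pow_iff_le_right (by norm_num : 1 < 2)).1
      ((Nat.Coprime.pow_left n (by norm_num : Nat.Coprime 2 405)).dvd_of_dvd_mul_right hd)
  obtain ⟨K, hK, hQK⟩ := Sylow.exists_subgroup_card_pow_prime_le 2 C.sylow _ hn hn15
  set S : Subgroup C.X := K.map Cz.subtype with hSdef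
  have hS : Nat.card S = 2 ^ 15 := by
    rw [hSdef, ← Nat.card_congr (K.equivMapOfInjective Cz.subtype Cz.subtype_injective).toEquiv,
      hK]
  have hSC : S ≤ Cz := Subgroup.map_subtype_le K
  have hQS : C.genQb ≤ S := fun w hw => ⟨⟨w, C.genQb_le hw⟩, hQK hw, rfl⟩
  obtain ⟨P, hP, hSP⟩ := Sylow.exists_subgroup_card_pow_succ h16 hS
  have hnorm : (S.subgroupOf P).Normal := by
    refine Subgroup.normal_of_index_eq_two ?_
    have h := Subgroup.card_mul_index (S.subgroupOf P)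
    rw [Nat.card_congr (Subgroup.subgroupOfEquivOfLe hSP).toEquiv, hS, hP] at h
    omega
  obtain ⟨g, hg, hgC⟩ : ∃ g ∈ P, g ∉ Cz := by
    by_contra hne
    push Not at hne
    have hd := Subgroup.card_dvd_of_le (show P ≤ Cz from hne)
    rw [hP, C.card_cent_base] at hd
    norm_num at hd
  have hcomm : ∀ w ∈ C.genQb, Commute (g * C.base * g⁻¹) w := by
    intro w hw
    have hw' : g⁻¹ * w * g ∈ S := by
      have := hnorm.conj_mem (⟨w, hSP (hQS hw)⟩ : ↥P) (Subgroup.mem_subgroupOf.2 (hQS hw))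
        (⟨g, hg⟩⁻¹ : ↥P)
      simpa [Subgroup.mem_subgroupOf] using this
    have h1 : Commute C.base (g⁻¹ * w * g) :=
      (Subgroup.mem_centralizer_singleton_iff.1 (hSC hw')).symm
    have h2 := h1.map (MulAut.conj g).toMonoidHom
    simpa [MulAut.conj_apply, mul_assoc] using h2
  rcases C.eq_one_or_base (hcomm _ C.base_mem_genQb) hcomm with e | e
  · exact C.base_ne_one (conj_eq_one_iff.1 e)
  · exact hgC (Subgroup.mem_centralizer_singleton_iff.2 (mul_inv_eq_iff_eq_mul.1 e))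

theorem exists_not_tet (C : Cfg z Q) : ∃ x, x ≠ C.a ∧ x ≠ C.b ∧ x ≠ C.c ∧ x ≠ C.e := by
  classical
  obtain ⟨x, -, hx⟩ := Finset.exists_mem_notMem_of_card_lt_card
    (s := C.tet) (t := (Finset.univ : Finset GolayPt)) (by
      have h1 : C.tet.card ≤ 4 := Finset.card_le_four
      have h2 : (Finset.univ : Finset GolayPt).card = 24 := by decide +kernel
      omega)
  simp only [mem_tet, not_or] at hx
  exact ⟨x, hx.1, hx.2.1, hx.2.2.1, hx.2.2.2⟩

/-- The image of the conjugate over a point outside the tetrad is a transvection. -/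
theorem isTv_of_zp {x : GolayPt} (ha : x ≠ C.a) (hb : x ≠ C.b) (hc : x ≠ C.c) (he : x ≠ C.e) :
    IsTv (fhom C.act ⟨C.zp x, C.AG_le_CG (C.zp_mem hc)⟩) := by
  have hM := C.std.model
  set h : ↥(CG z) := ⟨C.zp x, C.AG_le_CG (C.zp_mem hc)⟩
  have hnQ : C.zp x ∉ C.QG := fun e => he ((C.zp_mem_QG_iff ha hb hc).1 e)
  have hA : h ∈ C.A := coe_mem_AG.1 (C.zp_mem hc)
  refine ⟨((C.std.mem_iff h).1 hA).1,
    fun e => hnQ (coe_mem_QG.2 ((fhom_ker hM h).1 e) : (h : G) ∈ C.QG), ?_⟩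
  have hcx := C.duads.mem _ _ hc.symm
  have hcxQ : C.d C.c x ∉ C.QG := fun e => hnQ (mul_mem C.ab_mem_QG e)
  have hprod : C.d C.c x * C.d C.e x = C.d C.c C.e := by
    rw [C.duads.symm C.e x]
    exact C.duads.tri _ _ _ hc.symm he C.hce
  obtain ⟨q, hq, hqx⟩ := C.orbit_mem hcx (C.duads.other _ _ hc.symm) hcxQ
    (C.duads.mem _ _ he.symm) (C.duads.other _ _ he.symm) (hprod.symm ▸ C.dce_mem_QG)
  obtain ⟨q0, hq0, rfl⟩ := hq
  set k : ↥(CG z) := ⟨C.d C.c x, C.AG_le_CG hcx⟩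
  have hkk : fhom C.act k = fhom C.act h := by
    refine C.fhom_eq_iff.2 (coe_mem_QG.1 ?_)
    show (C.d C.c x)⁻¹ * C.zp x ∈ C.QG
    rw [C.AG_inv hcx, zp, C.AG_comm (C.duads.mem _ _ C.hab) hcx, ← mul_assoc, C.AG_sq hcx,
      one_mul]
    exact C.ab_mem_QG
  obtain ⟨r, hr, hpr⟩ := act_pr' hM k ⟨q0, hq0⟩
  rw [hkk] at hpr
  obtain ⟨q1, p1, c1⟩ := C.q1
  refine ⟨C.pr ⟨q0, hq0⟩, ?_⟩
  rw [← hpr, ← C.genB_pr_inv r, ← hM.pr_mul,
    show (⟨q0, hq0⟩ : ↥Q) * r⁻¹ = q1 * ⟨zC z, C.genB_zC_mem⟩ from Subtype.ext (Subtype.ext ?_),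
    hM.pr_mul, p1, (hM.pr_zero ⟨zC z, C.genB_zC_mem⟩).2 (Or.inr rfl)]
  · exact Fin.ext (by simp [vadd_val])
  · show ((q0 : G)) * (((r : ↥(CG z)) : G))⁻¹ = ((q1 : ↥(CG z)) : G) * z
    have hqx' : (q0 : G) * C.d C.c x * (q0 : G)⁻¹ = C.d C.e x := hqx
    rw [hr, c1]
    show (q0 : G) * (C.d C.c x * (q0 : G) * (C.d C.c x)⁻¹)⁻¹ = _
    have e1' : (q0 : G) * (C.d C.c x * (q0 : G) * (C.d C.c x)⁻¹)⁻¹ =
        (q0 : G) * C.d C.c x * (q0 : G)⁻¹ * (C.d C.c x)⁻¹ := by group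
    rw [e1', hqx', C.AG_inv hcx, C.AG_comm (C.duads.mem _ _ he.symm) hcx, hprod]
    calc C.d C.c C.e = C.d C.a C.b * C.d C.a C.b * C.d C.c C.e := by
          rw [C.AG_sq (C.duads.mem _ _ C.hab), one_mul]
      _ = _ := by rw [mul_assoc, C.zeq]

/-- The centraliser of the image of `z` lies in the group generated by the class. -/
theorem gen :
    Subgroup.centralizer ({C.base} : Set C.X) ≤ Subgroup.closure (conjugatesOf C.base) := by
  classical
  set D := Subgroup.closure (conjugatesOf C.base) with hD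
  have hDn : D.Normal := by
    have e : D = Subgroup.normalClosure ({C.base} : Set C.X) := by
      simp [hD, Subgroup.normalClosure, Group.conjugatesOfSet]
    rw [e]
    exact Subgroup.normalClosure_normal
  set K : Subgroup ↥C.genH := D.comap C.genHom with hK
  have hKn : K.Normal := hDn.comap _
  have hzK : (⟨zC z, C.genB_z_mem_genH⟩ : ↥C.genH) ∈ K :=
    Subgroup.subset_closure (IsConj.refl C.base)
  obtain ⟨x, ha, hb, hc, he⟩ := C.exists_not_tet
  set h0 : ↥C.genH := ⟨⟨C.zp x, C.AG_le_CG (C.zp_mem hc)⟩, C.AG_le_CE (C.zp_mem hc)⟩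
  have h0K : h0 ∈ K := Subgroup.subset_closure (C.pt_mem_pts ha hb hc).1
  obtain ⟨i0, hi0, hi0'⟩ := isTv_iff.1 (C.isTv_of_zp ha hb hc he)
  have hN : ∀ t ∈ stabE (fhom C.act).range, ∀ u ∈ K.map C.genAct,
      t * u * t⁻¹ ∈ K.map C.genAct := by
    intro t ht u hu
    obtain ⟨k, hk, rfl⟩ := hu
    rw [← C.genAct_range] at ht
    obtain ⟨g, rfl⟩ := ht
    exact ⟨g * k * g⁻¹, hKn.conj_mem k hk g, by simp⟩
  have htv : ∀ i : Fin 45, tvP i ∈ K.map C.genAct := by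
    intro i
    have hr := genB_c_reach
    simp only [List.all_eq_true, List.mem_range, List.contains_iff_mem] at hr
    have hind := cjReach_ind (P := fun j => tvQ j ∈ K.map C.genAct) (fun j hj hP k hk => by
      obtain ⟨hg, -, he'⟩ := cj_spec hk hj
      have := hN _ (tvT_le C.range (tvQ_mem hg)) _ hP
      rw [inv_eq_of_mul_eq_one_right (tvQ_sq hg), he'] at this
      exact this) 9 [i0.val] (fun j hj => by
        rw [List.mem_singleton] at hj
        subst hj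
        refine ⟨i0.isLt, ?_⟩
        rw [tvQ_of i0.isLt, show (⟨i0.val, i0.isLt⟩ : Fin 45) = i0 from rfl, ← hi0']
        exact ⟨h0, h0K, rfl⟩) i.val (hr i0.val hi0 i.val i.isLt)
    rw [tvQ_of i.isLt] at hind
    exact hind.2
  have hall : stabE (fhom C.act).range ≤ K.map C.genAct := by
    rw [stabE_eq C.range, Subgroup.closure_le]
    rintro _ ⟨i, rfl⟩
    exact htv i
  have hQK : ∀ v, OrthE v → ∃ q : ↥Q, C.pr q = v ∧
      ∃ hq : ((q : ↥(CG z)) : G) ∈ C.CE, (⟨q, hq⟩ : ↥C.genH) ∈ K := by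
    have hE : ∀ q : ↥Q, ((q : ↥(CG z)) : G) ∈ C.E →
        ∃ hq : ((q : ↥(CG z)) : G) ∈ C.CE, (⟨q, hq⟩ : ↥C.genH) ∈ K := fun q hq => by
      refine ⟨C.E_le_CE hq, ?_⟩
      show C.genHom _ ∈ D
      rw [C.genHom_eq_one_iff.2 hq]
      exact one_mem _
    obtain ⟨q1, p1, c1⟩ := C.q1
    obtain ⟨q2, p2, c2⟩ := C.q2
    intro v hv
    refine orthE_induction (P := fun v => ∃ q : ↥Q, C.pr q = v ∧
      ∃ hq : ((q : ↥(CG z)) : G) ∈ C.CE, (⟨q, hq⟩ : ↥C.genH) ∈ K) ?_ ?_ ?_ ?_ ?_ hv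
    · exact ⟨1, (C.std.model.pr_zero 1).2 (Or.inl rfl), hE 1 (one_mem _)⟩
    · exact ⟨q1, p1, hE q1 (c1.symm ▸ C.ab_mem_E)⟩
    · exact ⟨q2, p2, hE q2 (c2.symm ▸ C.bc_mem_E)⟩
    · rintro _ _ ⟨a, rfl, ha', haK⟩ ⟨b, rfl, hb', hbK⟩
      exact ⟨a * b, C.std.model.pr_mul a b, mul_mem ha' hb', mul_mem haK hbK⟩
    · intro i w hw
      obtain ⟨q, rfl⟩ := C.std.model.pr_surj w
      obtain ⟨k, hk, hki⟩ := htv i
      obtain ⟨r, hr, hpr⟩ := act_pr' C.std.model (k : ↥(CG z)) q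
      have hqC := C.mem_CE_Q.2 hw
      have hmem : k * (⟨q, hqC⟩ : ↥C.genH) * k⁻¹ * (⟨q, hqC⟩ : ↥C.genH)⁻¹ ∈ K := by
        rw [mul_assoc, mul_assoc, ← mul_assoc _ k⁻¹]
        exact mul_mem hk (hKn.conj_mem _ (inv_mem hk) _)
      have hval : ((r * q⁻¹ : ↥Q) : ↥(CG z)) =
          ((k * (⟨q, hqC⟩ : ↥C.genH) * k⁻¹ * (⟨q, hqC⟩ : ↥C.genH)⁻¹ : ↥C.genH) : ↥(CG z)) := by
        simp [hr]
      refine ⟨r * q⁻¹, ?_, ?_⟩
      · rw [C.std.model.pr_mul, hpr, C.genB_pr_inv, vadd_comm',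
          show fhom C.act (k : ↥(CG z)) = tvP i from hki]
      · exact ⟨(congrArg Subtype.val hval).symm ▸
            (k * (⟨q, hqC⟩ : ↥C.genH) * k⁻¹ * (⟨q, hqC⟩ : ↥C.genH)⁻¹ : ↥C.genH).2,
          by convert hmem using 1; exact Subtype.ext hval⟩
  rw [← C.genHom_range]
  rintro _ ⟨h, rfl⟩
  show h ∈ K
  obtain ⟨k, hk, hke⟩ := hall (show C.genAct h ∈ _ from C.image_CE h.2)
  have hQ : ((k⁻¹ * h : ↥C.genH) : ↥(CG z)) ∈ Q := C.fhom_eq_iff.1 hke
  obtain ⟨q, hq, hqC, hqK⟩ := hQK _ (C.mem_CE_Q.1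
    (show ((((⟨_, hQ⟩ : ↥Q)) : ↥(CG z)) : G) ∈ C.CE from (k⁻¹ * h).2))
  have hmem : k⁻¹ * h ∈ K := by
    rcases eq_or_of_pr C.std.model hq.symm with e | e
    · rwa [show k⁻¹ * h = ⟨q, hqC⟩ from Subtype.ext e]
    · rw [show k⁻¹ * h = ⟨q, hqC⟩ * ⟨zC z, C.genB_z_mem_genH⟩ from Subtype.ext e]
      exact mul_mem hqK hzK
  simpa using mul_mem hk hmem

theorem central : ∀ u : C.X, (∀ d ∈ conjugatesOf C.base, Commute u d) → u = 1 := by
  intro u hu
  set D := Subgroup.closure (conjugatesOf C.base) with hD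
  have hDu : D ≤ Subgroup.centralizer ({u} : Set C.X) := by
    rw [hD, Subgroup.closure_le]
    exact fun d hd => Subgroup.mem_centralizer_singleton_iff.2 (hu d hd).symm
  have hQD : C.genQb ≤ D := C.genQb_le.trans C.gen
  rcases C.eq_one_or_base (hu _ (IsConj.refl _)) (fun w hw =>
    ((Subgroup.mem_centralizer_singleton_iff.1 (hDu (hQD hw))) : Commute w u).symm) with e | e
  · exact e
  · exfalso
    subst e
    have hab : ∀ d ∈ conjugatesOf C.base, ∀ d' ∈ conjugatesOf C.base, Commute d d' := by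
      intro d hd d' hd'
      obtain ⟨g, rfl⟩ := isConj_iff.1 hd
      have h1 := (hu (g⁻¹ * d' * g)
        (hd'.trans (isConj_iff.2 ⟨g⁻¹, by rw [inv_inv]⟩))).map (MulAut.conj g).toMonoidHom
      simpa [MulAut.conj_apply, mul_assoc] using h1
    have hDD : D ≤ Subgroup.centralizer (D : Set C.X) := by
      rw [hD, Subgroup.centralizer_closure, Subgroup.closure_le]
      exact fun d hd => Subgroup.mem_centralizer_iff.2 fun d' hd' => (hab d' hd' d hd).eq
    obtain ⟨h91, h92, h201, h202, hno⟩ := genB_c_pair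
    obtain ⟨a, hpa⟩ := C.std.model.pr_surj 9
    obtain ⟨b, hpb⟩ := C.std.model.pr_surj 20
    have haC := C.mem_CE_Q.2 (show OrthE (C.pr a) by rw [hpa]; exact ⟨h91, h92⟩)
    have hbC := C.mem_CE_Q.2 (show OrthE (C.pr b) by rw [hpb]; exact ⟨h201, h202⟩)
    have hcomm : Commute (C.genHom ⟨a, haC⟩) (C.genHom ⟨b, hbC⟩) :=
      (Subgroup.mem_centralizer_iff.1 (hDD (hQD ⟨⟨a, haC⟩, a.2, rfl⟩)) _
        (hQD ⟨⟨b, hbC⟩, b.2, rfl⟩)).symm
    have h2 : ((a : ↥(CG z)) : G) * ((b : ↥(CG z)) : G) * ((a : ↥(CG z)) : G)⁻¹ *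
        ((b : ↥(CG z)) : G)⁻¹ ∈ C.E := C.proj_commute_iff.1 hcomm
    have hfl := (LargeFischer28.flip C.std.model (x := (a : ↥(CG z))) (b := b)
      (by rw [act_Q C.std.model]; rfl)).resolve_left
        (fun e => hno (by rw [← hpa, ← hpb]; exact (comm_iff_orth C.std.model a b).1 e))
    have hfl' : ((a : ↥(CG z)) : G) * ((b : ↥(CG z)) : G) =
        ((b : ↥(CG z)) : G) * ((a : ↥(CG z)) : G) * z := congrArg Subtype.val hfl
    have haz : ((a : ↥(CG z)) : G) * z = z * ((a : ↥(CG z)) : G) :=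
      Subgroup.mem_centralizer_singleton_iff.1 a.1.2
    have hbz : ((b : ↥(CG z)) : G) * z = z * ((b : ↥(CG z)) : G) :=
      Subgroup.mem_centralizer_singleton_iff.1 b.1.2
    rw [hfl', mul_assoc ((b : ↥(CG z)) : G), haz, ← mul_assoc, mul_inv_cancel_right, hbz,
      mul_inv_cancel_right] at h2
    exact C.z_not_mem_E h2

end Cfg

end CfsgLib.LargeFischer58
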