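import Cfsg.Agent.LargeFischer58.Points
import Cfsg.Agent.LargeFischer58.Local
import Cfsg.Agent.LargeFischer58.Checks

/-!
Large Fischer type: two planes sharing a nontrivial element of `C(E)/E` share a point.
-/

set_option autoImplicit false
set_option maxRecDepth 100000

namespace CfsgLib.LargeFischer58

open Cfsg CfsgLib.LargeFischer85 CfsgLib.LargeFischer28 CfsgLib.LargeFischer45

variable {G : Type*} [Group G] [Finite G] {z : G} {Q : Subgroup ↥(CG z)} [Q.Normal]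

namespace Cfg

variable (C : Cfg z Q)

theorem conj_of_mem_E {g t : G} (hg : g ∈ C.CE) (ht : t ∈ C.E) : g * t * g⁻¹ = t := by
  rw [← Subgroup.mem_centralizer_iff.1 hg t ht, mul_inv_cancel_right]

/-- Two duads with product conjugate to `z` are disjoint. -/
theorem disjoint_of_isConj {p q r s : GolayPt} (hpq : p ≠ q) (hrs : r ≠ s)
    (h : IsConj z (C.d p q * C.d r s)) : p ≠ r ∧ p ≠ s ∧ q ≠ r ∧ q ≠ s := by
  have key : ∀ p q s : GolayPt, p ≠ q → p ≠ s → ¬ IsConj z (C.d p q * C.d p s) := by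
    intro p q s hpq hps h
    by_cases e : q = s
    · subst e
      rw [C.AG_sq (C.duads.mem _ _ hpq)] at h
      exact C.facts.loc.one_ne h
    · rw [C.duads.symm p q, C.duads.tri q p s (Ne.symm hpq) hps e] at h
      exact (C.duads.other _ _ e).2 h
  refine ⟨?_, ?_, ?_, ?_⟩
  · rintro rfl; exact key p q s hpq hrs h
  · rintro rfl; rw [C.duads.symm r p] at h; exact key p q r hpq (Ne.symm hrs) h
  · rintro rfl; rw [C.duads.symm p q] at h; exact key q p s (Ne.symm hpq) hrs h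
  · rintro rfl
    rw [C.duads.symm p q, C.duads.symm r q] at h
    exact key q p r (Ne.symm hpq) (Ne.symm hrs) h

/-- A member outside `Q`: its product with `z` is again a conjugate of `z`. -/
theorem not_mem_QG {v : G} (hv : Other z v) (hz : IsConj z (v * z)) : v ∉ C.QG := fun h =>
  (C.facts.loc.mul_z h hv (IsConj.refl z)).2 hz

/-- The element over a duad meeting `{a, b, c}` in one point is a point. -/
theorem duad_mem_pts {k : ↥C.CE} {p q : GolayPt} (hk : (k : G) = C.d p q)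
    (hp : p = C.a ∨ p = C.b ∨ p = C.c) (hqa : q ≠ C.a) (hqb : q ≠ C.b) (hqc : q ≠ C.c) :
    C.proj k ∈ pts C.base C.Ab := by
  obtain ⟨t, ht, hte⟩ : ∃ t ∈ C.E, t * C.zp q = C.d p q := by
    rcases hp with rfl | rfl | rfl
    · exact ⟨_, C.bc_mem_E, C.bc_mul_zp hqa hqc⟩
    · exact ⟨_, C.ac_mem_E, C.ac_mul_zp hqb hqc⟩
    · exact ⟨_, C.ab_mem_E, C.ab_mul_zp q⟩
  have he : C.proj k = C.pt q hqc := by
    refine C.proj_eq_iff.2 ?_
    show (k : G)⁻¹ * C.zp q ∈ C.E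
    have hz : C.zp q = t⁻¹ * C.d p q := by rw [← hte, inv_mul_cancel_left]
    have hkA : (k : G) ∈ C.AG := hk ▸ hte ▸ mul_mem (C.E_le_AG ht) (C.zp_mem hqc)
    rw [hz, ← hk, C.AG_comm (inv_mem (C.E_le_AG ht)) hkA, inv_mul_cancel_left]
    exact inv_mem ht
  exact he ▸ C.pt_mem_pts hqa hqb hqc

/-- The case of a coset with a duad disjoint from `{a, b, c}`. -/
theorem meet_duad {g : G} (hg : g ∈ C.CE) {p q r s : GolayPt} (hpq : p ≠ q) (hrs : r ≠ s)
    (hp : p ≠ C.a ∧ p ≠ C.b ∧ p ≠ C.c) (hq : q ≠ C.a ∧ q ≠ C.b ∧ q ≠ C.c)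
    (hr : r ≠ C.a ∧ r ≠ C.b ∧ r ≠ C.c) (hs : s ≠ C.a ∧ s ≠ C.b ∧ s ≠ C.c)
    (hgd : g * C.d p q * g⁻¹ = C.d r s) : g * C.zp p * g⁻¹ ∈ C.AG := by
  have hab := C.hab
  have hac := C.hac
  have hbc := C.hbc
  have hae := C.hae
  have hbe := C.hbe
  have hce := C.hce
  obtain ⟨hpa, hpb, hpc⟩ := hp
  obtain ⟨hqa, hqb, hqc⟩ := hq
  obtain ⟨hra, hrb, hrc⟩ := hr
  obtain ⟨hsa, hsb, hsc⟩ := hs
  -- return to the original duad
  obtain ⟨σ, hσ, hf⟩ := M24Module.exists_perm (k := 5) le_rfl ![C.a, C.b, C.c, r, s]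
    ![C.a, C.b, C.c, p, q]
    (by intro i j h; fin_cases i <;> fin_cases j <;> first
      | rfl | exact absurd h (by assumption) | exact absurd h.symm (by assumption))
    (by intro i j h; fin_cases i <;> fin_cases j <;> first
      | rfl | exact absurd h (by assumption) | exact absurd h.symm (by assumption))
  obtain ⟨m, hm, hmC, hmd, -⟩ := C.lift_fix hσ (hf 0) (hf 1) (hf 2)
  have er : σ r = p := hf 3
  have es : σ s = q := hf 4
  set k : G := m * g with hk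
  have hkC : k ∈ C.CE := mul_mem hmC hg
  have hkd : k * C.d p q * k⁻¹ = C.d p q := by
    rw [show k * C.d p q * k⁻¹ = m * (g * C.d p q * g⁻¹) * m⁻¹ by rw [hk]; group, hgd,
      hmd _ _ hrs, er, es]
  -- move `ab * pq` to `z`
  obtain ⟨τ, hτ, hfτ⟩ := M24Module.exists_perm (k := 4) (by norm_num) ![C.a, C.b, C.c, C.e]
    ![C.a, C.b, p, q]
    (by intro i j h; fin_cases i <;> fin_cases j <;> first
      | rfl | exact absurd h (by assumption) | exact absurd h.symm (by assumption))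
    (by intro i j h; fin_cases i <;> fin_cases j <;> first
      | rfl | exact absurd h (by assumption) | exact absurd h.symm (by assumption))
  obtain ⟨n, hn, hnd⟩ := C.duads.lift τ hτ
  have ta : τ C.a = C.a := hfτ 0
  have tb : τ C.b = C.b := hfτ 1
  have tc : τ C.c = p := hfτ 2
  have te : τ C.e = q := hfτ 3
  obtain ⟨c', hc'⟩ : ∃ c', τ c' = C.c := ⟨τ.symm C.c, τ.apply_symm_apply _⟩
  have hca : c' ≠ C.a := fun e => hac (by rw [← hc', e, ta])
  have hcb : c' ≠ C.b := fun e => hbc (by rw [← hc', e, tb])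
  have hcc : c' ≠ C.c := fun e => hpc (by rw [← hc', e, tc])
  have hce' : c' ≠ C.e := fun e => hqc (by rw [← hc', e, te])
  set v : G := n⁻¹ * k * n with hv
  have hvconj : ∀ x, n * (v * x * v⁻¹) * n⁻¹ = k * (n * x * n⁻¹) * k⁻¹ := fun x => by
    rw [hv]; group
  have hncancel : ∀ x y : G, n * x * n⁻¹ = n * y * n⁻¹ → x = y := fun x y e => by
    simpa using e
  have hnz : n * z * n⁻¹ = C.d C.a C.b * C.d p q := by
    calc n * z * n⁻¹ = n * (C.d C.a C.b * C.d C.c C.e) * n⁻¹ :=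
          congrArg (fun y => n * y * n⁻¹) C.zeq.symm
      _ = n * C.d C.a C.b * n⁻¹ * (n * C.d C.c C.e * n⁻¹) := conj_mul.symm
      _ = _ := by rw [hnd _ _ hab, hnd _ _ hce, ta, tb, tc, te]
  have hvz : v * z * v⁻¹ = z := hncancel _ _ (by
    rw [hvconj, hnz, ← conj_mul, C.conj_of_mem_E hkC C.ab_mem_E, hkd])
  have hbn : n * C.d C.b c' * n⁻¹ = C.d C.b C.c := by rw [hnd _ _ (Ne.symm hcb), tb, hc']
  have hvb : v * C.d C.b c' * v⁻¹ = C.d C.b c' := hncancel _ _ (by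
    rw [hvconj, hbn, C.conj_of_mem_E hkC C.bc_mem_E])
  -- the `Q`-orbit
  have hbo : Other z (C.d C.b c') := C.duads.other _ _ (Ne.symm hcb)
  have hbQ : C.d C.b c' ∉ C.QG := by
    refine C.not_mem_QG hbo ?_
    have e1 : C.d C.b c' * z = C.d C.a c' * C.d C.c C.e := by
      calc C.d C.b c' * z = C.d C.b c' * (C.d C.a C.b * C.d C.c C.e) :=
            congrArg (fun y => C.d C.b c' * y) C.zeq.symm
        _ = C.d C.a C.b * C.d C.b c' * C.d C.c C.e := by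
          rw [← mul_assoc, C.AG_comm (C.duads.mem _ _ (Ne.symm hcb)) (C.duads.mem _ _ hab)]
        _ = _ := by rw [C.duads.tri _ _ _ hab (Ne.symm hcb) (Ne.symm hca)]
    rw [e1]
    exact C.duads.disj _ _ _ _ (Ne.symm hca) hce hac hae hcc hce'
  have hprod : C.d C.b c' * C.d c' C.c = C.d C.b C.c :=
    C.duads.tri _ _ _ (Ne.symm hcb) hcc hbc
  obtain ⟨q', hq', hqe⟩ := C.orbit_mem (C.duads.mem _ _ (Ne.symm hcb)) hbo hbQ
    (C.duads.mem _ _ hcc) (C.duads.other _ _ hcc) (hprod ▸ C.bc_mem_QG)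
  have hvq : v * q' * v⁻¹ ∈ C.QG := by
    obtain ⟨x, hx, rfl⟩ := hq'
    exact ⟨⟨v, Subgroup.mem_centralizer_singleton_iff.2 (mul_inv_eq_iff_eq_mul.1 hvz)⟩ * x *
      ⟨v, Subgroup.mem_centralizer_singleton_iff.2 (mul_inv_eq_iff_eq_mul.1 hvz)⟩⁻¹,
      Subgroup.Normal.conj_mem inferInstance x hx _, rfl⟩
  have himg : v * C.d c' C.c * v⁻¹ ∈ C.AG := by
    have e : v * C.d c' C.c * v⁻¹ = (v * q' * v⁻¹) * C.d C.b c' * (v * q' * v⁻¹)⁻¹ := by
      rw [← hqe]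
      calc v * (q' * C.d C.b c' * q'⁻¹) * v⁻¹
          = (v * q' * v⁻¹) * (v * C.d C.b c' * v⁻¹) * (v * q' * v⁻¹)⁻¹ := by group
        _ = _ := by rw [hvb]
    rw [e]
    obtain ⟨x, hx, hxe⟩ := hvq
    obtain ⟨y, hy, hye⟩ := C.duads.mem _ _ (Ne.symm hcb)
    rw [← hxe, ← hye]
    exact ⟨x * y * x⁻¹,
      (Subgroup.mem_normalizer_iff.1 (C.std.Q_le_normalizer hx) y).1 hy, rfl⟩
  -- back
  have hk1 : k * C.d C.c p * k⁻¹ ∈ C.AG := by
    have hne : n * C.d c' C.c * n⁻¹ = C.d C.c p := by rw [hnd _ _ hcc, hc', tc]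
    rw [← hne, ← hvconj]
    exact conj_mem_of_mem hn himg
  have hg1 : g * C.d C.c p * g⁻¹ ∈ C.AG := by
    have := conj_mem_of_mem (inv_mem hm) hk1
    rw [hk] at this
    convert this using 1
    group
  rw [zp, ← conj_mul, C.conj_of_mem_E hg C.ab_mem_E]
  exact mul_mem (C.duads.mem _ _ hab) hg1

/-- The case of a coset without duads: the conjugating element normalizes the subgroup. -/
theorem meet_zclass {g s : G} (hg : g ∈ C.CE) (hs : s ∈ C.AG)
    (hall : ∀ t ∈ C.E, IsConj z (s * t)) (hs' : g * s * g⁻¹ ∈ C.AG) :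
    g * z * g⁻¹ ∈ C.AG := by
  have L := C.facts.loc
  have hsz : IsConj z s := by simpa using hall 1 (one_mem _)
  obtain ⟨m, hm, hms⟩ := L.exists_move (mem_sel.2 ⟨hs, hsz⟩)
  obtain ⟨m', hm', hms'⟩ := L.exists_move
    (mem_sel.2 ⟨hs', hsz.trans (isConj_iff.2 ⟨g, rfl⟩)⟩)
  -- the frame at `z`
  have key : ∀ (k w : G), k ∈ Subgroup.normalizer (C.AG : Set G) → k * z * k⁻¹ = w → w ∈ C.AG →
      (∀ t ∈ C.E, IsConj z (w * t)) → ∀ t ∈ C.E, t ≠ 1 →
      ∃ h ∈ C.A, ((h : ↥(CG z)) : G) = k⁻¹ * t * k ∧ fhom C.act h ≠ 1 := by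
    intro k w hk hkw hw hallw t ht ht1
    have hA : k⁻¹ * t * k ∈ C.AG := by
      simpa using conj_mem_of_mem (inv_mem hk) (C.E_le_AG ht)
    obtain ⟨h, hh, hhe⟩ := hA
    refine ⟨h, hh, hhe, fun h1 => ?_⟩
    have hQ : k⁻¹ * t * k ∈ C.QG := hhe ▸ ⟨h, (fhom_ker C.std.model h).1 h1, rfl⟩
    refine C.not_mem_QG ?_ ?_ hQ
    · have := (other_conj k⁻¹).2 (C.E_other ht ht1)
      simpa using this
    · have hc := hallw t ht
      rw [← isConj_iff_right k⁻¹, inv_inv] at hc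
      have e : k⁻¹ * t * k * z = k⁻¹ * (w * t) * k := by
        rw [C.AG_comm hw (C.E_le_AG ht), ← hkw]; group
      rwa [e]
  set w : G := g * s * g⁻¹ with hw
  have hallw : ∀ t ∈ C.E, IsConj z (w * t) := by
    intro t ht
    have hc := (isConj_iff_right g).2 (hall t ht)
    rwa [← conj_mul, C.conj_of_mem_E hg ht] at hc
  have hvz : (m'⁻¹ * g * m) * z * (m'⁻¹ * g * m)⁻¹ = z := by
    calc (m'⁻¹ * g * m) * z * (m'⁻¹ * g * m)⁻¹
        = m'⁻¹ * (g * (m * z * m⁻¹) * g⁻¹) * m' := by group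
      _ = z := by rw [hms, ← hw, ← hms']; group
  let v : ↥(CG z) :=
    ⟨m'⁻¹ * g * m, Subgroup.mem_centralizer_singleton_iff.2 (mul_inv_eq_iff_eq_mul.1 hvz)⟩
  have pair : ∀ t ∈ C.E, t ≠ 1 → ∃ u u' : Equiv.Perm W,
      inA0 u ∧ u ≠ 1 ∧ inA0 u' ∧ u' ≠ 1 ∧ fhom C.act v * u * (fhom C.act v)⁻¹ = u' ∧
      ∃ h h' : ↥(CG z), fhom C.act h = u ∧ fhom C.act h' = u' ∧
        (h : G) = m⁻¹ * t * m ∧ (h' : G) = m'⁻¹ * t * m' := by
    intro t ht ht1
    obtain ⟨h, hh, hhe, h1⟩ := key m s hm hms hs hall t ht ht1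
    obtain ⟨h', hh', hhe', h1'⟩ := key m' w hm' hms' hs' hallw t ht ht1
    refine ⟨_, _, ((C.std.mem_iff h).1 hh).1, h1, ((C.std.mem_iff h').1 hh').1, h1', ?_,
      h, h', rfl, rfl, hhe, hhe'⟩
    rw [← map_inv, ← map_mul, ← map_mul]
    refine congrArg _ (Subtype.ext ?_)
    show (m'⁻¹ * g * m) * (h : G) * (m'⁻¹ * g * m)⁻¹ = (h' : G)
    rw [hhe, hhe']
    calc m'⁻¹ * g * m * (m⁻¹ * t * m) * (m'⁻¹ * g * m)⁻¹ = m'⁻¹ * (g * t * g⁻¹) * m' := by group
      _ = _ := by rw [C.conj_of_mem_E hg ht]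
  have ab1 : C.d C.a C.b ≠ 1 := (C.duads.other _ _ C.hab).1
  have bc1 : C.d C.b C.c ≠ 1 := (C.duads.other _ _ C.hbc).1
  have ac1 : C.d C.a C.c ≠ 1 := (C.duads.other _ _ C.hac).1
  obtain ⟨u, u', hu, hu1, hu', hu1', huc, h, h', ehu, ehu', ee, ee'⟩ := pair _ C.ab_mem_E ab1
  obtain ⟨x, x', hx, hx1, hx', hx1', hxc, k, k', ekx, ekx', ff, ff'⟩ := pair _ C.bc_mem_E bc1
  obtain ⟨y, y', hy, hy1, hy', hy1', -, l, l', ely, ely', gg, gg'⟩ := pair _ C.ac_mem_E ac1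
  have hne : u ≠ x := by
    intro e
    apply hy1
    have el : l = h * k := Subtype.ext (by
      rw [Subgroup.coe_mul, ee, ff, gg, ← C.ab_bc]; group)
    rw [← ely, el, map_mul, ehu, ekx, ← e]
    obtain ⟨h0, hh0, he0, -⟩ := key m s hm hms hs hall _ C.ab_mem_E ab1
    have : h0 = h := Subtype.ext (he0.trans ee.symm)
    rw [← ehu, ← map_mul, ← this, C.std.sq h0 hh0, map_one]
  have hne' : u' ≠ x' := by
    intro e
    rw [← huc, ← hxc] at e
    exact hne (mul_left_cancel (mul_right_cancel e))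
  set f := fhom C.act v with hf
  have hB : ∀ a, inB0 (f a) ↔ inB0 a := by
    intro a
    constructor
    · intro ha
      refine fix_pair hu hx hu1 hx1 hne a ?_ ?_
      · have := (b0_spec ha).2.1 u' hu'
        rw [← huc] at this
        simpa using this
      · have := (b0_spec ha).2.1 x' hx'
        rw [← hxc] at this
        simpa using this
    · intro ha
      refine fix_pair hu' hx' hu1' hx1' hne' (f a) ?_ ?_
      · rw [← huc]; simp [(b0_spec ha).2.1 u hu]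
      · rw [← hxc]; simp [(b0_spec ha).2.1 x hx]
  have hvn := C.std.mem_normalizer (n := v) hB
  have hzz : z ∈ C.AG := C.z_mem_AG
  have h1 : m⁻¹ * z * m ∈ C.AG := by simpa using conj_mem_of_mem (inv_mem hm) hzz
  obtain ⟨z1, hz1, hze⟩ := h1
  have h2 : (v * z1 * v⁻¹ : ↥(CG z)) ∈ C.A := (Subgroup.mem_normalizer_iff.1 hvn z1).1 hz1
  have h3 := conj_mem_of_mem hm' (⟨_, h2, rfl⟩ :
    (((v * z1 * v⁻¹ : ↥(CG z))) : G) ∈ C.AG)
  simp only [Subgroup.coe_mul, InvMemClass.coe_inv] at h3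
  have e : (CG z).subtype z1 = (z1 : G) := rfl
  rw [e] at hze
  rw [hze] at h3
  convert h3 using 1
  show g * z * g⁻¹ = m' * ((m'⁻¹ * g * m) * (m⁻¹ * z * m) * (m'⁻¹ * g * m)⁻¹) * m'⁻¹
  group

/-- Two planes with a common nontrivial element have a common point. -/
theorem meet : ∀ g j : C.X, j ≠ 1 → j ∈ C.Ab → g * j * g⁻¹ ∈ C.Ab →
    ∃ x ∈ pts C.base C.Ab, g * x * g⁻¹ ∈ pts C.base C.Ab := by
  intro g j hj1 hj hgj
  obtain ⟨⟨g, hg⟩, rfl⟩ := C.proj_surj g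
  obtain ⟨⟨s, hsC⟩, hs, rfl⟩ := hj
  have hsA : s ∈ C.AG := hs
  have hs' : g * s * g⁻¹ ∈ C.AG := by
    rw [← map_inv, ← map_mul, ← map_mul] at hgj
    exact C.proj_mem_Ab_iff.1 hgj
  have himage : ∀ x (hx : x ∈ C.CE), C.proj ⟨x, hx⟩ ∈ pts C.base C.Ab → g * x * g⁻¹ ∈ C.AG →
      ∃ y ∈ pts C.base C.Ab,
        C.proj ⟨g, hg⟩ * y * (C.proj ⟨g, hg⟩)⁻¹ ∈ pts C.base C.Ab := by
    intro x hx hp hgx
    refine ⟨_, hp, ?_, ?_⟩
    · exact (show IsConj C.base (C.proj ⟨x, hx⟩) from hp.1).trans (isConj_iff.2 ⟨_, rfl⟩)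
    · rw [← map_inv, ← map_mul, ← map_mul]
      exact C.proj_mem_Ab_iff.2 hgx
  by_cases hex : ∃ t ∈ C.E, Other z (s * t)
  · obtain ⟨t, ht, ho⟩ := hex
    have hstA : s * t ∈ C.AG := mul_mem hsA (C.E_le_AG ht)
    have hstC : s * t ∈ C.CE := C.AG_le_CE hstA
    have himgA : g * (s * t) * g⁻¹ ∈ C.AG := by
      rw [← conj_mul, C.conj_of_mem_E hg ht]
      exact mul_mem hs' (C.E_le_AG ht)
    obtain ⟨p, q, hpq, hd⟩ := C.duads.surj _ hstA ho
    by_cases hp : p = C.a ∨ p = C.b ∨ p = C.c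
    · by_cases hq : q = C.a ∨ q = C.b ∨ q = C.c
      · exfalso
        apply hj1
        refine C.proj_eq_one_iff.2 ?_
        show s ∈ C.E
        have hmem : C.d p q ∈ C.E := by
          rcases hp with rfl | rfl | rfl <;> rcases hq with rfl | rfl | rfl <;>
            first
              | exact absurd rfl hpq
              | exact C.ab_mem_E
              | exact C.bc_mem_E
              | exact C.ac_mem_E
              | (rw [C.duads.symm]; first | exact C.ab_mem_E | exact C.bc_mem_E | exact C.ac_mem_E)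
        rw [hd] at hmem
        simpa using mul_mem hmem (inv_mem ht)
      · push Not at hq
        exact himage _ hstC (C.duad_mem_pts hd.symm hp hq.1 hq.2.1 hq.2.2) himgA
    by_cases hq : q = C.a ∨ q = C.b ∨ q = C.c
    · push Not at hp
      exact himage _ hstC (C.duad_mem_pts (hd.symm.trans (C.duads.symm p q)) hq hp.1 hp.2.1 hp.2.2)
        himgA
    push Not at hp hq
    obtain ⟨r, u, hru, hd'⟩ := C.duads.surj _ himgA ((other_conj g).2 ho)
    have hgd : g * C.d p q * g⁻¹ = C.d r u := by rw [hd, hd']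
    have hdis : ∀ x y, x ≠ y → C.d x y ∈ C.E → p ≠ x → p ≠ y → q ≠ x → q ≠ y →
        r ≠ x ∧ r ≠ y ∧ u ≠ x ∧ u ≠ y := by
      intro x y hxy hE h1 h2 h3 h4
      refine C.disjoint_of_isConj hru hxy ?_
      rw [← hgd, show C.d x y = g * C.d x y * g⁻¹ from (C.conj_of_mem_E hg hE).symm, conj_mul]
      exact (isConj_iff_right g).2 (C.duads.disj _ _ _ _ hpq hxy h1 h2 h3 h4)
    obtain ⟨ra, rb, ua, ub⟩ := hdis _ _ C.hab C.ab_mem_E hp.1 hp.2.1 hq.1 hq.2.1
    obtain ⟨-, rc, -, uc⟩ := hdis _ _ C.hbc C.bc_mem_E hp.2.1 hp.2.2 hq.2.1 hq.2.2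
    exact himage _ _ (C.pt_mem_pts hp.1 hp.2.1 hp.2.2)
      (C.meet_duad hg hpq hru hp hq ⟨ra, rb, rc⟩ ⟨ua, ub, uc⟩ hgd)
  · push Not at hex
    refine himage z (C.AG_le_CE C.z_mem_AG) ⟨IsConj.refl _, C.base_mem_Ab⟩
      (C.meet_zclass hg hsA (fun t ht => ?_) hs')
    by_contra hnc
    refine hex t ht ⟨fun e => hj1 (C.proj_eq_one_iff.2 ?_), hnc⟩
    show s ∈ C.E
    rw [eq_inv_of_mul_eq_one_left e]
    exact inv_mem ht

end Cfg

end CfsgLib.LargeFischer58
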