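import Cfsg.Agent.LargeFischer58.Points
import Cfsg.Agent.LargeFischer58.Exists
import Mathlib.GroupTheory.IsPerfect

/-!
Large Fischer type, the configuration: `C(E)` is quasisimple when `C(E)/E` is simple.
-/

set_option autoImplicit false
set_option maxRecDepth 100000

namespace CfsgLib.LargeFischer58

open Cfsg CfsgLib.LargeFischer85 CfsgLib.LargeFischer28 CfsgLib.LargeFischer45

namespace Cfg

variable {G : Type*} [Group G] [Finite G] {z : G} {Q : Subgroup ↥(CG z)} [Q.Normal]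
  (C : Cfg z Q)

theorem d_mem_commutator {x y : GolayPt} (hxy : x ≠ y) (xa : x ≠ C.a) (xb : x ≠ C.b) (xc : x ≠ C.c)
    (ya : y ≠ C.a) (yb : y ≠ C.b) (yc : y ≠ C.c) : C.d x y ∈ ⁅C.CE, C.CE⁆ := by
  obtain ⟨σ, hσ, hσi⟩ := M24Module.exists_perm (k := 4) (by norm_num)
    ![C.a, C.b, C.c, x] ![C.a, C.b, C.c, y] (by
      intro i j hij
      fin_cases i <;> fin_cases j <;>
        simp_all [C.hab, C.hac, C.hbc, C.hab.symm, C.hac.symm, C.hbc.symm, xa.symm, xb.symm,
          xc.symm]) (by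
      intro i j hij
      fin_cases i <;> fin_cases j <;>
        simp_all [C.hab, C.hac, C.hbc, C.hab.symm, C.hac.symm, C.hbc.symm, ya.symm, yb.symm,
          yc.symm])
  obtain ⟨m, -, hmC, hm, -⟩ := C.lift_fix hσ (hσi 0) (hσi 1) (hσi 2)
  have hcx := C.duads.mem _ _ xc.symm
  have h := Subgroup.commutator_mem_commutator hmC (C.AG_le_CE hcx)
  have h2 : σ C.c = C.c := hσi 2
  have h3 : σ x = y := hσi 3
  rw [commutatorElement_def, hm _ _ xc.symm, h2, h3, C.AG_inv hcx, C.tri' yc xc.symm hxy.symm,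
    C.duads.symm] at h
  exact h

theorem other_tetrad : ∃ x s u v, (x ≠ s ∧ x ≠ u ∧ x ≠ v ∧ s ≠ u ∧ s ≠ v ∧ u ≠ v) ∧
    (∀ t ∈ ({x, s, u, v} : Finset GolayPt), t ∉ C.tet) ∧ C.d x s * C.d u v = z := by
  classical
  obtain ⟨x, hx⟩ : ∃ x, x ∉ C.tet := by
    by_contra hno
    push Not at hno
    have h := Finset.card_le_card (show Finset.univ ⊆ C.tet from fun t _ => hno t)
    have h4 : C.tet.card ≤ 4 := Finset.card_le_four
    rw [Finset.card_univ, show Fintype.card GolayPt = 24 from rfl] at h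
    omega
  have h3 : (C.adj x).card = 3 := by
    rw [adj, ← Set.ncard_eq_toFinset_card, C.adj_card x]
  obtain ⟨s, u, v, hsu, hsv, huv, hadj⟩ := Finset.card_eq_three.1 h3
  have hmem : ∀ t, t ∈ ({s, u, v} : Finset GolayPt) ↔ t ≠ x ∧ C.d x t ∈ C.QG := fun t => by
    rw [← hadj, C.mem_adj]
  obtain ⟨sx, hs⟩ := (hmem s).1 (by simp)
  obtain ⟨ux, hu⟩ := (hmem u).1 (by simp)
  obtain ⟨vx, hv⟩ := (hmem v).1 (by simp)
  have houts : ∀ t ∈ ({x, s, u, v} : Finset GolayPt), t ∉ C.tet := by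
    intro t ht htt
    rcases Finset.mem_insert.1 ht with rfl | ht'
    · exact hx htt
    obtain ⟨tx, htQ⟩ := (hmem t).1 ht'
    exact hx ((C.tetrad_iff htt tx).1 (C.duads.symm x t ▸ htQ))
  have hzQ : z ∈ C.QG := ⟨zC z, C.std.model.mem, rfl⟩
  have hxs := C.duads.mem _ _ sx.symm
  have ho : Other z (C.d x s * z) :=
    C.facts.loc.mul_z hs (C.duads.other _ _ sx.symm) (IsConj.refl z)
  obtain ⟨g, h, hgh, hd⟩ := C.duads.surj _ (mul_mem hxs C.z_mem_AG) ho
  have hghQ : C.d g h ∈ C.QG := hd ▸ mul_mem hs hzQ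
  have hprod : C.d x s * C.d g h = z := by rw [hd, ← mul_assoc, C.AG_sq hxs, one_mul]
  have hnz : ∀ p q, p ≠ q → C.d p q ≠ z := fun p q hpq e =>
    (C.duads.other p q hpq).2 (isConj_iff.2 ⟨1, by rw [one_mul, inv_one, mul_one, e]⟩)
  have hz1 : z ≠ 1 := fun e => C.z_not_mem_E (e ▸ one_mem C.E)
  -- `gh` avoids `x` and `s`
  have havoid : ∀ g h, g ≠ h → C.d x s * C.d g h = z → g ≠ x ∧ g ≠ s := by
    intro g h hgh hprod
    constructor
    · rintro rfl
      by_cases hhs : h = s
      · subst hhs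
        rw [C.AG_sq (C.duads.mem _ _ sx.symm)] at hprod
        exact hz1 hprod.symm
      · rw [C.duads.symm g s, C.duads.tri _ _ _ sx hgh (Ne.symm hhs)] at hprod
        exact hnz _ _ (Ne.symm hhs) hprod
    · rintro rfl
      by_cases hhx : h = x
      · subst hhx
        rw [C.duads.symm g h, C.AG_sq (C.duads.mem _ _ sx.symm)] at hprod
        exact hz1 hprod.symm
      · rw [C.duads.tri _ _ _ sx.symm hgh (Ne.symm hhx)] at hprod
        exact hnz _ _ (Ne.symm hhx) hprod
  obtain ⟨gx, gs⟩ := havoid g h hgh hprod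
  obtain ⟨hx', hs'⟩ := havoid h g hgh.symm (by rwa [C.duads.symm h g])
  have hmeet : ∀ t, t ≠ x → t ≠ s → C.d x t ∈ C.QG → g = t ∨ h = t := by
    intro t tx ts ht
    have hts : C.d x s * C.d x t = C.d s t := C.tri' sx tx.symm ts.symm
    have hQ : C.d s t ∈ C.QG := hts ▸ mul_mem hs ht
    have e : C.d g h * C.d x t = C.d s t * z := by
      rw [hd, ← hts, C.AG_comm hxs C.z_mem_AG, mul_assoc, C.AG_comm C.z_mem_AG
        (mul_mem hxs (C.duads.mem _ _ tx.symm))]
    have ho' : Other z (C.d g h * C.d x t) :=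
      e ▸ C.facts.loc.mul_z hQ (C.duads.other _ _ ts.symm) (IsConj.refl z)
    rcases C.duads.share hgh tx.symm ho' with e' | e' | e' | e'
    · exact absurd e' gx
    · exact Or.inl e'
    · exact absurd e' hx'
    · exact Or.inr e'
  have hguv : C.d g h = C.d u v := by
    rcases hmeet u ux (Ne.symm hsu) hu with e1 | e1 <;>
      rcases hmeet v vx (Ne.symm hsv) hv with e2 | e2
    · exact absurd (e1.symm.trans e2) huv
    · rw [e1, e2]
    · rw [e1, e2, C.duads.symm]
    · exact absurd (e1.symm.trans e2) huv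
  exact ⟨x, s, u, v, ⟨sx.symm, ux.symm, vx.symm, hsu, hsv, huv⟩, houts, hguv ▸ hprod⟩

theorem gen_mem_commutator {p q r : GolayPt}
    (hperm : ({p, q, r} : Finset GolayPt) = {C.a, C.b, C.c}) (hpq : p ≠ q) (hpr : p ≠ r)
    (hqr : q ≠ r) (hz : C.d p q * C.d r C.e = z) : C.d p q ∈ ⁅C.CE, C.CE⁆ := by
  classical
  obtain ⟨x, s, u, v, ⟨xs, xu, xv, su, sv, uv⟩, hout, hzeq⟩ := C.other_tetrad
  set T : Finset GolayPt := {x, s, u, v} with hT
  obtain ⟨t, ht⟩ : ∃ t, t ∉ C.tet ∪ T := by
    by_contra hno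
    push Not at hno
    have h := Finset.card_le_card (show Finset.univ ⊆ C.tet ∪ T from fun t _ => hno t)
    have h4 : C.tet.card ≤ 4 := Finset.card_le_four
    have h5 := Finset.card_union_le C.tet T
    have h6 : T.card ≤ 4 := Finset.card_le_four
    rw [Finset.card_univ, show Fintype.card GolayPt = 24 from rfl] at h
    omega
  rw [Finset.mem_union, not_or] at ht
  obtain ⟨httet, htT⟩ := ht
  have hsub : ∀ w ∈ ({p, q, r} : Finset GolayPt), w ∈ C.tet := by
    intro w hw
    rw [hperm] at hw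
    rw [C.mem_tet]
    simp only [Finset.mem_insert, Finset.mem_singleton] at hw
    tauto
  have hpt : p ∈ C.tet := hsub p (by simp)
  have hqt : q ∈ C.tet := hsub q (by simp)
  have hrt : r ∈ C.tet := hsub r (by simp)
  have het : C.e ∈ C.tet := C.mem_tet.2 (by simp)
  have hne_e : ∀ w ∈ ({p, q, r} : Finset GolayPt), w ≠ C.e := by
    intro w hw
    rw [hperm] at hw
    simp only [Finset.mem_insert, Finset.mem_singleton] at hw
    rcases hw with rfl | rfl | rfl
    exacts [C.hae, C.hbe, C.hce]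
  have ht' : ∀ w ∈ C.tet, t ≠ w := fun w hw e => httet (e ▸ hw)
  obtain ⟨σ, hσ, hσi⟩ := M24Module.exists_perm (k := 3) (by norm_num) ![p, q, t] ![p, q, r] (by
      intro i j hij
      fin_cases i <;> fin_cases j <;>
        simp_all [ht' p hpt, (ht' p hpt).symm, ht' q hqt, (ht' q hqt).symm, hpq.symm]) (by
      intro i j hij
      fin_cases i <;> fin_cases j <;> simp_all [hpq.symm, hpr.symm, hqr.symm])
  have h0 : σ p = p := hσi 0
  have h1 : σ q = q := hσi 1
  have h2 : σ t = r := hσi 2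
  obtain ⟨m, -, hm⟩ := C.duads.lift σ hσ
  have e1 : m * z * m⁻¹ = C.d p q * C.d (σ r) (σ C.e) := by
    have : m * (C.d p q * C.d r C.e) * m⁻¹ = m * z * m⁻¹ := congrArg (fun w => m * w * m⁻¹) hz
    rw [← this]
    calc m * (C.d p q * C.d r C.e) * m⁻¹ = m * C.d p q * m⁻¹ * (m * C.d r C.e * m⁻¹) := by group
      _ = _ := by rw [hm _ _ hpq, hm _ _ (hne_e r (by simp)), h0, h1]
  have e2 : m * z * m⁻¹ = C.d (σ x) (σ s) * C.d (σ u) (σ v) := by
    have : m * (C.d x s * C.d u v) * m⁻¹ = m * z * m⁻¹ := congrArg (fun w => m * w * m⁻¹) hzeq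
    rw [← this]
    calc m * (C.d x s * C.d u v) * m⁻¹ = m * C.d x s * m⁻¹ * (m * C.d u v * m⁻¹) := by group
      _ = _ := by rw [hm _ _ xs, hm _ _ uv]
  have hav : ∀ w, w ≠ p → w ≠ q → w ≠ t → σ w ≠ C.a ∧ σ w ≠ C.b ∧ σ w ≠ C.c := by
    intro w wp wq wt
    have h3 : σ w ∉ ({p, q, r} : Finset GolayPt) := by
      simp only [Finset.mem_insert, Finset.mem_singleton]
      rintro (e | e | e)
      · exact wp (σ.injective (e.trans h0.symm))
      · exact wq (σ.injective (e.trans h1.symm))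
      · exact wt (σ.injective (e.trans h2.symm))
    rw [hperm] at h3
    simpa using h3
  have hT' : ∀ w ∈ T, σ w ≠ C.a ∧ σ w ≠ C.b ∧ σ w ≠ C.c := fun w hw =>
    hav w (fun e => hout w hw (e ▸ hpt)) (fun e => hout w hw (e ▸ hqt)) (fun e => htT (e ▸ hw))
  have hr' := hav r hpr.symm hqr.symm (ht' r hrt).symm
  have he' := hav C.e (hne_e p (by simp)).symm (hne_e q (by simp)).symm (ht' C.e het).symm
  have hx' := hT' x (by simp [hT])
  have hs' := hT' s (by simp [hT])
  have hu' := hT' u (by simp [hT])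
  have hv' := hT' v (by simp [hT])
  have key : C.d p q = C.d (σ x) (σ s) * C.d (σ u) (σ v) * (C.d (σ r) (σ C.e))⁻¹ := by
    rw [← e2, e1, mul_inv_cancel_right]
  rw [key]
  refine mul_mem (mul_mem ?_ ?_) (inv_mem ?_)
  · exact C.d_mem_commutator (σ.injective.ne xs) hx'.1 hx'.2.1 hx'.2.2 hs'.1 hs'.2.1 hs'.2.2
  · exact C.d_mem_commutator (σ.injective.ne uv) hu'.1 hu'.2.1 hu'.2.2 hv'.1 hv'.2.1 hv'.2.2
  · exact C.d_mem_commutator (σ.injective.ne (hne_e r (by simp))) hr'.1 hr'.2.1 hr'.2.2 he'.1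
      he'.2.1 he'.2.2

theorem E_le_commutator : C.E ≤ ⁅C.CE, C.CE⁆ := by
  classical
  rw [E, Subgroup.closure_le]
  rintro t (rfl | rfl)
  · exact C.gen_mem_commutator rfl C.hab C.hac C.hbc C.zeq
  · refine C.gen_mem_commutator (r := C.a) ?_ C.hbc C.hab.symm C.hac.symm ?_
    · ext w; simp only [Finset.mem_insert, Finset.mem_singleton]; tauto
    · rw [← C.bc_mul_zp C.hae.symm C.hce.symm, ← mul_assoc,
        C.AG_sq (C.duads.mem _ _ C.hbc), one_mul, C.zp_e]

/-- `C(E)` is quasisimple. -/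
theorem quasisimple [hS : IsSimpleGroup C.X] (hnc : ∃ a b : C.X, a * b ≠ b * a) :
    Cfsg.IsQuasisimple C.CE := by
  obtain ⟨a, b, hab⟩ := hnc
  have hker : C.proj.ker = C.E.subgroupOf C.CE := QuotientGroup.ker_mk' _
  have hEcomm : C.E.subgroupOf C.CE ≤ commutator ↥C.CE := by
    intro g hg
    have h : (g : G) ∈ (commutator ↥C.CE).map C.CE.subtype := by
      rw [Subgroup.map_subtype_commutator]
      exact C.E_le_commutator (Subgroup.mem_subgroupOf.1 hg)
    exact (Subgroup.mem_map_iff_mem (Subgroup.subtype_injective _)).1 h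
  have hcomm : commutator C.X = ⊤ := by
    rcases Subgroup.Normal.eq_bot_or_eq_top (inferInstance : (commutator C.X).Normal) with h | h
    · exfalso
      refine hab ?_
      have := Subgroup.commutator_mem_commutator (Subgroup.mem_top a) (Subgroup.mem_top b)
      rw [← commutator_def, h, Subgroup.mem_bot, commutatorElement_eq_one_iff_commute] at this
      exact this
    · exact h
  have hperf : commutator ↥C.CE = ⊤ := by
    have hmap : (commutator ↥C.CE).map C.proj = ⊤ := by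
      rw [commutator_def, Subgroup.map_commutator, Subgroup.map_top_of_surjective _ C.proj_surj,
        ← commutator_def, hcomm]
    have h := congrArg (Subgroup.comap C.proj) hmap
    rw [Subgroup.comap_map_eq, Subgroup.comap_top, hker, sup_eq_left.2 hEcomm] at h
    exact h
  have hcenter : Subgroup.center ↥C.CE = C.E.subgroupOf C.CE := by
    refine le_antisymm (fun g hg => ?_) (fun g hg => ?_)
    · rw [← hker, MonoidHom.mem_ker]
      have hgc : C.proj g ∈ Subgroup.center C.X := by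
        refine Subgroup.mem_center_iff.2 fun y => ?_
        obtain ⟨h, rfl⟩ := C.proj_surj y
        rw [← map_mul, ← map_mul, Subgroup.mem_center_iff.1 hg h]
      rcases Subgroup.Normal.eq_bot_or_eq_top
          (inferInstance : (Subgroup.center C.X).Normal) with h | h
      · rwa [h, Subgroup.mem_bot] at hgc
      · exact absurd ((Subgroup.mem_center_iff.1 (h ▸ Subgroup.mem_top b) a)) hab
    · refine Subgroup.mem_center_iff.2 fun h => Subtype.ext ?_
      exact (Subgroup.mem_centralizer_iff.1 h.2 _ (Subgroup.mem_subgroupOf.1 hg)).symm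
  refine ⟨⟨hperf⟩, ?_⟩
  haveI : Nontrivial C.X := IsSimpleGroup.toNontrivial
  let e := QuotientGroup.quotientMulEquivOfEq hcenter
  exact e.isSimpleGroup

end Cfg

end CfsgLib.LargeFischer58
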