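import Cfsg.Agent.LargeFischer58.Connect
import Cfsg.Agent.FischerPolar.Unitary
import Cfsg.Agent.Classical.Unitary.Simple

/-!
A group with plane data is the unitary group of dimension six over the field with four elements.
-/

set_option autoImplicit false
set_option linter.unusedSectionVars false
set_option linter.style.haveILetI false

namespace CfsgLib.LargeFischer58

open Cfsg CfsgLib.ThreeTransp CfsgLib.FischerPolar

/-- The 2-part of the order singles out dimension six. -/
theorem dim_eq_six {F : Type} [Field F] [Fintype F] (hF : Fintype.card F = 2 ^ 2) {n : ℕ}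
    (h1 : 2 ^ 15 ∣ Nat.card (Cfsg.PSU n F 2)) (h2 : ¬ 2 ^ 16 ∣ Nat.card (Cfsg.PSU n F 2)) :
    n = 6 := by
  classical
  have hn : 2 ≤ n := by
    by_contra hn
    have h4 : Nat.card (Cfsg.PSU n F 2) ≤ 4 := by
      refine le_trans (Nat.card_le_card_of_surjective (QuotientGroup.mk : Cfsg.SU n F 2 → _)
        QuotientGroup.mk_surjective) (le_trans (Nat.card_le_card_of_injective
          (fun A : Cfsg.SU n F 2 => (A.1.1 : Matrix (Fin n) (Fin n) F))
          fun A B e => Subtype.ext (Subtype.ext e)) ?_)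
      show Nat.card (Fin n → Fin n → F) ≤ 4
      rw [Nat.card_fun, Nat.card_fun, Nat.card_fin, Nat.card_eq_fintype_card (α := F), hF]
      have : n = 0 ∨ n = 1 := by omega
      rcases this with rfl | rfl <;> norm_num
    have := Nat.le_of_dvd Nat.card_pos h1
    omega
  have hcard := CfsgLib.Unitary.card_PSU (q := 2) hF hn
  set P := ∏ i ∈ Finset.range n, (if Even i then 2 ^ (i + 1) + 1 else 2 ^ (i + 1) - 1) with hP
  have hodd : Nat.Coprime 2 P := by
    refine Nat.Coprime.prod_right fun i _ => ?_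
    rw [Nat.prime_two.coprime_iff_not_dvd]
    have h2i : 2 ∣ 2 ^ (i + 1) := dvd_pow_self 2 (by omega)
    have hpos : 1 ≤ 2 ^ (i + 1) := Nat.one_le_two_pow
    split_ifs <;> omega
  have hg : Nat.Coprime 2 (Nat.gcd n (2 + 1) * (2 + 1)) := by
    refine Nat.Coprime.mul_right ?_ (by norm_num)
    exact Nat.Coprime.coprime_dvd_right (Nat.gcd_dvd_right n 3) (by norm_num)
  rw [← mul_assoc] at hcard
  have e1 : 15 ≤ n * (n - 1) / 2 := by
    rw [← Nat.pow_dvd_pow_iff_le_right (x := 2) (by norm_num)]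
    refine (Nat.Coprime.pow_left 15 hodd).dvd_of_dvd_mul_right ?_
    rw [← hcard]
    exact Dvd.dvd.mul_left h1 _
  have e2 : n * (n - 1) / 2 < 16 := by
    by_contra hle
    refine h2 ((Nat.Coprime.pow_left 16 hg).dvd_of_dvd_mul_left ?_)
    rw [hcard]
    exact Dvd.dvd.mul_right (pow_dvd_pow 2 (by omega)) _
  have hlt : n < 7 := by
    by_contra hn7
    have : 7 * 6 ≤ n * (n - 1) := Nat.mul_le_mul (by omega) (by omega)
    omega
  interval_cases n <;> omega

namespace PlaneData

variable {X : Type*} [Group X] [Finite X] {z : X} {Ab : Subgroup X}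

/-- The polar-space hypotheses hold. -/
theorem hyp (h : PlaneData z Ab) : Hyp (conjugatesOf z) := by
  classical
  have hz : z ∈ conjugatesOf z := mem_conjugatesOf_self
  have hG := h.ttg
  have hprim := h.prim
  obtain ⟨y, hy, hyz⟩ := h.exists_second
  obtain ⟨d, hd, hdA, -⟩ := h.line_exists y hy hyz
  refine ⟨hG, hprim, h.noncomm, h.central, ?_, ?_⟩
  · intro x hx
    obtain ⟨g, rfl⟩ := isConj_iff.1 hx
    rw [nbr_conjImg hG]
    exact ⟨_, _, hd, rfl⟩
  · have hz2 : ¬ Cfsg.pCore 2 ↥(Subgroup.closure (nbr (conjugatesOf z) z)) ≤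
        Subgroup.center ↥(Subgroup.closure (nbr (conjugatesOf z) z)) := by
      obtain ⟨K, hK, hKL, hKn, k, hk, e, he, hke⟩ := h.core
      set L := Subgroup.closure (nbr (conjugatesOf z) z)
      intro hle
      have hzL : ∀ g ∈ L, Commute g z :=
        commute_closure_iff.2 fun s hs => hs.2.2.symm
      have hn : (K.subgroupOf L).Normal := ⟨fun x hx g => hKn g (hzL g g.2) x hx⟩
      have hkc : (⟨k, hKL hk⟩ : L) ∈ Subgroup.center L :=
        hle (le_sSup (show K.subgroupOf L ∈ {N : Subgroup L | N.Normal ∧ IsPGroup 2 N} from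
          ⟨hn, hK.of_equiv (Subgroup.subgroupOfEquivOfLe hKL).symm⟩) hk)
      refine hke (show k * e = e * k from ?_)
      exact congrArg Subtype.val
        ((Subgroup.mem_center_iff.1 hkc ⟨e, Subgroup.subset_closure he⟩).symm)
    intro x hx hle
    obtain ⟨g, rfl⟩ := isConj_iff.1 hx
    apply hz2
    set L := Subgroup.closure (nbr (conjugatesOf z) z)
    set L' := Subgroup.closure (nbr (conjugatesOf z) (g * z * g⁻¹))
    have e : L.map (MulAut.conj g).toMonoidHom = L' := by
      rw [MonoidHom.map_closure]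
      congr 1
      rw [nbr_conjImg hG]
      ext f
      exact ⟨fun ⟨f', hf', hf''⟩ => ⟨f', hf', by simpa using hf''⟩,
        fun ⟨f', hf', hf''⟩ => ⟨f', hf', by simpa using hf''⟩⟩
    let φ : L ≃* L' := (L.equivMapOfInjective (MulAut.conj g).toMonoidHom
      (MulAut.conj g).injective).trans (MulEquiv.subgroupCongr e)
    intro u hu
    have hφu : φ u ∈ Subgroup.center L' := by
      apply hle
      have hm : (Cfsg.pCore 2 L).map φ.toMonoidHom ≤ Cfsg.pCore 2 L' := by
        rw [Subgroup.map_le_iff_le_comap]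
        refine sSup_le ?_
        rintro N ⟨hN, hp⟩
        rw [← Subgroup.map_le_iff_le_comap]
        exact le_sSup ⟨hN.map φ.toMonoidHom φ.surjective, hp.map _⟩
      exact hm ⟨u, hu, rfl⟩
    rw [Subgroup.mem_center_iff] at hφu ⊢
    intro v
    apply φ.injective
    rw [map_mul, map_mul]
    exact hφu (φ v)

/-- The line through `z` and another point of the plane has five points. -/
theorem ncard_pl_eq_five (h : PlaneData z Ab) {y : X} (hy : y ∈ pts z Ab) (hyz : y ≠ z) :
    (pl (conjugatesOf z) z y).ncard = 5 := by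
  obtain ⟨d, hd, hdA, hdy⟩ := h.line_exists y hy hyz
  obtain ⟨h5, -⟩ := h.line d hd hdA
  have heq : pl (conjugatesOf z) z y = {x | x ∈ pts z Ab ∧ Commute d x} := by
    ext f
    constructor
    · rintro ⟨hfD, hf⟩
      have hpts : ∀ x ∈ pts z Ab, Commute x f := fun x hx =>
        hf x ⟨hx.1, h.comm_Ab hx.2 h.mem, h.comm_Ab hx.2 hy.2⟩
      have hfA : f ∈ Ab := by
        by_contra hfA
        have hfz : f ≠ z := fun e => hfA (e ▸ h.mem)
        have hfn : f ∈ nbrs z := ⟨hfD, hfz, hpts z ⟨mem_conjugatesOf_self, h.mem⟩⟩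
        have h5' := (h.line f hfn hfA).1
        rw [show {x | x ∈ pts z Ab ∧ Commute f x} = pts z Ab from
          Set.ext fun x => ⟨fun hx => hx.1, fun hx => ⟨hx, (hpts x hx).symm⟩⟩, h.card_pts] at h5'
        omega
      exact ⟨⟨hfD, hfA⟩, hf d ⟨hd.1, hd.2.2.symm, hdy⟩⟩
    · rintro ⟨hfp, hdf⟩
      refine ⟨hfp.1, fun g hg => ?_⟩
      by_cases hgA : g ∈ Ab
      · exact h.comm_Ab hgA hfp.2
      · have hgz : g ≠ z := fun e => hgA (e ▸ h.mem)
        exact h.line_unique d hd g ⟨hg.1, hgz, hg.2.1.symm⟩ hdA hgA y hy hyz hdy hg.2.2 f hfp hdf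
  rw [heq, h5]

/-- Recognition of the unitary group. -/
theorem simple_iso (h : PlaneData z Ab) : IsSimpleGroup X ∧
    ∃ (F : Type) (_ : Field F) (_ : Fintype F), Fintype.card F = 4 ∧
      Nonempty (X ≃* Cfsg.PSU 6 F 2) := by
  have hH := h.hyp
  obtain ⟨y, hy, hyz⟩ := h.exists_second
  have hyn : y ∈ nbr (conjugatesOf z) z := ⟨hy.1, hyz, h.comm_Ab h.mem hy.2⟩
  obtain ⟨F, iF, iFt, n, hF, ⟨e⟩⟩ := hH.exists_iso_psu fun a ha b hb => by
    rw [hH.ncard_pl mem_conjugatesOf_self hyn ha hb, h.ncard_pl_eq_five hy hyz]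
  have hF2 : Fintype.card F = 2 ^ 2 := by rw [hF]; norm_num
  have hn : n = 6 := dim_eq_six hF2 (by rw [← Nat.card_congr e.toEquiv]; exact h.two.1)
    (by rw [← Nat.card_congr e.toEquiv]; exact h.two.2)
  subst hn
  haveI := CfsgLib.Unitary.isSimpleGroup_PSU (q := 2) hF2 (n := 6) (by norm_num) (by norm_num)
  exact ⟨e.symm.isSimpleGroup_congr.mp inferInstance, F, iF, iFt, hF, ⟨e⟩⟩

end PlaneData

end CfsgLib.LargeFischer58
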