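import Cfsg.Agent.LargeFischer58.Core
import Cfsg.Agent.LargeFischer58.Cover
import Cfsg.Agent.LargeFischer58.Meet
import Cfsg.Agent.LargeFischer58.Generation
import Cfsg.Agent.LargeFischer58.Four
import Cfsg.Agent.LargeFischer58.Recognise
import Cfsg.Agent.LargeFischer58.Quasisimple

/-!
Large Fischer type: `C(E)/E` is `PSU(6, 2)`.
-/

set_option autoImplicit false

namespace CfsgLib.LargeFischer58

open Cfsg CfsgLib.LargeFischer85 CfsgLib.LargeFischer28 CfsgLib.LargeFischer45

namespace Cfg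

variable {G : Type*} [Group G] [Finite G] {z : G} {Q : Subgroup ↥(CG z)} [Q.Normal]
  (C : Cfg z Q)

theorem exists_conj_into {j : C.X} (hj : j * j = 1) (hc : Commute j C.base) :
    ∃ g, Commute g C.base ∧ g * j * g⁻¹ ∈ C.Ab := by
  obtain ⟨⟨j, hjC⟩, rfl⟩ := C.proj_surj j
  have hz := C.mem_centralizer_base hc
  rw [← map_mul, C.proj_eq_one_iff] at hj
  obtain ⟨g, hg, hgz, hgj⟩ := C.cover hjC hz hj
  refine ⟨C.proj ⟨g, hg⟩, C.proj_commute_iff.2 ?_, ?_⟩
  · show g * z * g⁻¹ * z⁻¹ ∈ C.E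
    rw [hgz, mul_inv_cancel_right, mul_inv_cancel]
    exact one_mem _
  · rw [← map_inv, ← map_mul, ← map_mul]
    exact C.proj_mem_Ab_iff.2 hgj

theorem planeData : PlaneData C.base C.Ab where
  ne := C.base_ne_one
  sq := C.Ab_elem C.base_mem_Ab
  mem := C.base_mem_Ab
  elem := fun _ ha => C.Ab_elem ha
  card_pts := C.card_pts
  two_trans := C.two_trans
  other := C.other
  cover := fun _ hj hc => C.exists_conj_into hj hc
  meet := C.meet
  three := fun _ hd _ he hne => C.three' hd he hne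
  line := fun _ hd hA => C.line' hd hA
  line_unique := fun _ hd _ hd' hA hA' _ hy hne h1 h2 _ hw hdw =>
    C.line_unique' hd hd' hA hA' hy hne h1 h2 hw hdw
  line_exists := fun _ hy hne => C.line_exists' hy hne
  core := C.core'
  central := C.central
  gen := C.gen
  sylow := C.sylow
  two := C.two

/-- `C(E)` is quasisimple and `C(E)/E` is `PSU(6, 2)`. -/
theorem main : Cfsg.IsQuasisimple C.CE ∧ ∃ (F : Type) (_ : Field F) (_ : Fintype F),
    Fintype.card F = 4 ∧ Nonempty (C.X ≃* Cfsg.PSU 6 F 2) := by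
  obtain ⟨hs, hiso⟩ := C.planeData.simple_iso
  haveI := hs
  obtain ⟨a, -, c, -, hac⟩ := C.planeData.noncomm
  exact ⟨C.quasisimple ⟨a, c, hac⟩, hiso⟩

end Cfg

end CfsgLib.LargeFischer58
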