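import Cfsg.Agent.LargeFischer58.Checks
import Cfsg.Agent.LargeFischer58.Stab

/-!
The relations between the conjugates of the transvections of the plane group, and the covers,
stated for the stabiliser of the line.
-/

set_option autoImplicit false

namespace CfsgLib.LargeFischer58

open CfsgLib.LargeFischer85 CfsgLib.LargeFischer28

variable {R : Subgroup (Equiv.Perm W)}

theorem cover_vec (hR : RangeOK R) {v : W} (hs : sing v) (o1 : orth v e1) (o2 : orth v e2) :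
    ∃ h ∈ stabE R, inB0 (h v) :=
  cover_vec_core (tvP_mem hR) hs o1 o2

theorem cover_pair (hR : RangeOK R) {u : Equiv.Perm W} (hu : inA0 u) (u1 : u ≠ 1) :
    ∀ v, sing v → orth v e1 → orth v e2 → u v = v →
      ∃ h ∈ stabE R, inB0 (h v) ∧ inA0 (h * u * h⁻¹) :=
  cover_pair_core (tvP_mem hR) hu u1

theorem tv_comm (hR : RangeOK R) {u v : Equiv.Perm W} (hu : IsP R u) (hv : IsP R v)
    (h : u * v = v * u) : ∃ g ∈ stabE R, IsTv (g * u * g⁻¹) ∧ IsTv (g * v * g⁻¹) := by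
  obtain ⟨i, rfl⟩ := (isP_iff hR).1 hu
  obtain ⟨j, rfl⟩ := (isP_iff hR).1 hv
  exact tv_comm_core (tvP_mem hR) h

theorem tv_three (hR : RangeOK R) {u v : Equiv.Perm W} (hu : IsP R u) (hv : IsP R v)
    (h : u * v ≠ v * u) : (u * v) ^ 3 = 1 := by
  obtain ⟨i, rfl⟩ := (isP_iff hR).1 hu
  obtain ⟨j, rfl⟩ := (isP_iff hR).1 hv
  exact tv_three_core h

theorem tv_fix (hR : RangeOK R) {u v : Equiv.Perm W} (hu : IsP R u) (hv : IsP R v)
    (h : u * v ≠ v * u) : ∀ x w, vadd w (u w) = x → v x = x → InE x := by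
  obtain ⟨i, rfl⟩ := (isP_iff hR).1 hu
  obtain ⟨j, rfl⟩ := (isP_iff hR).1 hv
  exact tv_fix_core h

theorem tv_line (hR : RangeOK R) {u : Equiv.Perm W} (hu : IsP R u) (h : ¬ inA0 u) :
    ∃! v, IsTv v ∧ u * v = v * u := by
  obtain ⟨i, rfl⟩ := (isP_iff hR).1 hu
  exact tv_line_core h

theorem tv_exists (hR : RangeOK R) {v : Equiv.Perm W} (hv : IsTv v) :
    ∃ u, IsP R u ∧ ¬ inA0 u ∧ u * v = v * u := by
  obtain ⟨i, hi, hc⟩ := tv_exists_core hv
  exact ⟨tvP i, (isP_iff hR).2 ⟨i, rfl⟩, hi, hc⟩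

end CfsgLib.LargeFischer58
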