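import Cfsg.Agent.LargeFischer58.Cover
import Cfsg.Agent.LargeFischer58.Points
import Cfsg.Agent.LargeFischer58.Relations
import Cfsg.Agent.M24Module.Basic

/-!
Large Fischer type, the configuration: the members of the class commuting with `z` and their images.
-/

set_option autoImplicit false
set_option maxRecDepth 100000

namespace CfsgLib.LargeFischer58

open Cfsg CfsgLib.LargeFischer85 CfsgLib.LargeFischer28 CfsgLib.LargeFischer45

theorem inE_vadd {x y : W} (hx : InE x) (hy : InE y) : InE (vadd x y) := by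
  rcases hx with rfl | rfl | rfl | rfl <;> rcases hy with rfl | rfl | rfl | rfl <;> decide +kernel

namespace Cfg

variable {G : Type*} [Group G] [Finite G] {z : G} {Q : Subgroup ↥(CG z)} [Q.Normal]
  (C : Cfg z Q)

/-- The projection of an element of `G` centralising `E`. -/
def pj (j : G) (h : j ∈ C.CE) : C.X := C.proj ⟨j, h⟩

theorem mem_AG_iff {h : ↥(CG z)} : (h : G) ∈ C.AG ↔ h ∈ C.A :=
  Subgroup.mem_map_iff_mem (Subgroup.subtype_injective _)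

theorem mem_QG_iff' {h : ↥(CG z)} : (h : G) ∈ C.QG ↔ h ∈ Q :=
  Subgroup.mem_map_iff_mem (Subgroup.subtype_injective _)

theorem z_ne_one (C : Cfg z Q) : z ≠ 1 := fun h => by
  have h2 : orderOf z = 2 := C.std.model.ord
  have h3 : orderOf z = 1 := orderOf_eq_one_iff.2 h
  omega

theorem exists_conj_zp {x : GolayPt} (ha : x ≠ C.a) (hb : x ≠ C.b) (hc : x ≠ C.c) :
    ∃ m ∈ C.CE, m * z * m⁻¹ = C.zp x := by
  obtain ⟨σ, hσ, hσi⟩ := M24Module.exists_perm (k := 4) (by norm_num)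
    ![C.a, C.b, C.c, C.e] ![C.a, C.b, C.c, x] (by
      intro i j hij
      fin_cases i <;> fin_cases j <;>
        simp_all [C.hab, C.hac, C.hae, C.hbc, C.hbe, C.hce, C.hab.symm, C.hac.symm, C.hae.symm,
          C.hbc.symm, C.hbe.symm, C.hce.symm]) (by
      intro i j hij
      fin_cases i <;> fin_cases j <;>
        simp_all [C.hab, C.hac, C.hbc, C.hab.symm, C.hac.symm, C.hbc.symm, ha.symm, hb.symm,
          hc.symm])
  obtain ⟨m, -, hmC, -, hm⟩ := C.lift_fix hσ (hσi 0) (hσi 1) (hσi 2)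
  refine ⟨m, hmC, ?_⟩
  have h := hm C.e C.hce.symm
  have h3 : σ C.e = x := hσi 3
  rw [h3, C.zp_e] at h
  exact h

/-- The image of an element of `C(z)`. -/
def img (j : ↥(CG z)) : Equiv.Perm W := fhom C.act j

theorem img_mul (i j : ↥(CG z)) : C.img (i * j) = C.img i * C.img j := map_mul _ _ _

theorem img_inv (i : ↥(CG z)) : C.img i⁻¹ = (C.img i)⁻¹ := map_inv _ _

theorem img_eq_one_iff {j : ↥(CG z)} : C.img j = 1 ↔ (j : G) ∈ C.QG := by
  rw [C.mem_QG_iff', img, fhom_ker C.std.model]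

theorem img_conj (h j : ↥(CG z)) : C.img (h * j * h⁻¹) = C.img h * C.img j * (C.img h)⁻¹ := by
  rw [img_mul, img_mul, img_inv]

theorem commutator_vec (n : ↥(CG z)) (q : ↥Q) : ∃ r : ↥Q,
    (r : ↥(CG z)) = (q : ↥(CG z)) * n * (q : ↥(CG z))⁻¹ * n⁻¹ ∧
      C.pr r = vadd (C.pr q) (C.img n (C.pr q)) := by
  have hinv : C.pr q⁻¹ = C.pr q := by
    have h0 := C.std.model.pr_mul q⁻¹ q
    rw [inv_mul_cancel, (C.std.model.pr_zero 1).2 (Or.inl rfl)] at h0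
    refine Fin.ext ?_
    have h1 := congrArg (fun v : W => v.val ^^^ (C.pr q).val) h0
    simpa [vadd_val, Nat.xor_assoc] using h1.symm
  obtain ⟨s, hs, hps⟩ := act_pr' C.std.model n q⁻¹
  refine ⟨q * s, ?_, ?_⟩
  · rw [Subgroup.coe_mul, hs, InvMemClass.coe_inv]
    group
  · rw [C.std.model.pr_mul, hps, hinv]
    rfl

theorem orth_of_CE {q : ↥Q} (h : ((q : ↥(CG z)) : G) ∈ C.CE) :
    orth (C.pr q) e1 ∧ orth (C.pr q) e2 := C.mem_CE_Q.1 h

theorem inE_of_mem_E {q : ↥Q} (h : ((q : ↥(CG z)) : G) ∈ C.E) : InE (C.pr q) := by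
  obtain ⟨q1, hq1, he1⟩ := C.q1
  obtain ⟨q2, hq2, he2⟩ := C.q2
  rcases C.mem_E_iff.1 h with e | e | e | e
  · exact Or.inl ((C.std.model.pr_zero q).2 (Or.inl e))
  · obtain rfl : q = q1 := Subtype.ext (Subtype.ext (e.trans he1.symm))
    exact Or.inr (Or.inl hq1)
  · obtain rfl : q = q2 := Subtype.ext (Subtype.ext (e.trans he2.symm))
    exact Or.inr (Or.inr (Or.inl hq2))
  · obtain rfl : q = q1 * q2 := Subtype.ext (Subtype.ext (by
      rw [e, ← C.ab_bc, ← he1, ← he2]; rfl))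
    exact Or.inr (Or.inr (Or.inr (by rw [C.std.model.pr_mul, hq1, hq2])))

theorem mem_of_inE {q : ↥Q} (h : InE (C.pr q)) :
    ((q : ↥(CG z)) : G) ∈ C.E ∨ ((q : ↥(CG z)) : G) * z ∈ C.E := by
  obtain ⟨q1, hq1, he1⟩ := C.q1
  obtain ⟨q2, hq2, he2⟩ := C.q2
  have key : ∀ r : ↥Q, ((r : ↥(CG z)) : G) ∈ C.E → C.pr q = C.pr r →
      ((q : ↥(CG z)) : G) ∈ C.E ∨ ((q : ↥(CG z)) : G) * z ∈ C.E := by
    intro r hr e
    rcases eq_or_of_pr C.std.model e with e' | e'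
    · exact Or.inl (by rw [congrArg Subtype.val e']; exact hr)
    · refine Or.inr ?_
      rw [congrArg Subtype.val e']
      show (r : G) * z * z ∈ C.E
      rw [mul_assoc, C.AG_sq C.z_mem_AG, mul_one]
      exact hr
  rcases h with e | e | e | e
  · exact key 1 (one_mem _) (by rw [e, (C.std.model.pr_zero 1).2 (Or.inl rfl)])
  · exact key q1 (he1 ▸ C.ab_mem_E) (by rw [e, hq1])
  · exact key q2 (he2 ▸ C.bc_mem_E) (by rw [e, hq2])
  · refine key (q1 * q2) ?_ (by rw [e, C.std.model.pr_mul, hq1, hq2])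
    show ((q1 : ↥(CG z)) : G) * ((q2 : ↥(CG z)) : G) ∈ C.E
    rw [he1, he2]
    exact mul_mem C.ab_mem_E C.bc_mem_E

/-- The point over `x` inside `C(z)`. -/
def zpC (x : GolayPt) (hc : x ≠ C.c) : ↥(CG z) := ⟨C.zp x, C.AG_le_CG (C.zp_mem hc)⟩

theorem zpC_mem_A (x : GolayPt) (hc : x ≠ C.c) : C.zpC x hc ∈ C.A :=
  C.mem_AG_iff.1 (C.zp_mem hc)

/-- An element of `C(z)` lying over a member commuting with `z`. -/
def IsNbr (j : ↥(CG z)) : Prop :=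
  (j : G) ∈ C.CE ∧ ∃ h : ↥(CG z), (h : G) ∈ C.CE ∧ ∃ x,
    x ≠ C.a ∧ x ≠ C.b ∧ x ≠ C.c ∧ x ≠ C.e ∧ (h : G) * (j : G) * (h : G)⁻¹ = C.zp x

theorem isNbr_zpC {x : GolayPt} (ha : x ≠ C.a) (hb : x ≠ C.b) (hc : x ≠ C.c) (he : x ≠ C.e) :
    C.IsNbr (C.zpC x hc) :=
  ⟨C.AG_le_CE (C.zp_mem hc), 1, one_mem _, x, ha, hb, hc, he, by simp [zpC]⟩

theorem IsNbr.isConj {C : Cfg z Q} {j : ↥(CG z)} (hj : C.IsNbr j) : IsConj z (j : G) := by
  obtain ⟨-, h, -, x, ha, hb, hc, -, hx⟩ := hj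
  rw [← isConj_iff_right (h : G), hx]
  exact C.isConj_zp ha hb hc

theorem IsNbr.conj {C : Cfg z Q} {j : ↥(CG z)} (hj : C.IsNbr j) {k : ↥(CG z)}
    (hk : (k : G) ∈ C.CE) : C.IsNbr (k * j * k⁻¹) := by
  obtain ⟨hjE, h, hh, x, ha, hb, hc, he, hx⟩ := hj
  refine ⟨mul_mem (mul_mem hk hjE) (inv_mem hk), h * k⁻¹, mul_mem hh (inv_mem hk), x, ha, hb, hc,
    he, ?_⟩
  rw [← hx]
  simp only [Subgroup.coe_mul, InvMemClass.coe_inv]
  group

theorem exists_isNbr {y : C.X} (hy : y ∈ nbrs C.base) :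
    ∃ (j : ↥(CG z)) (hj : C.IsNbr j), y = C.pj j hj.1 := by
  obtain ⟨hconj, hne, hcomm⟩ := hy
  obtain ⟨g', hg'⟩ := isConj_iff.1 hconj
  obtain ⟨⟨g, hg⟩, rfl⟩ := C.proj_surj g'
  have hzC : z ∈ C.CE := C.AG_le_CE C.z_mem_AG
  have hjC : g * z * g⁻¹ ∈ C.CE := mul_mem (mul_mem hg hzC) (inv_mem hg)
  have hy' : y = C.proj ⟨g * z * g⁻¹, hjC⟩ := by
    rw [← hg', base, ← map_inv, ← map_mul, ← map_mul]; rfl
  rw [hy'] at hne hcomm
  have hc0 := C.proj_commute_iff.1 hcomm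
  have hjz : g * z * g⁻¹ * z = z * (g * z * g⁻¹) := by
    refine C.comm_z hjC ?_
    have := inv_mem hc0
    simpa [mul_assoc] using this
  have hsq : g * z * g⁻¹ * (g * z * g⁻¹) = 1 := by
    calc g * z * g⁻¹ * (g * z * g⁻¹) = g * (z * z) * g⁻¹ := by group
      _ = 1 := by rw [C.AG_sq C.z_mem_AG]; group
  obtain ⟨k, hk, hkz, hkA⟩ := C.cover hjC hjz (hsq ▸ one_mem _)
  have e1 : k * (g * z * g⁻¹) * k⁻¹ = (k * g) * z * (k * g)⁻¹ := by group
  rw [e1] at hkA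
  obtain ⟨x, ha, hb, hc, hx⟩ := C.conj_mem_pts (mul_mem hk hg) hkA
  rw [← e1] at hx
  have he : x ≠ C.e := by
    rintro rfl
    rw [C.zp_e] at hx
    have : g * z * g⁻¹ = z := by
      calc g * z * g⁻¹ = k⁻¹ * (k * (g * z * g⁻¹) * k⁻¹) * k := by group
        _ = k⁻¹ * (z * k) := by rw [hx, mul_assoc]
        _ = z := by rw [← hkz, inv_mul_cancel_left]
    apply hne
    show C.proj _ = C.proj _
    congr 1
    exact Subtype.ext this
  refine ⟨⟨g * z * g⁻¹, Subgroup.mem_centralizer_singleton_iff.2 hjz⟩, ⟨hjC,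
    ⟨k, Subgroup.mem_centralizer_singleton_iff.2 hkz⟩, hk, x, ha, hb, hc, he, hx⟩, hy'⟩

theorem pj_eq_iff {i j : G} (hi : i ∈ C.CE) (hj : j ∈ C.CE) :
    C.pj i hi = C.pj j hj ↔ i⁻¹ * j ∈ C.E := C.proj_eq_iff

theorem pj_mem_nbrs {j : ↥(CG z)} (hj : C.IsNbr j) : C.pj j hj.1 ∈ nbrs C.base := by
  obtain ⟨hjE, h, hh, x, ha, hb, hc, he, hx⟩ := hj
  refine ⟨?_, ?_, ?_⟩
  · obtain ⟨m, hm, hmz⟩ := C.exists_conj_zp ha hb hc
    refine (isConj_iff.2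
      ⟨C.proj ⟨(h : G)⁻¹ * m, mul_mem (inv_mem hh) hm⟩, ?_⟩)
    rw [base, pj, ← map_inv, ← map_mul, ← map_mul]
    refine congrArg C.proj (Subtype.ext ?_)
    show (h : G)⁻¹ * m * z * ((h : G)⁻¹ * m)⁻¹ = j
    calc (h : G)⁻¹ * m * z * ((h : G)⁻¹ * m)⁻¹ = (h : G)⁻¹ * (m * z * m⁻¹) * h := by group
      _ = j := by rw [hmz, ← hx]; group
  · intro e
    rw [base, pj, C.proj_eq_iff] at e
    simp only at e
    have hhz : (h : G) * z = z * (h : G) := Subgroup.mem_centralizer_singleton_iff.1 h.2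
    have hcomm : (h : G) * ((j : G)⁻¹ * z) = (j : G)⁻¹ * z * (h : G) :=
      (Subgroup.mem_centralizer_iff.1 hh _ e).symm
    have h2 : (C.zp x)⁻¹ * z = (j : G)⁻¹ * z := by
      calc (C.zp x)⁻¹ * z = (h : G) * (j : G)⁻¹ * ((h : G)⁻¹ * z) := by rw [← hx]; group
        _ = (h : G) * ((j : G)⁻¹ * z) * (h : G)⁻¹ := by
          rw [show (h : G)⁻¹ * z = z * (h : G)⁻¹ from by
            rw [eq_mul_inv_iff_mul_eq, mul_assoc, ← hhz, inv_mul_cancel_left]]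
          group
        _ = _ := by rw [hcomm, mul_inv_cancel_right]
    have hxe : C.zp x * C.zp C.e ∈ C.E := by
      rw [C.zp_e]
      rw [← h2, C.AG_inv (C.zp_mem hc)] at e
      exact e
    rw [C.zp_mul_zp hc C.hce.symm he] at hxe
    have hne := C.duads.other x C.e he
    rcases C.mem_E_iff.1 hxe with e' | e' | e' | e'
    · exact hne.1 e'
    all_goals
      have := C.duads.inj _ _ _ _ he e'
      have hm : x ∈ ({x, C.e} : Finset GolayPt) := Finset.mem_insert_self _ _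
      rw [this] at hm
      simp only [Finset.mem_insert, Finset.mem_singleton] at hm
      tauto
  · refine C.proj_commute_iff.2 ?_
    show z * (j : G) * z⁻¹ * (j : G)⁻¹ ∈ C.E
    rw [← Subgroup.mem_centralizer_singleton_iff.1 j.2, mul_inv_cancel_right, mul_inv_cancel]
    exact one_mem _

theorem img_zpC_eq {x : GolayPt} (hc : x ≠ C.c) (n : ↥(CG z)) (t : G) (ht : t ∈ C.E)
    (hn : (n : G) = t * C.zp x) : C.img n = C.img (C.zpC x hc) := by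
  have e : n = ⟨t, C.AG_le_CG (C.E_le_AG ht)⟩ * C.zpC x hc := Subtype.ext hn
  rw [e, img_mul, C.img_eq_one_iff.2 (C.E_le_QG ht), one_mul]

theorem isTv_zp {x : GolayPt} (ha : x ≠ C.a) (hb : x ≠ C.b) (hc : x ≠ C.c) (he : x ≠ C.e) :
    IsTv (C.img (C.zpC x hc)) := by
  have hax := C.duads.mem _ _ ha.symm
  have hbx := C.duads.mem _ _ hb.symm
  let n : ↥(CG z) := ⟨C.d C.a x, C.AG_le_CG hax⟩
  have hn : C.img n = C.img (C.zpC x hc) :=
    C.img_zpC_eq hc n _ C.bc_mem_E (C.bc_mul_zp ha hc).symm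
  have hnQ : C.d C.a x ∉ C.QG := fun h => by
    rcases C.mem_tet.1 ((C.tetrad_iff (C.mem_tet.2 (Or.inl rfl)) ha.symm).1 h) with e | e | e | e
    · exact ha e
    · exact hb e
    · exact hc e
    · exact he e
  refine ⟨hn ▸ ((C.std.mem_iff n).1 (C.mem_AG_iff.1 hax)).1, fun h1 => hnQ ?_, ?_⟩
  · exact C.img_eq_one_iff.1 (hn.trans h1)
  have hprod : C.d C.a x * C.d C.b x = C.d C.a C.b := by
    rw [C.duads.symm C.b x]; exact C.duads.tri _ _ _ ha.symm hb C.hab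
  obtain ⟨q, ⟨q, hq, rfl⟩, hqc⟩ := C.orbit_mem hax (C.duads.other _ _ ha.symm) hnQ hbx
    (C.duads.other _ _ hb.symm) (hprod ▸ C.ab_mem_QG)
  obtain ⟨r, hr, hpr⟩ := C.commutator_vec n ⟨q, hq⟩
  obtain ⟨q1, hq1, he1⟩ := C.q1
  obtain rfl : r = q1 := Subtype.ext (Subtype.ext (by
    rw [he1, hr]
    show (q : G) * C.d C.a x * (q : G)⁻¹ * (C.d C.a x)⁻¹ = _
    simp only [Subgroup.coe_subtype] at hqc
    rw [hqc, C.AG_inv hax, C.AG_comm hbx hax, hprod]))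
  exact ⟨C.pr ⟨q, hq⟩, hn ▸ hpr.symm.trans hq1⟩

theorem IsNbr.isP {C : Cfg z Q} {j : ↥(CG z)} (hj : C.IsNbr j) :
    IsP (fhom C.act).range (C.img j) := by
  obtain ⟨-, h, hh, x, ha, hb, hc, he, hx⟩ := hj
  refine ⟨C.img h, ⟨h, rfl⟩, (C.image_CE hh).2, ?_⟩
  rw [← img_conj, show h * j * h⁻¹ = C.zpC x hc from Subtype.ext hx]
  exact C.isTv_zp ha hb hc he

theorem IsNbr.img_ne_one {C : Cfg z Q} {j : ↥(CG z)} (hj : C.IsNbr j) : C.img j ≠ 1 := by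
  obtain ⟨k, hk, -, ht⟩ := hj.isP
  intro e
  apply ht.2.1
  rw [e, mul_one, mul_inv_cancel]

/-- The noncentral lift. -/
def lf (j : ↥(CG z)) : ↥(CG z) :=
  j * ⟨C.d C.a C.b, C.AG_le_CG (C.E_le_AG C.ab_mem_E)⟩

theorem img_lf (j : ↥(CG z)) : C.img (C.lf j) = C.img j := by
  rw [lf, img_mul, (C.img_eq_one_iff (j := ⟨C.d C.a C.b, _⟩)).2 C.ab_mem_QG, mul_one]

theorem coe_lf (j : ↥(CG z)) : ((C.lf j : ↥(CG z)) : G) = (j : G) * C.d C.a C.b := rfl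

theorem lf_mem_CE {j : ↥(CG z)} (hj : (j : G) ∈ C.CE) : ((C.lf j : ↥(CG z)) : G) ∈ C.CE := by
  rw [coe_lf]
  exact mul_mem hj (C.E_le_CE C.ab_mem_E)

theorem lf_conj (h j : ↥(CG z)) (hh : (h : G) ∈ C.CE) : h * C.lf j * h⁻¹ = C.lf (h * j * h⁻¹) := by
  refine Subtype.ext ?_
  have := (Subgroup.mem_centralizer_iff.1 hh _ C.ab_mem_E).symm
  simp only [lf, Subgroup.coe_mul, InvMemClass.coe_inv]
  calc (h : G) * ((j : G) * C.d C.a C.b) * (h : G)⁻¹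
      = (h : G) * (j : G) * (h : G)⁻¹ * ((h : G) * C.d C.a C.b) * (h : G)⁻¹ := by group
    _ = _ := by rw [this]; group

theorem IsNbr.lf_spec {C : Cfg z Q} {j : ↥(CG z)} (hj : C.IsNbr j) :
    Other z (C.lf j : G) ∧ C.lf j ∉ Q ∧ ∃ k : ↥(CG z), (k : G) ∈ C.CE ∧ k * C.lf j * k⁻¹ ∈ C.A := by
  have hQ : C.lf j ∉ Q := fun h => hj.img_ne_one (by
    rw [← C.img_lf]; exact C.img_eq_one_iff.2 (C.mem_QG_iff'.2 h))
  obtain ⟨-, h, hh, x, ha, hb, hc, he, hx⟩ := hj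
  have e : h * C.lf j * h⁻¹ = C.lf (C.zpC x hc) := by
    rw [C.lf_conj h j hh, show h * j * h⁻¹ = C.zpC x hc from Subtype.ext hx]
  have e' : (h : G) * (C.lf j : G) * (h : G)⁻¹ = C.d C.c x := by
    have := congrArg Subtype.val e
    simp only [Subgroup.coe_mul, InvMemClass.coe_inv] at this
    rw [this]
    show C.zp x * C.d C.a C.b = _
    rw [C.AG_comm (C.zp_mem hc) (C.E_le_AG C.ab_mem_E), C.ab_mul_zp]
  refine ⟨?_, hQ, h, hh, C.mem_AG_iff.1 ?_⟩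
  · rw [← other_conj (h : G), e']
    exact C.duads.other _ _ hc.symm
  · show (h : G) * (C.lf j : G) * (h : G)⁻¹ ∈ C.AG
    rw [e']
    exact C.duads.mem _ _ hc.symm

/-- A member with image in the subgroup of order 16 lies in the plane group. -/
theorem IsNbr.mem_A {C : Cfg z Q} {j : ↥(CG z)} (hj : C.IsNbr j) (hA : inA0 (C.img j)) :
    (j : G) ∈ C.AG ∧ C.lf j ∈ C.A := by
  obtain ⟨ho, hQ, k, -, hk⟩ := hj.lf_spec
  have hl := C.mem_of_conj hk ho hQ (by rw [← C.img_lf] at hA; exact hA)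
  refine ⟨?_, hl⟩
  have e : (j : G) = (C.lf j : G) * C.d C.a C.b := by
    show (j : G) = (j : G) * C.d C.a C.b * C.d C.a C.b
    rw [mul_assoc, C.AG_sq (C.E_le_AG C.ab_mem_E), mul_one]
  rw [e]
  exact mul_mem (C.mem_AG_iff.2 hl) (C.E_le_AG C.ab_mem_E)

theorem IsNbr.inA0_iff {C : Cfg z Q} {j : ↥(CG z)} (hj : C.IsNbr j) :
    inA0 (C.img j) ↔ C.pj j hj.1 ∈ C.Ab :=
  ⟨fun h => C.proj_mem_Ab_iff.2 (hj.mem_A h).1,
    fun h => ((C.std.mem_iff j).1 (C.mem_AG_iff.1 (C.proj_mem_Ab_iff.1 h))).1⟩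

end Cfg

end CfsgLib.LargeFischer58
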