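import Cfsg.Agent.LargeFischer58.NbrBasic

/-!
Large Fischer type, the configuration: the local geometry at the image of `z`.
-/

set_option autoImplicit false
set_option maxRecDepth 100000

namespace CfsgLib.LargeFischer58

open Cfsg CfsgLib.LargeFischer85 CfsgLib.LargeFischer28 CfsgLib.LargeFischer45

namespace Cfg

variable {G : Type*} [Group G] [Finite G] {z : G} {Q : Subgroup ↥(CG z)} [Q.Normal]
  (C : Cfg z Q)

theorem zpC_congr {x y : GolayPt} (hx : x ≠ C.c) (hy : y ≠ C.c) (h : x = y) :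
    C.zpC x hx = C.zpC y hy := by subst h; rfl

theorem adj_of_img_eq {x y : GolayPt} (hx : x ≠ C.c) (hy : y ≠ C.c) (hxy : x ≠ y)
    (h : C.img (C.zpC x hx) = C.img (C.zpC y hy)) : C.d x y ∈ C.QG := by
  have e : C.zpC x hx * C.zpC y hy = ⟨C.d x y, C.AG_le_CG (C.duads.mem _ _ hxy)⟩ :=
    Subtype.ext (C.zp_mul_zp hx hy hxy)
  have h2 : C.img (C.zpC x hx * C.zpC y hy) = 1 := by
    rw [img_mul, ← h, ← img_mul,
      show C.zpC x hx * C.zpC x hx = 1 from Subtype.ext (C.AG_sq (C.zp_mem hx)), img, map_one]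
  exact C.img_eq_one_iff.1 (e ▸ h2)

/-- The points other than `a`, `b`, `c`, `e`. -/
noncomputable def outer : Finset GolayPt :=
  Finset.univ \ {C.a, C.b, C.c, C.e}

theorem mem_outer {x : GolayPt} :
    x ∈ C.outer ↔ x ≠ C.a ∧ x ≠ C.b ∧ x ≠ C.c ∧ x ≠ C.e := by
  simp [outer]

theorem card_outer : C.outer.card = 20 := by
  have h4 : ({C.a, C.b, C.c, C.e} : Finset GolayPt).card = 4 := by
    rw [Finset.card_insert_of_notMem (by simp [C.hab, C.hac, C.hae]),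
      Finset.card_insert_of_notMem (by simp [C.hbc, C.hbe]), Finset.card_pair C.hce]
  rw [outer, Finset.card_sdiff_of_subset (Finset.subset_univ _), h4, Finset.card_univ]
  rfl

/-- The image over a point. -/
noncomputable def imgPt (x : GolayPt) : Equiv.Perm W := by
  classical
  exact if h : x = C.c then 1 else C.img (C.zpC x h)

theorem imgPt_eq {x : GolayPt} (h : x ≠ C.c) : C.imgPt x = C.img (C.zpC x h) := by
  rw [imgPt, dif_neg h]

/-- The points over a transvection. -/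
noncomputable def ptFib (v : Equiv.Perm W) : Finset GolayPt := by
  classical
  exact C.outer.filter fun x => C.imgPt x = v

theorem mem_ptFib {v : Equiv.Perm W} {x : GolayPt} :
    x ∈ C.ptFib v ↔ x ∈ C.outer ∧ C.imgPt x = v := by
  classical
  simp [ptFib]

theorem card_ptFib {v : Equiv.Perm W} (hv : IsTv v) : (C.ptFib v).card = 4 := by
  classical
  let T : Finset (Equiv.Perm W) := Finset.univ.filter IsTv
  have hT : T.card = 5 := by
    rw [← tv_five, Nat.card_eq_fintype_card, Fintype.card_subtype]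
  have hmap : ∀ x ∈ C.outer, C.imgPt x ∈ T := fun x hx => by
    obtain ⟨ha, hb, hc, he⟩ := C.mem_outer.1 hx
    rw [C.imgPt_eq hc]
    exact Finset.mem_filter.2 ⟨Finset.mem_univ _, C.isTv_zp ha hb hc he⟩
  have hsum := Finset.card_eq_sum_card_fiberwise (f := C.imgPt) (t := T) hmap
  have hle : ∀ w ∈ T, (C.outer.filter fun x => C.imgPt x = w).card ≤ 4 := by
    intro w _
    rcases (C.outer.filter fun x => C.imgPt x = w).eq_empty_or_nonempty with h | ⟨x, hx⟩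
    · rw [h, Finset.card_empty]; norm_num
    obtain ⟨hxo, hxw⟩ := Finset.mem_filter.1 hx
    have hsub : (C.outer.filter fun y => C.imgPt y = w) ⊆
        insert x ({y | y ≠ x ∧ C.d x y ∈ C.QG} : Set GolayPt).toFinite.toFinset := by
      intro y hy
      obtain ⟨hyo, hyw⟩ := Finset.mem_filter.1 hy
      rw [Finset.mem_insert, Set.Finite.mem_toFinset, Set.mem_setOf_eq]
      by_cases hyx : y = x
      · exact Or.inl hyx
      refine Or.inr ⟨hyx, C.adj_of_img_eq (C.mem_outer.1 hxo).2.2.1 (C.mem_outer.1 hyo).2.2.1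
        (Ne.symm hyx) ?_⟩
      rw [← C.imgPt_eq, ← C.imgPt_eq, hxw, hyw]
    refine (Finset.card_le_card hsub).trans ((Finset.card_insert_le _ _).trans ?_)
    rw [← Set.ncard_eq_toFinset_card, C.adj_card x]
  have hvT : v ∈ T := Finset.mem_filter.2 ⟨Finset.mem_univ _, hv⟩
  have hrest : ∑ w ∈ T.erase v, (C.outer.filter fun x => C.imgPt x = w).card ≤ 16 := by
    refine (Finset.sum_le_card_nsmul _ _ 4 fun w hw => hle w (Finset.mem_of_mem_erase hw)).trans ?_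
    rw [Finset.card_erase_of_mem hvT, hT]
    norm_num
  rw [← Finset.add_sum_erase _ _ hvT, card_outer] at hsum
  have := hle v hvT
  show (C.outer.filter fun x => C.imgPt x = v).card = 4
  omega

theorem exists_over {v : Equiv.Perm W} (hv : IsTv v) :
    ∃ x, ∃ hc : x ≠ C.c, x ∈ C.outer ∧ C.img (C.zpC x hc) = v := by
  obtain ⟨x, hx⟩ := Finset.card_pos.1 (show 0 < (C.ptFib v).card by rw [C.card_ptFib hv]; norm_num)
  obtain ⟨hxo, hxv⟩ := C.mem_ptFib.1 hx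
  exact ⟨x, (C.mem_outer.1 hxo).2.2.1, hxo, by rwa [← C.imgPt_eq]⟩

theorem exists_nbr_of_isP {u : Equiv.Perm W} (hu : IsP (fhom C.act).range u) :
    ∃ j : ↥(CG z), C.IsNbr j ∧ C.img j = u := by
  obtain ⟨h, hh, hf, ht⟩ := hu
  obtain ⟨k, hk, hkE⟩ := C.lift_stabE (u := h) ⟨hh, hf⟩
  obtain ⟨x, hc, hxo, hxv⟩ := C.exists_over ht
  obtain ⟨ha, hb, -, he⟩ := C.mem_outer.1 hxo
  refine ⟨k⁻¹ * C.zpC x hc * k⁻¹⁻¹, (C.isNbr_zpC ha hb hc he).conj (inv_mem hkE), ?_⟩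
  rw [img_conj, hxv, img_inv, show C.img k = h from hk]
  group

theorem pts_cases {y : C.X} (hy : y ∈ pts C.base C.Ab) :
    y = C.base ∨ ∃ x, ∃ hc : x ≠ C.c, x ∈ C.outer ∧
      y = C.pj (C.zp x) (C.AG_le_CE (C.zp_mem hc)) := by
  obtain ⟨hconj, hAb⟩ := hy
  obtain ⟨g', hg'⟩ := isConj_iff.1 hconj
  obtain ⟨⟨g, hg⟩, rfl⟩ := C.proj_surj g'
  have hjC : g * z * g⁻¹ ∈ C.CE :=
    mul_mem (mul_mem hg (C.AG_le_CE C.z_mem_AG)) (inv_mem hg)
  have hy' : y = C.pj (g * z * g⁻¹) hjC := by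
    rw [← hg', base, ← map_inv, ← map_mul, ← map_mul]; rfl
  rw [hy'] at hAb
  obtain ⟨x, ha, hb, hc, hx⟩ := C.conj_mem_pts hg (C.proj_mem_Ab_iff.1 hAb)
  by_cases he : x = C.e
  · refine Or.inl ?_
    rw [hy', pj, base]
    refine congrArg C.proj (Subtype.ext ?_)
    show g * z * g⁻¹ = z
    rw [hx, he, C.zp_e]
  · refine Or.inr ⟨x, hc, C.mem_outer.2 ⟨ha, hb, hc, he⟩, ?_⟩
    rw [hy']
    exact congrArg C.proj (Subtype.ext hx)

theorem pt_mem {x : GolayPt} (hc : x ≠ C.c) (hxo : x ∈ C.outer) :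
    C.pj (C.zp x) (C.AG_le_CE (C.zp_mem hc)) ∈ pts C.base C.Ab := by
  obtain ⟨ha, hb, -, he⟩ := C.mem_outer.1 hxo
  exact ⟨(C.pj_mem_nbrs (C.isNbr_zpC ha hb hc he)).1, C.proj_mem_Ab_iff.2 (C.zp_mem hc)⟩

theorem pt_ne_base {x : GolayPt} (hc : x ≠ C.c) (hxo : x ∈ C.outer) :
    C.pj (C.zp x) (C.AG_le_CE (C.zp_mem hc)) ≠ C.base := by
  obtain ⟨ha, hb, -, he⟩ := C.mem_outer.1 hxo
  exact (C.pj_mem_nbrs (C.isNbr_zpC ha hb hc he)).2.1

theorem outer_inj {x y : GolayPt} (hx : x ∈ C.outer) (hy : y ∈ C.outer) (hxc : x ≠ C.c)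
    (hyc : y ≠ C.c)
    (h : C.pj (C.zp x) (C.AG_le_CE (C.zp_mem hxc)) = C.pj (C.zp y) (C.AG_le_CE (C.zp_mem hyc))) :
    x = y := by
  by_contra hne
  rw [C.pj_eq_iff, C.AG_inv (C.zp_mem hxc), C.zp_mul_zp hxc hyc hne] at h
  obtain ⟨ha, hb, -, -⟩ := C.mem_outer.1 hx
  rcases C.mem_E_iff.1 h with e | e | e | e
  · exact (C.duads.other x y hne).1 e
  all_goals
    have := C.duads.inj _ _ _ _ hne e
    have hm : x ∈ ({x, y} : Finset GolayPt) := Finset.mem_insert_self _ _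
    rw [this] at hm
    simp only [Finset.mem_insert, Finset.mem_singleton] at hm
    tauto

/-- Members over two transvections with a common plane are moved into the plane group. -/
theorem IsNbr.into_plane {C : Cfg z Q} {j : ↥(CG z)} (hj : C.IsNbr j) {h : ↥(CG z)}
    (hh : (h : G) ∈ C.CE) (hA : inA0 (C.img h * C.img j * (C.img h)⁻¹)) :
    (h : G) * (j : G) * (h : G)⁻¹ ∈ C.AG ∧ C.lf (h * j * h⁻¹) ∈ C.A :=
  (hj.conj hh).mem_A (by rwa [img_conj])

theorem nbr_commute_iff {i j : ↥(CG z)} (hi : C.IsNbr i) (hj : C.IsNbr j) :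
    Commute (C.pj i hi.1) (C.pj j hj.1) ↔ C.img i * C.img j = C.img j * C.img i := by
  constructor
  · intro h
    have h1 : C.img (i * j * i⁻¹ * j⁻¹) = 1 :=
      C.img_eq_one_iff.2 (C.E_le_QG (C.proj_commute_iff.1 h))
    rw [img_mul, img_mul, img_mul, img_inv, img_inv, mul_inv_eq_one,
      mul_inv_eq_iff_eq_mul] at h1
    exact h1
  · intro h
    obtain ⟨u, hu, hu1, hu2⟩ := tv_comm C.range hi.isP hj.isP h
    obtain ⟨k, hk, hkE⟩ := C.lift_stabE hu
    have a1 := (hi.into_plane hkE (by rw [show C.img k = u from hk]; exact hu1.1)).1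
    have a2 := (hj.into_plane hkE (by rw [show C.img k = u from hk]; exact hu2.1)).1
    refine C.proj_commute_iff.2 ?_
    have e := C.AG_comm a1 a2
    have e' : (i : G) * (j : G) = (j : G) * (i : G) := by
      calc (i : G) * (j : G) = (k : G)⁻¹ * ((k : G) * i * (k : G)⁻¹ * ((k : G) * j * (k : G)⁻¹)) * k := by
            group
        _ = (j : G) * (i : G) := by rw [e]; group
    show (i : G) * (j : G) * (i : G)⁻¹ * (j : G)⁻¹ ∈ C.E
    rw [e', mul_inv_cancel_right, mul_inv_cancel]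
    exact one_mem _

theorem base_commute {j : ↥(CG z)} (hj : C.IsNbr j) : Commute (C.pj j hj.1) C.base :=
  (C.pj_mem_nbrs hj).2.2.symm

theorem line_set {j : ↥(CG z)} (hj : C.IsNbr j) {v : Equiv.Perm W} (hv : IsTv v)
    (huv : C.img j * v = v * C.img j)
    (huniq : ∀ w, IsTv w ∧ C.img j * w = w * C.img j → w = v) {y : C.X} :
    (y ∈ pts C.base C.Ab ∧ Commute (C.pj j hj.1) y) ↔
      (y = C.base ∨ ∃ x, ∃ hc : x ≠ C.c, x ∈ C.ptFib v ∧
        y = C.pj (C.zp x) (C.AG_le_CE (C.zp_mem hc))) := by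
  constructor
  · rintro ⟨hy, hcy⟩
    rcases C.pts_cases hy with rfl | ⟨x, hc, hxo, rfl⟩
    · exact Or.inl rfl
    refine Or.inr ⟨x, hc, C.mem_ptFib.2 ⟨hxo, ?_⟩, rfl⟩
    obtain ⟨ha, hb, -, he⟩ := C.mem_outer.1 hxo
    rw [C.imgPt_eq hc]
    exact huniq _ ⟨C.isTv_zp ha hb hc he,
      (C.nbr_commute_iff hj (C.isNbr_zpC ha hb hc he)).1 hcy⟩
  · rintro (rfl | ⟨x, hc, hxf, rfl⟩)
    · exact ⟨⟨mem_conjugatesOf_self, C.base_mem_Ab⟩, C.base_commute hj⟩
    obtain ⟨hxo, hxv⟩ := C.mem_ptFib.1 hxf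
    obtain ⟨ha, hb, -, he⟩ := C.mem_outer.1 hxo
    refine ⟨C.pt_mem hc hxo, (C.nbr_commute_iff hj (C.isNbr_zpC ha hb hc he)).2 ?_⟩
    rw [C.imgPt_eq hc] at hxv
    rw [hxv]; exact huv

theorem line_facts' {d : C.X} (hd : d ∈ nbrs C.base) (hA : d ∉ C.Ab) :
    ∃ (j : ↥(CG z)) (hj : C.IsNbr j), d = C.pj j hj.1 ∧ ∃ v, IsTv v ∧ C.img j * v = v * C.img j ∧
      ∀ w, IsTv w ∧ C.img j * w = w * C.img j → w = v := by
  obtain ⟨j, hj, rfl⟩ := C.exists_isNbr hd
  obtain ⟨v, ⟨hv, hjv⟩, huniq⟩ := tv_line C.range hj.isP fun h => hA (hj.inA0_iff.1 h)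
  exact ⟨j, hj, rfl, v, hv, hjv, huniq⟩

theorem line' {d : C.X} (hd : d ∈ nbrs C.base) (hA : d ∉ C.Ab) :
    {x | x ∈ pts C.base C.Ab ∧ Commute d x}.ncard = 5 ∧
      ∃ g : C.X, g * d * g⁻¹ ∈ C.Ab ∧
        ∀ x ∈ pts C.base C.Ab, Commute d x → g * x * g⁻¹ ∈ C.Ab := by
  classical
  obtain ⟨j, hj, rfl, v, hv, hjv, huniq⟩ := C.line_facts' hd hA
  refine ⟨?_, ?_⟩
  · let f : GolayPt → C.X := fun x =>
      if h : x = C.c then C.base else C.pj (C.zp x) (C.AG_le_CE (C.zp_mem h))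
    have hf : ∀ x (hc : x ≠ C.c), f x = C.pj (C.zp x) (C.AG_le_CE (C.zp_mem hc)) :=
      fun x hc => dif_neg hc
    have heq : {x | x ∈ pts C.base C.Ab ∧ Commute (C.pj j hj.1) x} =
        ↑(insert C.base ((C.ptFib v).image f)) := by
      ext y
      rw [Set.mem_setOf_eq, C.line_set hj hv hjv huniq, Finset.coe_insert, Set.mem_insert_iff,
        Finset.coe_image, Set.mem_image]
      refine or_congr Iff.rfl ⟨?_, ?_⟩
      · rintro ⟨x, hc, hx, rfl⟩
        exact ⟨x, hx, hf x hc⟩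
      · rintro ⟨x, hx, rfl⟩
        have hc := (C.mem_outer.1 (C.mem_ptFib.1 hx).1).2.2.1
        exact ⟨x, hc, hx, hf x hc⟩
    rw [heq, Set.ncard_coe_finset, Finset.card_insert_of_notMem, Finset.card_image_of_injOn,
      C.card_ptFib hv]
    · intro x hx y hy hxy
      have hxo := (C.mem_ptFib.1 (Finset.mem_coe.1 hx)).1
      have hyo := (C.mem_ptFib.1 (Finset.mem_coe.1 hy)).1
      have hxc := (C.mem_outer.1 hxo).2.2.1
      have hyc := (C.mem_outer.1 hyo).2.2.1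
      rw [hf x hxc, hf y hyc] at hxy
      exact C.outer_inj hxo hyo hxc hyc hxy
    · intro h
      obtain ⟨x, hx, e⟩ := Finset.mem_image.1 h
      have hxo := (C.mem_ptFib.1 hx).1
      rw [hf x (C.mem_outer.1 hxo).2.2.1] at e
      exact C.pt_ne_base (C.mem_outer.1 hxo).2.2.1 hxo e
  · obtain ⟨u, hu, hu1, hu2⟩ := tv_comm C.range hj.isP hv.isP hjv
    obtain ⟨k, hk, hkE⟩ := C.lift_stabE hu
    refine ⟨C.pj k hkE, ?_, fun y hy hdy => ?_⟩
    · have := (hj.into_plane hkE (by rw [show C.img k = u from hk]; exact hu1.1)).1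
      rw [pj, pj, ← map_inv, ← map_mul, ← map_mul]
      exact C.proj_mem_Ab_iff.2 this
    rcases (C.line_set hj hv hjv huniq).1 ⟨hy, hdy⟩ with rfl | ⟨x, hc, hxf, rfl⟩
    · rw [base, pj, ← map_inv, ← map_mul, ← map_mul]
      refine C.proj_mem_Ab_iff.2 ?_
      show (k : G) * z * (k : G)⁻¹ ∈ C.AG
      rw [Subgroup.mem_centralizer_singleton_iff.1 k.2, mul_inv_cancel_right]
      exact C.z_mem_AG
    · obtain ⟨hxo, hxv⟩ := C.mem_ptFib.1 hxf
      obtain ⟨ha, hb, -, he⟩ := C.mem_outer.1 hxo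
      rw [C.imgPt_eq hc] at hxv
      have := ((C.isNbr_zpC ha hb hc he).into_plane hkE
        (by rw [show C.img k = u from hk, hxv]; exact hu2.1)).1
      rw [pj, pj, ← map_inv, ← map_mul, ← map_mul]
      exact C.proj_mem_Ab_iff.2 this

theorem line_unique' {d d' : C.X} (hd : d ∈ nbrs C.base) (hd' : d' ∈ nbrs C.base)
    (hA : d ∉ C.Ab) (hA' : d' ∉ C.Ab) {y : C.X} (hy : y ∈ pts C.base C.Ab) (hne : y ≠ C.base)
    (hdy : Commute d y) (hd'y : Commute d' y) {w : C.X} (hw : w ∈ pts C.base C.Ab)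
    (hdw : Commute d w) : Commute d' w := by
  obtain ⟨j, hj, rfl, v, hv, hjv, huniq⟩ := C.line_facts' hd hA
  obtain ⟨j', hj', rfl, v', hv', hjv', huniq'⟩ := C.line_facts' hd' hA'
  have hvv : v = v' := by
    rcases (C.line_set hj hv hjv huniq).1 ⟨hy, hdy⟩ with e | ⟨x, hc, hx, e⟩
    · exact absurd e hne
    rcases (C.line_set hj' hv' hjv' huniq').1 ⟨hy, hd'y⟩ with e' | ⟨x', hc', hx', e'⟩
    · exact absurd e' hne
    obtain rfl : x = x' :=
      C.outer_inj (C.mem_ptFib.1 hx).1 (C.mem_ptFib.1 hx').1 hc hc' (e.symm.trans e')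
    exact (C.mem_ptFib.1 hx).2.symm.trans (C.mem_ptFib.1 hx').2
  subst hvv
  exact ((C.line_set hj' hv' hjv' huniq').2 ((C.line_set hj hv hjv huniq).1 ⟨hw, hdw⟩)).2

theorem line_exists' {y : C.X} (hy : y ∈ pts C.base C.Ab) (hne : y ≠ C.base) :
    ∃ d ∈ nbrs C.base, d ∉ C.Ab ∧ Commute d y := by
  rcases C.pts_cases hy with rfl | ⟨x, hc, hxo, rfl⟩
  · exact absurd rfl hne
  obtain ⟨ha, hb, -, he⟩ := C.mem_outer.1 hxo
  obtain ⟨u, hu, huA, huv⟩ := tv_exists C.range (C.isTv_zp ha hb hc he)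
  obtain ⟨j, hj, rfl⟩ := C.exists_nbr_of_isP hu
  exact ⟨C.pj j hj.1, C.pj_mem_nbrs hj, fun h => huA (hj.inA0_iff.2 h),
    (C.nbr_commute_iff hj (C.isNbr_zpC ha hb hc he)).2 huv⟩

/-- An element of `Q` joining two noncentral lifts over the same transvection. -/
theorem move_lf {i j : ↥(CG z)} (hi : C.IsNbr i) (hj : C.IsNbr j) (hij : C.img i = C.img j) :
    ∃ w, ∃ r : ↥Q, (r : ↥(CG z)) = C.lf j * (C.lf i)⁻¹ ∧ vadd w (C.img i w) = C.pr r := by
  obtain ⟨k, hk, hf, ht⟩ := hi.isP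
  obtain ⟨h, hh, hhE⟩ := C.lift_stabE (u := k) ⟨hk, hf⟩
  have e1 : inA0 (C.img h * C.img i * (C.img h)⁻¹) := by
    rw [show C.img h = k from hh]; exact ht.1
  have hi' := (hi.conj hhE).lf_spec
  have hj' := (hj.conj hhE).lf_spec
  have ai := (hi.into_plane hhE e1).2
  have aj := (hj.into_plane hhE (hij ▸ e1)).2
  have hpQ : ((C.lf (h * i * h⁻¹) : ↥(CG z)) : G) * (C.lf (h * j * h⁻¹) : G) ∈ C.QG := by
    refine (C.img_eq_one_iff (j := C.lf (h * i * h⁻¹) * C.lf (h * j * h⁻¹))).1 ?_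
    rw [img_mul, img_lf, img_lf, img_conj, img_conj, ← hij, ← img_conj, ← C.img_lf (h * i * h⁻¹),
      ← img_mul, C.std.sq _ ai, img, map_one]
  obtain ⟨q, ⟨q, hq, rfl⟩, hqc⟩ := C.orbit_mem (C.mem_AG_iff.2 ai) hi'.1
    (fun hQ => hi'.2.1 (C.mem_QG_iff'.1 hQ)) (C.mem_AG_iff.2 aj) hj'.1 hpQ
  let q0 : ↥Q := ⟨h⁻¹ * q * h⁻¹⁻¹, (inferInstance : Q.Normal).conj_mem _ hq h⁻¹⟩
  obtain ⟨r, hr, hpr⟩ := C.commutator_vec (C.lf i) q0
  refine ⟨C.pr q0, r, ?_, ?_⟩
  · rw [hr]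
    congr 1
    have hqc' : q * C.lf (h * i * h⁻¹) * q⁻¹ = C.lf (h * j * h⁻¹) := Subtype.ext hqc
    rw [← C.lf_conj h i hhE, ← C.lf_conj h j hhE] at hqc'
    show h⁻¹ * q * h⁻¹⁻¹ * C.lf i * (h⁻¹ * q * h⁻¹⁻¹)⁻¹ = C.lf j
    calc h⁻¹ * q * h⁻¹⁻¹ * C.lf i * (h⁻¹ * q * h⁻¹⁻¹)⁻¹
        = h⁻¹ * (q * (h * C.lf i * h⁻¹) * q⁻¹) * h := by group
      _ = C.lf j := by rw [hqc']; group
  · rw [hpr, C.img_lf]

/-- Fixed vectors commute with the noncentral lift. -/
theorem IsNbr.lf_comm {C : Cfg z Q} {j : ↥(CG z)} (hj : C.IsNbr j) (q : ↥Q)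
    (h : C.img j (C.pr q) = C.pr q) : C.lf j * q = q * C.lf j := by
  obtain ⟨ho, hQ, k, -, hk⟩ := hj.lf_spec
  obtain ⟨r, hr, hpr⟩ := act_pr' C.std.model k q
  have ho' : Other z ((k * C.lf j * k⁻¹ : ↥(CG z)) : G) := by
    simp only [Subgroup.coe_mul, InvMemClass.coe_inv]
    exact (other_conj _).2 ho
  have hQ' : k * C.lf j * k⁻¹ ∉ Q := fun hh => hQ (by
    have := (inferInstance : Q.Normal).conj_mem _ hh k⁻¹
    simpa [mul_assoc] using this)
  have hfix : fhom C.act (k * C.lf j * k⁻¹) (C.pr r) = C.pr r := by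
    show C.img (k * C.lf j * k⁻¹) (C.pr r) = C.pr r
    rw [img_conj, hpr, img_lf]
    show C.img k (C.img j ((C.img k)⁻¹ (C.img k (C.pr q)))) = C.img k (C.pr q)
    simp [h]
  have := C.comm_full hk ho' hQ' r hfix
  rw [hr] at this
  calc C.lf j * q = k⁻¹ * (k * C.lf j * k⁻¹ * (k * (q : ↥(CG z)) * k⁻¹)) * k := by group
    _ = (q : ↥(CG z)) * C.lf j := by rw [this]; group

theorem lf_sq {j : ↥(CG z)} (hj : C.IsNbr j) : C.lf j * C.lf j = 1 := by
  obtain ⟨-, -, k, -, hk⟩ := hj.lf_spec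
  have := C.std.sq _ hk
  have e : C.lf j * C.lf j = k⁻¹ * (k * C.lf j * k⁻¹ * (k * C.lf j * k⁻¹)) * k := by group
  rw [e, this, mul_one, inv_mul_cancel]

theorem three' {d e : C.X} (hd : d ∈ nbrs C.base) (he : e ∈ nbrs C.base) (hne : ¬ Commute d e) :
    (d * e) ^ 3 = 1 := by
  obtain ⟨i, hi, rfl⟩ := C.exists_isNbr hd
  obtain ⟨j, hj, rfl⟩ := C.exists_isNbr he
  have huv : C.img i * C.img j ≠ C.img j * C.img i := fun h => hne ((C.nbr_commute_iff hi hj).2 h)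
  set n := C.lf i with hn
  set m := C.lf j with hm
  have hn2 : n * n = 1 := C.lf_sq hi
  have hm2 : m * m = 1 := C.lf_sq hj
  have hxQ : (n * m) ^ 3 ∈ Q := by
    rw [← fhom_ker C.std.model, map_pow, map_mul]
    show (C.img n * C.img m) ^ 3 = 1
    rw [img_lf, img_lf]
    exact tv_three C.range hi.isP hj.isP huv
  set x : ↥Q := ⟨(n * m) ^ 3, hxQ⟩ with hx
  have hinv : n * (x : ↥(CG z)) * n⁻¹ = (x : ↥(CG z))⁻¹ ∧ m * (x : ↥(CG z)) * m⁻¹ = (x : ↥(CG z))⁻¹ := by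
    show n * (n * m) ^ 3 * n⁻¹ = ((n * m) ^ 3)⁻¹ ∧ m * (n * m) ^ 3 * m⁻¹ = ((n * m) ^ 3)⁻¹
    have hn' : n⁻¹ = n := inv_eq_of_mul_eq_one_right hn2
    have hm' : m⁻¹ = m := inv_eq_of_mul_eq_one_right hm2
    simp only [pow_succ, pow_zero, one_mul, mul_inv_rev, hn', hm', mul_assoc]
    refine ⟨?_, ?_⟩
    · rw [← mul_assoc n n, hn2, one_mul]
    · rw [hm2, mul_one]
  have hfix : ∀ k : ↥(CG z), k * (x : ↥(CG z)) * k⁻¹ = (x : ↥(CG z))⁻¹ →
      C.img k (C.pr x) = C.pr x := by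
    intro k hk
    obtain ⟨r, hr, hpr⟩ := act_pr' C.std.model k x
    rw [hk] at hr
    have hr' : r = x⁻¹ := Subtype.ext (hr.trans (InvMemClass.coe_inv x).symm)
    show fhom C.act k (C.pr x) = C.pr x
    rw [← hpr, hr']
    have h0 := C.std.model.pr_mul x⁻¹ x
    rw [inv_mul_cancel, (C.std.model.pr_zero 1).2 (Or.inl rfl)] at h0
    refine Fin.ext ?_
    have h1 := congrArg (fun v : W => v.val ^^^ (C.pr x).val) h0
    simpa [vadd_val, Nat.xor_assoc] using h1.symm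
  have hui : C.img i (C.pr x) = C.pr x := by rw [← C.img_lf]; exact hfix n hinv.1
  have huj : C.img j (C.pr x) = C.pr x := by rw [← C.img_lf]; exact hfix m hinv.2
  have hx2 : (x : ↥(CG z)) * x = 1 := by
    have := hi.lf_comm x hui
    rw [← hn] at this
    have h1 := hinv.1
    rw [this, mul_inv_cancel_right] at h1
    exact mul_eq_one_iff_eq_inv.2 h1
  have hxC : ((x : ↥(CG z)) : G) ∈ C.CE := by
    have e1 : (n : G) ∈ C.CE := mul_mem hi.1 (C.E_le_CE C.ab_mem_E)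
    have e2 : (m : G) ∈ C.CE := mul_mem hj.1 (C.E_le_CE C.ab_mem_E)
    show (((n * m) ^ 3 : ↥(CG z)) : G) ∈ C.CE
    rw [SubmonoidClass.coe_pow, Subgroup.coe_mul]
    exact pow_mem (mul_mem e1 e2) 3
  have hpn : ∀ k : ↥(CG z), ∀ hk : (k : G) ∈ C.CE,
      C.pj (C.lf k : G) (C.lf_mem_CE hk) = C.pj k hk := by
    intro k hk
    rw [C.pj_eq_iff, coe_lf]
    rw [mul_inv_rev, mul_assoc, inv_mul_cancel, mul_one]
    exact inv_mem C.ab_mem_E
  have hproj : C.pj ((x : ↥(CG z)) : G) hxC = (C.pj i hi.1 * C.pj j hj.1) ^ 3 := by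
    rw [← hpn i hi.1, ← hpn j hj.1, pj, pj, pj, ← map_mul, ← map_pow]
    refine congrArg C.proj (Subtype.ext ?_)
    show (((n * m) ^ 3 : ↥(CG z)) : G) = _
    rw [SubmonoidClass.coe_pow, SubmonoidClass.coe_pow, Subgroup.coe_mul, Subgroup.coe_mul]
  rw [← hproj]
  -- the member over the same transvection
  set D := C.pj i hi.1
  set E' := C.pj j hj.1
  have hD2 : D * D = 1 := by
    show C.pj i hi.1 * C.pj i hi.1 = 1
    rw [← hpn i hi.1]
    show C.proj _ * C.proj _ = 1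
    rw [← map_mul, C.proj_eq_one_iff]
    show (n : G) * (n : G) ∈ C.E
    rw [show (n : G) * (n : G) = 1 from congrArg Subtype.val hn2]
    exact one_mem _
  have hE2 : E' * E' = 1 := by
    show C.pj j hj.1 * C.pj j hj.1 = 1
    rw [← hpn j hj.1]
    show C.proj _ * C.proj _ = 1
    rw [← map_mul, C.proj_eq_one_iff]
    show (m : G) * (m : G) ∈ C.E
    rw [show (m : G) * (m : G) = 1 from congrArg Subtype.val hm2]
    exact one_mem _
  obtain ⟨j'', hj'', hjj⟩ : ∃ (k : ↥(CG z)) (hk : C.IsNbr k), C.pj k hk.1 = E' * (D * E') ^ 3 := by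
    have hy : E' * (D * E') ^ 3 = (E' * D * E') * D * (E' * D * E')⁻¹ := by
      rw [mul_inv_rev, mul_inv_rev, inv_eq_of_mul_eq_one_right hD2, inv_eq_of_mul_eq_one_right hE2]
      simp only [pow_succ, pow_zero, one_mul, mul_assoc]
    have hcomm : Commute (E' * (D * E') ^ 3) C.base :=
      (C.base_commute hj).mul_left (((C.base_commute hi).mul_left (C.base_commute hj)).pow_left 3)
    have hmem : E' * (D * E') ^ 3 ∈ nbrs C.base := by
      refine ⟨?_, fun e => ?_, hcomm.symm⟩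
      · rw [hy]
        exact (C.pj_mem_nbrs hi).1.trans (isConj_iff.2 ⟨_, rfl⟩)
      · rw [← hproj] at e
        change C.proj _ * C.proj _ = C.proj _ at e
        rw [← map_mul, C.proj_eq_iff] at e
        have h1 : C.img j = 1 := by
          have h2 : C.img ((j * (x : ↥(CG z)))⁻¹ * zC z) = 1 := C.img_eq_one_iff.2 (C.E_le_QG e)
          rw [img_mul, img_inv, img_mul, (C.img_eq_one_iff (j := (x : ↥(CG z)))).2 ⟨x.1, x.2, rfl⟩,
            mul_one, (C.img_eq_one_iff (j := zC z)).2 ⟨zC z, C.std.model.mem, rfl⟩, mul_one,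
            inv_eq_one] at h2
          exact h2
        exact hj.img_ne_one h1
    obtain ⟨k, hk, e⟩ := C.exists_isNbr hmem
    exact ⟨k, hk, e.symm⟩
  rw [← hproj] at hjj
  change C.proj _ = C.proj _ * C.proj _ at hjj
  rw [← map_mul, C.proj_eq_iff] at hjj
  simp only [Subgroup.coe_mul] at hjj
  -- `hjj : j''⁻¹ * (j * x) ∈ E`
  set t : G := (j'' : G)⁻¹ * ((j : G) * ((x : ↥(CG z)) : G)) with ht
  have htQ : t ∈ C.QG := C.E_le_QG hjj
  have himg : C.img j'' = C.img j := by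
    have h2 : C.img (j''⁻¹ * (j * (x : ↥(CG z)))) = 1 := C.img_eq_one_iff.2 htQ
    rw [img_mul, img_inv, img_mul, (C.img_eq_one_iff (j := (x : ↥(CG z)))).2 ⟨x.1, x.2, rfl⟩,
      mul_one, inv_mul_eq_one] at h2
    exact h2
  obtain ⟨w, r, hr, hw⟩ := C.move_lf hj hj'' himg.symm
  have hxm := hj.lf_comm x huj
  rw [← hm] at hxm hr
  have hrx : ((r : ↥(CG z)) : G) = ((x : ↥(CG z)) : G) * t⁻¹ := by
    rw [hr]
    have hmx : (m : G) * ((x : ↥(CG z)) : G) = ((x : ↥(CG z)) : G) * (m : G) :=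
      congrArg Subtype.val hxm
    have hab : C.d C.a C.b * C.d C.a C.b = 1 := C.AG_sq (C.E_le_AG C.ab_mem_E)
    have hce : ∀ g : G, g ∈ C.CE → ∀ s ∈ C.E, g * s = s * g := fun g hg s hs =>
      (Subgroup.mem_centralizer_iff.1 hg s hs).symm
    have hj'' : (j'' : G) = (j : G) * ((x : ↥(CG z)) : G) * t⁻¹ := by
      rw [ht]; group
    show (j'' : G) * C.d C.a C.b * ((m : G))⁻¹ = _
    rw [inv_eq_of_mul_eq_one_right (show (m : G) * (m : G) = 1 from congrArg Subtype.val hm2), hj'']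
    have hti := inv_mem hjj
    show (j : G) * ((x : ↥(CG z)) : G) * t⁻¹ * C.d C.a C.b * ((j : G) * C.d C.a C.b) = _
    have c1 := hce _ hxC _ C.ab_mem_E
    have c2 := hce _ hj.1 _ C.ab_mem_E
    have c3 := hce _ hxC _ hti
    have c4 := hce _ hj.1 _ hti
    have c5 : t⁻¹ * C.d C.a C.b = C.d C.a C.b * t⁻¹ := C.AG_comm (C.E_le_AG hti) (C.E_le_AG C.ab_mem_E)
    have hmx' : (j : G) * ((x : ↥(CG z)) : G) = ((x : ↥(CG z)) : G) * (j : G) := by
      have h3 : (j : G) * C.d C.a C.b * ((x : ↥(CG z)) : G) =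
          ((x : ↥(CG z)) : G) * ((j : G) * C.d C.a C.b) := hmx
      rw [mul_assoc, ← c1, ← mul_assoc, ← mul_assoc] at h3
      exact mul_right_cancel h3
    have hj2 : (j : G) * (j : G) = 1 := by
      have h3 : (j : G) * C.d C.a C.b * ((j : G) * C.d C.a C.b) = 1 := congrArg Subtype.val hm2
      rw [← mul_assoc, mul_assoc (j : G) _ (j : G), ← c2, ← mul_assoc, mul_assoc, hab, mul_one] at h3
      exact h3
    calc (j : G) * ((x : ↥(CG z)) : G) * t⁻¹ * C.d C.a C.b * ((j : G) * C.d C.a C.b)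
        = ((x : ↥(CG z)) : G) * (j : G) * (t⁻¹ * (C.d C.a C.b * (j : G)) * C.d C.a C.b) := by
          rw [hmx']; simp only [mul_assoc]
      _ = ((x : ↥(CG z)) : G) * (j : G) * ((t⁻¹ * (j : G)) * (C.d C.a C.b * C.d C.a C.b)) := by
          rw [← c2]; simp only [mul_assoc]
      _ = ((x : ↥(CG z)) : G) * (((j : G) * (j : G)) * t⁻¹) := by
          rw [hab, mul_one, ← c4]; simp only [mul_assoc]
      _ = ((x : ↥(CG z)) : G) * t⁻¹ := by rw [hj2, one_mul]
  obtain ⟨s, hs, hsE⟩ : ∃ s : ↥Q, (((s : ↥(CG z)) : G) = t⁻¹) ∧ InE (C.pr s) := by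
    obtain ⟨c, hc, hce⟩ := (inv_mem htQ : t⁻¹ ∈ C.QG)
    refine ⟨⟨c, hc⟩, hce, C.inE_of_mem_E ?_⟩
    show (c : G) ∈ C.E
    rw [show (c : G) = t⁻¹ from hce]
    exact inv_mem hjj
  have hpr : C.pr r = vadd (C.pr x) (C.pr s) := by
    rw [← C.std.model.pr_mul]
    congr 1
    refine Subtype.ext (Subtype.ext ?_)
    rw [hrx, ← hs]; rfl
  have hufix : C.img i (C.pr r) = C.pr r := by
    have hadd : IsAdd (C.img i) := (fhom_good C.std.model i).add
    have hs' : C.img i (C.pr s) = C.pr s := by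
      have hf := (C.image_CE hi.1).2
      have h0 : C.img i 0 = 0 := hadd.map_zero
      rcases hsE with e | e | e | e <;> rw [e]
      · exact h0
      · exact hf.1
      · exact hf.2
      · rw [hadd, show C.img i e1 = e1 from hf.1, show C.img i e2 = e2 from hf.2]
    rw [hpr, hadd, hui, hs']
  have hE := tv_fix C.range hj.isP hi.isP (fun h => huv h.symm) (C.pr r) w hw hufix
  have hxE : InE (C.pr x) := by
    have h2 : C.pr x = vadd (C.pr r) (C.pr s) := by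
      rw [hpr]; exact Fin.ext (by simp [vadd_val, Nat.xor_assoc])
    rw [h2]; exact inE_vadd hE hsE
  rcases C.mem_of_inE hxE with hx' | hx'
  · exact C.proj_eq_one_iff.2 hx'
  · exfalso
    -- then the new member is the product of `j` with `z`
    have hz : ((j'' : G))⁻¹ * ((j : G) * z) ∈ C.E := by
      have : ((x : ↥(CG z)) : G)⁻¹ * z ∈ C.E := by
        rw [inv_eq_of_mul_eq_one_right
          (show ((x : ↥(CG z)) : G) * (x : ↥(CG z)) = 1 from congrArg Subtype.val hx2)]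
        exact hx'
      have := mul_mem hjj this
      rwa [ht, mul_assoc, mul_assoc (j : G), mul_inv_cancel_left] at this
    obtain ⟨k, hk, hf, htv⟩ := hj.isP
    obtain ⟨h, hh, hhE⟩ := C.lift_stabE (u := k) ⟨hk, hf⟩
    obtain ⟨a1, -⟩ := hj.into_plane hhE (by rw [show C.img h = k from hh]; exact htv.1)
    obtain ⟨a2, -⟩ := hj''.into_plane hhE (by rw [himg, show C.img h = k from hh]; exact htv.1)
    have key : ∀ (l : ↥(CG z)), C.IsNbr l → (h : G) * l * (h : G)⁻¹ ∈ C.AG →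
        ∃ y, y ∈ C.outer ∧ (h : G) * l * (h : G)⁻¹ = C.zp y := by
      intro l hl ha'
      have hl' := hl.conj hhE
      obtain ⟨-, g, hg, x0, xa, xb, xc, xe, hx0⟩ := hl'
      obtain ⟨m0, hm0, hmz⟩ := C.exists_conj_zp xa xb xc
      have e : (h : G) * l * (h : G)⁻¹ = (g : G)⁻¹ * m0 * z * ((g : G)⁻¹ * m0)⁻¹ := by
        calc (h : G) * l * (h : G)⁻¹ = (g : G)⁻¹ * ((g : G) * ((h : G) * l * (h : G)⁻¹) * (g : G)⁻¹) * g := by group
          _ = (g : G)⁻¹ * (m0 * z * m0⁻¹) * g := by rw [hmz]; exact congrArg (fun v => (g : G)⁻¹ * v * g) hx0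
          _ = _ := by group
      rw [e] at ha'
      obtain ⟨y, ya, yb, yc, hy⟩ := C.conj_mem_pts (mul_mem (inv_mem hg) hm0) ha'
      rw [← e] at hy
      refine ⟨y, C.mem_outer.2 ⟨ya, yb, yc, fun ye => (C.pj_mem_nbrs (hl.conj hhE)).2.1 ?_⟩, hy⟩
      rw [pj, base]
      refine congrArg C.proj (Subtype.ext ?_)
      show (h : G) * l * (h : G)⁻¹ = z
      rw [hy, ye, C.zp_e]
    obtain ⟨y, hy, hy1⟩ := key j hj a1
    obtain ⟨y', hy', hy2⟩ := key j'' hj'' a2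
    have hE' : C.zp y' * (C.zp y * z) ∈ C.E := by
      have e : C.zp y' * (C.zp y * z) = (h : G) * ((j'' : G)⁻¹ * ((j : G) * z)) * (h : G)⁻¹ := by
        rw [← C.AG_inv (C.zp_mem (C.mem_outer.1 hy').2.2.1), ← hy1, ← hy2]
        have hzh := Subgroup.mem_centralizer_singleton_iff.1 h.2
        calc ((h : G) * j'' * (h : G)⁻¹)⁻¹ * ((h : G) * j * (h : G)⁻¹ * z)
            = (h : G) * (j'' : G)⁻¹ * (j : G) * ((h : G)⁻¹ * z) := by group
          _ = _ := by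
            rw [show (h : G)⁻¹ * z = z * (h : G)⁻¹ from by
              rw [eq_mul_inv_iff_mul_eq, mul_assoc, ← hzh, inv_mul_cancel_left]]
            group
      rw [e, (Subgroup.mem_centralizer_iff.1 hhE _ hz).symm, mul_inv_cancel_right]
      exact hz
    obtain ⟨ya, yb, yc, ye⟩ := C.mem_outer.1 hy
    obtain ⟨ya', yb', yc', ye'⟩ := C.mem_outer.1 hy'
    by_cases hyy : y' = y
    · subst hyy
      rw [← mul_assoc, C.AG_sq (C.zp_mem yc), one_mul] at hE'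
      exact C.z_not_mem_E hE'
    rw [← mul_assoc, C.zp_mul_zp yc' yc hyy] at hE'
    -- `d y' y ∈ z E` contradicts the duads
    have hmem : C.d y' y * z * z⁻¹ = C.d y' y := by group
    have hzi : z⁻¹ = z := C.AG_inv C.z_mem_AG
    rcases C.mem_E_iff.1 hE' with e | e | e | e
    · have h1 : C.d y' y = z := by
        rw [← hmem, e, one_mul, hzi]
      exact (C.duads.other _ _ hyy).2 (isConj_iff.2 ⟨1, by simp [h1]⟩)
    all_goals
      have h1 : C.d y' y = C.d C.c C.e ∨ C.d y' y = C.d C.a C.e ∨ C.d y' y = C.d C.b C.e := by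
        rw [← hmem, e, hzi]
        first
          | exact Or.inl ((congrArg (C.d C.a C.b * ·) C.zp_e.symm).trans (C.ab_mul_zp C.e))
          | exact Or.inr (Or.inl ((congrArg (C.d C.b C.c * ·) C.zp_e.symm).trans
              (C.bc_mul_zp C.hae.symm C.hce.symm)))
          | exact Or.inr (Or.inr ((congrArg (C.d C.a C.c * ·) C.zp_e.symm).trans
              (C.ac_mul_zp C.hbe.symm C.hce.symm)))
      have hm' : y' ∈ ({y', y} : Finset GolayPt) := Finset.mem_insert_self _ _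
      rcases h1 with h1 | h1 | h1 <;>
        rw [C.duads.inj _ _ _ _ hyy h1] at hm' <;>
        simp only [Finset.mem_insert, Finset.mem_singleton] at hm' <;>
        tauto

end Cfg

end CfsgLib.LargeFischer58
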