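import Cfsg.Agent.LargeFischer58.Basic

/-!
The orbit of the first vector of the distinguished line under the linear part of the image of
`H/Q` has at least 378 members, so the pointwise stabiliser of the line has order at most 25920.
-/

set_option autoImplicit false
set_option maxRecDepth 100000

namespace CfsgLib.LargeFischer58

open CfsgLib.LargeFischer85 CfsgLib.LargeFischer28

/-- A linear good map and its inverse. -/
def sqC : ℕ × ℕ :=
  (0x800400020010200100080040008004002001,
   0x800400080040020010200100008004002001)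

/-- Three flagged elements of the Sylow subgroup. -/
def orbGen : List ℕ := [394, 387, 47]

/-- The orbit: the vector, plus `4096` times the position of its parent plus `512` times the
generator. -/
def orbN : List ℕ :=
  [1470, 6293358, 6613, 2102018, 4200149, 6297310, 2108857, 4205946, 6302069, 4208557,
  6303938, 16648, 6309301, 20739, 2121322, 4215811, 4221954, 6319977, 31399, 6324058,
  35438, 4227079, 6327125, 36976, 6330093, 41988, 2141037, 6332466, 4239436, 6336584,
  2148014, 4246532, 6342501, 2152887, 4250102, 6344771, 4253343, 6352538, 64869, 68575,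
  6364889, 4271863, 78028, 2177280, 4273919, 6372826, 4279328, 6376094, 89511, 2184797,
  4281096, 90117, 2188731, 4285946, 4289568, 6386448, 102054, 2197507, 4296085, 6391485,
  2203563, 4299455, 4302294, 6400733, 111108, 4308475, 6406172, 4314124, 6410264, 4317219,
  130009, 2225565, 4321291, 133598, 2228242, 4329327, 4332394, 6429543, 139408, 6433654,
  145416, 2244022, 6434835, 151545, 6440367, 155575, 4345865, 6446506, 4354029, 6450773,
  4356763, 6453759, 165823, 2261505, 4361663, 2270870, 4368745, 6463548, 4374425, 6469696,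
  180239, 2281318, 4378533, 186279, 2281730, 4382335, 188800, 2288250, 6483456, 196469,
  4389558, 6486446, 2296829, 4392064, 6491751, 6496456, 2309867, 4406206, 6506347, 217105,
  4414208, 6510458, 6514176, 6517184, 4427766, 4429423, 238083, 2337273, 4434299, 243110,
  4437630, 253561, 2347280, 6544303, 6546806, 259965, 4454144, 6551997, 4457957, 6553732,
  267947, 2363406, 4462041, 6561659, 271863, 4464692, 6562060, 277402, 2371680, 4472798,
  279299, 4476903, 284670, 2382266, 2384448, 4484606, 6583661, 2399913, 4494528, 6592894,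
  4497968, 2407769, 4503564, 6602463, 311820, 6605530, 4511745, 6609623, 4515888, 6611232,
  325627, 2423809, 4519658, 6618070, 2426365, 4526037, 4528747, 4536153, 344132, 4543536,
  354041, 2452390, 356362, 4553311, 6655741, 6662571, 374377, 6667135, 4574181, 6670319,
  4578907, 6672513, 385796, 2490608, 4587571, 6687321, 399706, 2498559, 6689548, 6696425,
  2505563, 6699024, 2509206, 6708950, 6713061, 4617218, 6715111, 4623771, 6717506, 432825,
  2529254, 6725535, 2533338, 4630427, 445419, 4638190, 6737024, 4644701, 452736, 4649184,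
  4656614, 6762135, 2571280, 4667066, 6762552, 6770363, 4673616, 6773742, 483968, 4681067,
  6776539, 6779137, 6785216, 2594391, 4690816, 2602679, 4699894, 4702512, 4708245, 6807683,
  6814585, 6821478, 535555, 6825886, 6832448, 6839023, 6842198, 4747400, 6846429, 560509,
  2657013, 4754039, 562112, 569013, 6858357, 6860836, 2673502, 4770717, 6874489, 6881243,
  4785631, 6883191, 594434, 598049, 6896106, 6898192, 6906051, 619930, 6930302, 640064,
  4839839, 653925, 2752518, 669625, 2764849, 6963340, 2776055, 4871176, 2789389, 4889318,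
  4891995, 4897717, 705281, 2805342, 4902557, 711419, 4905879, 2814496, 7011829, 4927166,
  7020564, 733888, 2837846, 4943319, 749602, 2848682, 4947200, 7049149, 7055001, 771422,
  785420, 7078084, 7082800, 7092633, 4999589, 2910869, 5006761, 817154, 5011433, 7113179,
  824128, 7121254, 850269, 2954016, 7150505, 866671, 7159279, 7165419, 2985389, 5082478,
  7183837, 7186464, 7196278, 909242, 921518, 5111852, 931157, 3030703, 5127099, 7224062,
  7225504, 944726, 7237697, 952813, 7247255, 7260086, 3079789, 983300, 990976, 3097601,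
  1009275, 5208023, 7303208, 5229760, 1043464, 3140269, 5246016, 7357823, 5266783, 7364738,
  1082727, 5279920, 7386474, 7394320, 3217751, 5322756, 7446721, 7454110, 7465447, 7495031,
  5437093, 3353648, 7561424, 5469786, 7580393, 1313280, 3409759, 3415895, 7614358, 7618538,
  7622382, 5537530, 1344768, 7658109, 1402869, 3500714, 7692808, 5712890]

/-- The vector at a position. -/
def orbV (i : ℕ) : ℕ := orbN.getD i 0 % 4096

/-- The parent of a position. -/
def orbP (i : ℕ) : ℕ := orbN.getD i 0 / 4096 % 512

/-- The generator of a position. -/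
def orbK (i : ℕ) : ℕ := orbN.getD i 0 / 4096 / 512

/-- A generator applied to a vector. -/
def orbApp (k v : ℕ) : ℕ :=
  if k < 3 then appN (elsC (orbGen.getD k 0)) 12 v else appN sqC.1 12 (appN sqC.1 12 v)

theorem c_orbGen : (glB sqC.1 sqC.2 && (List.range 3).all fun k =>
    decide (orbGen.getD k 0 < 512) && flagN.testBit (orbGen.getD k 0)) = true := by
  decide +kernel

theorem c_orb : (orbV 0 == 1470 && (List.range 378).all fun i => i == 0 ||
    (decide (orbP i < i) && orbApp (orbK i) (orbV (orbP i)) == orbV i)) = true := by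
  decide +kernel

theorem c_orbNodup : ((List.range 378).all fun i => (List.range i).all fun j =>
    !(orbV i == orbV j)) = true := by
  decide +kernel

theorem exists_orbGen {R : Subgroup (Equiv.Perm W)} (hR : RangeOK R) (k : ℕ) :
    ∃ m ∈ R ⊓ GL6, ∀ v : W, (m v).val = orbApp k v.val := by
  have hsq : ∀ g ∈ GL6, g * g ∈ R ⊓ GL6 := fun g hg => ⟨hR.sq g hg, GL6.mul_mem hg hg⟩
  have h := c_orbGen
  simp only [Bool.and_eq_true, List.all_eq_true, List.mem_range, decide_eq_true_eq] at h
  by_cases hk : k < 3
  · obtain ⟨hi, hf⟩ := h.2 k hk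
    exact ⟨elP ⟨_, hi⟩, flag_mem hsq ⟨_, hi⟩ hf, fun v => by
      rw [elP_apply, orbApp, if_pos hk]; rfl⟩
  · obtain ⟨g, hg, hgc⟩ := exists_GL6 h.1
    exact ⟨g * g, hsq g hg, fun v => by
      rw [Equiv.Perm.mul_apply, hgc, orbApp, if_neg hk]; rfl⟩

theorem e1_orbit {R : Subgroup (Equiv.Perm W)} (hR : RangeOK R) :
    ∀ i, i < 378 → ∃ m ∈ R ⊓ GL6, (m e1).val = orbV i := by
  intro i
  induction i using Nat.strong_induction_on with
  | _ i ih =>
    intro hi
    have h := c_orb
    simp only [Bool.and_eq_true, List.all_eq_true, List.mem_range, Bool.or_eq_true, beq_iff_eq,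
      decide_eq_true_eq] at h
    rcases h.2 i hi with h0 | ⟨hp, ha⟩
    · exact ⟨1, Subgroup.one_mem _, by rw [h0, h.1]; rfl⟩
    · obtain ⟨m, hm, hv⟩ := ih _ hp (by omega)
      obtain ⟨g, hg, hgv⟩ := exists_orbGen hR (orbK i)
      exact ⟨g * m, Subgroup.mul_mem _ hg hm, by rw [Equiv.Perm.mul_apply, hgv, hv, ha]⟩

theorem om_om_ne {n : W} (h : om (om n) = om n) : n = 0 := om_fix (om_inj h)

theorem mem_GL6_of_fixE {g : Equiv.Perm W} (hg : IsGood g) (hf : FixE g) : g ∈ GL6 := by
  by_contra h
  have ha := anti_of_not_lin hg h e1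
  rw [hf.1, show g (om e1) = om e1 from hf.2] at ha
  exact absurd (om_om_ne ha.symm) (by decide +kernel)

theorem stabE_le {R : Subgroup (Equiv.Perm W)} (hR : RangeOK R) : stabE R ≤ R ⊓ GL6 :=
  fun g hg => ⟨(mem_stabE.1 hg).1, mem_GL6_of_fixE (hR.le (mem_stabE.1 hg).1) (mem_stabE.1 hg).2⟩

theorem mem_stabE_of {R : Subgroup (Equiv.Perm W)} {g : Equiv.Perm W} (hg : g ∈ R ⊓ GL6)
    (h : g e1 = e1) : g ∈ stabE R :=
  mem_stabE.2 ⟨hg.1, h, by
    show g (om e1) = om e1
    rw [(mem_GL6.1 hg.2).2, h]⟩

theorem card_stabE_le {R : Subgroup (Equiv.Perm W)} (hR : RangeOK R) :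
    Nat.card (stabE R) ≤ 25920 := by
  obtain ⟨u, huR, huL⟩ := hR.anti
  have hM : Nat.card R = 2 * Nat.card ↥(R ⊓ GL6) := card_eq_two_mul hR.le huR huL
  rw [hR.card] at hM
  choose t ht htv using fun i : Fin 378 => e1_orbit hR i.val i.isLt
  let F : Fin 378 × ↥(stabE R) → ↥(R ⊓ GL6) := fun p =>
    ⟨t p.1 * p.2.1, Subgroup.mul_mem _ (ht p.1) (stabE_le hR p.2.2)⟩
  have hF : Function.Injective F := by
    rintro ⟨i, x⟩ ⟨j, y⟩ h
    have h' : t i * x.1 = t j * y.1 := congrArg Subtype.val h
    have hij : orbV i.val = orbV j.val := by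
      have := congrArg (fun g : Equiv.Perm W => (g e1).val) h'
      simpa [(mem_stabE.1 x.2).2.1, (mem_stabE.1 y.2).2.1, htv] using this
    have e : i = j := by
      have hn := c_orbNodup
      simp only [List.all_eq_true, List.mem_range, Bool.not_eq_true', beq_eq_false_iff_ne] at hn
      rcases lt_trichotomy i.val j.val with hlt | hlt | hlt
      · exact absurd hij.symm (hn j.val j.isLt i.val hlt)
      · exact Fin.ext hlt
      · exact absurd hij (hn i.val i.isLt j.val hlt)
    subst e
    exact Prod.ext rfl (Subtype.ext (mul_left_cancel h'))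
  have hc := Nat.card_le_card_of_injective F hF
  rw [Nat.card_prod, Nat.card_eq_fintype_card (α := Fin 378), Fintype.card_fin] at hc
  omega

end CfsgLib.LargeFischer58
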